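import Mathlib
import Cfsg.Agent.Lib.AschF.OddE

/-!
# Even-dimensional orthogonal groups: the structure theorem over `aschF`, in all characteristics
-/

set_option autoImplicit false

namespace Cfsg.Agent.Lib.CmaxE.Core

open Matrix Module Cfsg Cfsg.Geo
open Cfsg.Agent.Lib.Asch.Forms Cfsg.Agent.Lib.AschF.Adj Cfsg.Agent.Lib.AschF.OddA Cfsg.Agent.Lib.AschF.OddB
  Cfsg.Agent.Lib.AschF.OddD Cfsg.Agent.Lib.AschF.Dich Cfsg.Agent.Lib.AschF.Top Cfsg.Agent.Lib.AschF.Sub
  Cfsg.Agent.Lib.AschF.QuadR Cfsg.Agent.Lib.AschF.TwoF Cfsg.Agent.Lib.AschF.OddE Cfsg.Agent.Lib.AschF.Cliff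
open Cfsg.Agent.Lib.Asch.XT Cfsg.Agent.Lib.Asch.GT Cfsg.Agent.Lib.Asch.SC
open Cfsg.Agent.Lib.Geo.QForm (pol pol_self Q_zero Q_add pol_add_left pol_add_right pol_smul_left pol_smul_right pol_symm)
open Cfsg.Agent.Lib.Geo.Basic (mem_subspaceStabilizer_iff_forall_mem mem_subspaceStabilizer_of_forall_mem)

universe u

variable {ι : Type} [Fintype ι] [DecidableEq ι] {F : Type u} [Field F] [Fintype F]
variable {Q : (ι → F) → F}

omit [Fintype ι] [DecidableEq ι] in
/-- Square roots in characteristic two. -/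
theorem exists_sqrt (h2 : (2 : F) = 0) (a : F) : ∃ c : F, c ^ 2 = a := by
  have hc : ringChar F = 2 := by
    haveI : CharP F 2 := by
      obtain ⟨p, hp⟩ := CharP.exists F
      have h3 : ((2 : ℕ) : F) = 0 := by exact_mod_cast h2
      have h4 := (CharP.cast_eq_zero_iff F p 2).1 h3
      have h5 : p.Prime := CharP.char_is_prime F p
      have h6 : p = 2 := (Nat.prime_dvd_prime_iff_eq h5 Nat.prime_two).1 h4
      rw [h6] at hp
      exact hp
    exact ringChar.eq F 2
  obtain ⟨c, hc'⟩ := FiniteField.isSquare_of_char_two hc a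
  exact ⟨c, by rw [hc', pow_two]⟩

omit [Fintype F] in
theorem sq_inj_of_two (h2 : (2 : F) = 0) {a b : F} (h : a ^ 2 = b ^ 2) : a = b := by
  have h3 : (a - b) ^ 2 = 0 := by
    have : (a - b) ^ 2 = a ^ 2 - b ^ 2 - 2 * (a * b - b ^ 2) := by ring
    rw [this, h, h2]
    ring
  exact sub_eq_zero.1 (pow_eq_zero_iff (two_ne_zero) |>.1 h3)

/-- The data of being in no class, even dimensional orthogonal case, all characteristics. -/
structure NoClassE (Q : (ι → F) → F) (H : Subgroup (GL ι F)) : Prop where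
  ts : ∀ W : Submodule F (ι → F), W ≠ ⊥ → IsTotallySingularQuad Q W → H ≤ subspaceStabilizer W → False
  nd : ∀ W : Submodule F (ι → F), W ≠ ⊥ → W ≠ ⊤ → IsNondegenerateOn (pol Q) W → H ≤ subspaceStabilizer W → False
  ns : ∀ v : ι → F, (2 : F) = 0 → Q v ≠ 0 → H ≤ subspaceStabilizer (Submodule.span F {v}) → False
  dec : ∀ (t k : ℕ) (D : Fin t → Submodule F (ι → F)), IsOrthogonalMDecomposition Q k D →
    H ≤ decompositionStabilizer D → False
  pair : ∀ (k : ℕ) (D : Fin 2 → Submodule F (ι → F)), IsMDecomposition k D → (∀ i, IsTotallySingularQuad Q (D i)) →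
    H ≤ decompositionStabilizer D → False
  fld : ∀ (r : ℕ) (K : Subalgebra F (Matrix ι ι F)), r.Prime → IsFieldSubalgebra r K → IsAdjointClosedFor (pol Q) K →
    H ≤ subalgebraNormalizer K → False
  ten : ∀ (a b : ℕ) (e : ι ≃ Fin a × Fin b) (P : GL ι F) (f₁ : (Fin a → F) → (Fin a → F) → F)
      (f₂ : (Fin b → F) → (Fin b → F) → F) (ε₁ ε₂ : F), 2 ≤ a → 2 ≤ b → HF (RingEquiv.refl F) ε₁ f₁ →
      HF (RingEquiv.refl F) ε₂ f₂ → ε₁ * ε₂ = 1 →
      (∀ x x' y y', pol Q (Cfsg.Agent.Lib.NotMax.Tensor.TT e P x y) (Cfsg.Agent.Lib.NotMax.Tensor.TT e P x' y') = f₁ x x' * f₂ y y') →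
      (∀ h ∈ H, ∃ (α : GL (Fin a) F) (β : GL (Fin b) F),
        (h : Matrix ι ι F) * (P : Matrix ι ι F) = (P : Matrix ι ι F) * Cfsg.Agent.Lib.Asch.Kr.kr e α β) → False
  wr : ∀ (a k : ℕ) (e₂ : ι ≃ (Fin k → Fin a)) (P₂ : GL ι F) (A : (Fin a → F) → (Fin a → F) → F) (ε₁ c : F),
      2 ≤ a → 2 ≤ k → HF (RingEquiv.refl F) ε₁ A → c ≠ 0 →
      (∀ x y : (Fin k → Fin a) → F, pol Q ((P₂ : Matrix ι ι F) *ᵥ (x ∘ e₂)) ((P₂ : Matrix ι ι F) *ᵥ (y ∘ e₂)) =
        c * ∑ u, ∑ v, x u * (∏ i, gramMatrix A (u i) (v i)) * (y v)) → ε₁ ^ k = 1 →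
      H ≤ tensorWreathSubgroup a k e₂ P₂ → False
  sub : ∀ (F₁ : Subfield F) (s : ℕ) (P : GL ι F) (ζ : F), s.Prime → Fintype.card F = Nat.card F₁ ^ s → ζ ≠ 0 →
    IsQuadFormRationalStructure (fun v => ζ * Q v) F₁ P → H ≤ subfieldSubgroup F₁ P → False
  rg : ∀ R : Subgroup (GL ι F), (2 : F) ≠ 0 → R ≤ H → HN H R → ActsAbsolutelyIrreducibly (matrixSet R) → ScC R →
    (∀ x ∈ R, ∃ m : Fˣ, m ^ 2 = 1 ∧ x ^ 2 = sc m) → False

/-- Invariant subspaces in all characteristics. -/
theorem reducible_quad (hQ : IsNondegenerateQuadraticForm Q) {H : Subgroup (GL ι F)} (hH : H ≤ isometryGroup F Q)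
    {W : Submodule F (ι → F)} (hinv : ∀ g ∈ H, ∀ v ∈ W, (g : Matrix ι ι F) *ᵥ v ∈ W) :
    (∃ W' : Submodule F (ι → F), W' ≠ ⊥ ∧ IsTotallySingularQuad Q W' ∧ H ≤ subspaceStabilizer W') ∨
    IsNondegenerateOn (pol Q) W ∨
    ((2 : F) = 0 ∧ ∃ v : ι → F, Q v ≠ 0 ∧ H ≤ subspaceStabilizer (Submodule.span F {v})) := by
  classical
  rcases reducible_cases (hf_polar hQ) H (fun g hg u v => polar_isom (hH hg) u v) hinv with ⟨W', hW', hts, hinv'⟩ | hnd
  swap
  · exact Or.inr (Or.inl hnd)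
  by_cases h2 : (2 : F) = 0
  swap
  · left
    refine ⟨W', hW', fun w hw => ?_, fun g hg => (mem_subspaceStabilizer_iff_forall_mem W' g).2 (hinv' g hg)⟩
    have h1 := hts w hw w hw
    rw [pol_self hQ] at h1
    exact (mul_eq_zero.1 h1).resolve_left h2
  -- characteristic two
  have hadd : ∀ u ∈ W', ∀ v ∈ W', Q (u + v) = Q u + Q v := by
    intro u hu v hv
    rw [Q_add hQ, hts u hu v hv, add_zero]
  let W₀ : Submodule F (ι → F) :=
    { carrier := {w | w ∈ W' ∧ Q w = 0}
      add_mem' := by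
        rintro a b ⟨ha, ha'⟩ ⟨hb, hb'⟩
        exact ⟨W'.add_mem ha hb, by rw [hadd a ha b hb, ha', hb', add_zero]⟩
      zero_mem' := ⟨W'.zero_mem, Q_zero hQ⟩
      smul_mem' := by
        rintro c a ⟨ha, ha'⟩
        exact ⟨W'.smul_mem c ha, by rw [hQ.smul, ha', mul_zero]⟩ }
  by_cases h0 : W₀ = ⊥
  · right; right
    refine ⟨h2, ?_⟩
    obtain ⟨v, hv, hv0⟩ := Submodule.exists_mem_ne_zero_of_ne_bot hW'
    have hQv : Q v ≠ 0 := by
      intro h
      have : v ∈ W₀ := ⟨hv, h⟩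
      rw [h0] at this
      exact hv0 (by simpa using this)
    refine ⟨v, hQv, fun g hg => ?_⟩
    apply mem_subspaceStabilizer_of_forall_mem
    have key : ∀ u ∈ W', u ∈ Submodule.span F {v} := by
      intro u hu
      obtain ⟨c, hc⟩ := exists_sqrt h2 (Q u / Q v)
      have h3 : u + c • v ∈ W₀ := by
        refine ⟨W'.add_mem hu (W'.smul_mem c hv), ?_⟩
        rw [hadd u hu _ (W'.smul_mem c hv), hQ.smul, hc]
        have h6 : Q u / Q v * Q v = Q u := by field_simp
        rw [h6, ← two_mul, h2, zero_mul]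
      rw [h0] at h3
      have h4 : u + c • v = 0 := by simpa using h3
      have h5 : u = (-c) • v := by
        rw [neg_smul]
        exact eq_neg_of_add_eq_zero_left h4
      rw [h5]
      exact Submodule.smul_mem _ _ (Submodule.mem_span_singleton_self v)
    intro u hu
    obtain ⟨c, rfl⟩ := Submodule.mem_span_singleton.1 hu
    rw [Matrix.mulVec_smul]
    exact Submodule.smul_mem _ _ (key _ (hinv' g hg v hv))
  · left
    refine ⟨W₀, h0, fun w hw => hw.2, fun g hg => ?_⟩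
    apply mem_subspaceStabilizer_of_forall_mem
    rintro w ⟨hw, hw'⟩
    exact ⟨hinv' g hg w hw, by rw [Q_isom (hH hg), hw']⟩

/-- Irreducibility. -/
theorem irr_of_noclassE (hQ : IsNondegenerateQuadraticForm Q) {H : Subgroup (GL ι F)}
    (hH : H ≤ isometryGroup F Q) (hNo : NoClassE Q H) : ActsIrreducibly (matrixSet H) := by
  intro W hW
  have hinv : ∀ g ∈ H, ∀ v ∈ W, (g : Matrix ι ι F) *ᵥ v ∈ W := by
    intro g hg v hv
    exact hW _ ⟨g, hg, rfl⟩ ⟨v, hv, rfl⟩
  by_contra hcon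
  push Not at hcon
  rcases reducible_quad hQ hH hinv with ⟨W', h0, hts, hle⟩ | hnd | ⟨h2, v, hv, hle⟩
  · exact hNo.ts W' h0 hts hle
  · exact hNo.nd W hcon.1 hcon.2 hnd (fun g hg => (mem_subspaceStabilizer_iff_forall_mem W g).2 (hinv g hg))
  · exact hNo.ns v h2 hv hle

/-- A pair of complementary subspaces on which the polar form vanishes. -/
theorem pair_of_polar (hQ : IsNondegenerateQuadraticForm Q) {H : Subgroup (GL ι F)} (hH : H ≤ isometryGroup F Q)
    (hIrr : ActsIrreducibly (matrixSet H)) {k : ℕ} (hk : 2 ≤ k) {D : Fin 2 → Submodule F (ι → F)} (hD : IsMDecomposition k D)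
    (hts : ∀ i, IsTotallySingularFor (pol Q) (D i)) (hle : H ≤ decompositionStabilizer D) :
    ∀ i, IsTotallySingularQuad Q (D i) := by
  classical
  by_cases h2 : (2 : F) = 0
  swap
  · intro i w hw
    have h1 := hts i w hw w hw
    rw [pol_self hQ] at h1
    exact (mul_eq_zero.1 h1).resolve_left h2
  have hadd : ∀ i, ∀ u ∈ D i, ∀ v ∈ D i, Q (u + v) = Q u + Q v := by
    intro i u hu v hv
    rw [Q_add hQ, hts i u hu v hv, add_zero]
  have hinvW : ∀ W : Submodule F (ι → F), W ≠ ⊥ → W ≠ ⊤ → (∀ g ∈ H, ∀ v ∈ W, (g : Matrix ι ι F) *ᵥ v ∈ W) → False := by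
    intro W h0 h1 hW
    rcases hIrr W (by
      rintro _ ⟨g, hg, rfl⟩ _ ⟨v, hv, rfl⟩
      exact hW g hg v hv) with h | h
    · exact h0 h
    · exact h1 h
  have hne : ∀ i, D i ≠ ⊥ := by
    intro i h
    have := hD.finrank_eq i
    rw [h, finrank_bot] at this
    omega
  have hdisj : ∀ x ∈ D 0, ∀ y ∈ D 1, x + y = 0 → x = 0 := by
    intro x hx y hy hxy
    have h1 : Disjoint (D 0) (D 1) := hD.indep.pairwiseDisjoint (by decide)
    have h3 : x = -y := eq_neg_of_add_eq_zero_left hxy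
    have h4 : x ∈ D 1 := by
      rw [h3]
      exact (D 1).neg_mem hy
    exact (Submodule.disjoint_def.1 h1) x hx h4
  -- the singular parts
  let S : Fin 2 → Submodule F (ι → F) := fun i =>
    { carrier := {w | w ∈ D i ∧ Q w = 0}
      add_mem' := by
        rintro a b ⟨ha, ha'⟩ ⟨hb, hb'⟩
        exact ⟨(D i).add_mem ha hb, by rw [hadd i a ha b hb, ha', hb', add_zero]⟩
      zero_mem' := ⟨(D i).zero_mem, Q_zero hQ⟩
      smul_mem' := by
        rintro c a ⟨ha, ha'⟩
        exact ⟨(D i).smul_mem c ha, by rw [hQ.smul, ha', mul_zero]⟩ }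
  have hSmem : ∀ i w, w ∈ S i ↔ w ∈ D i ∧ Q w = 0 := fun _ _ => Iff.rfl
  have hSne : ∀ i, S i ≠ ⊥ := by
    intro i h0
    obtain ⟨v, hv, hv0⟩ := Submodule.exists_mem_ne_zero_of_ne_bot (hne i)
    by_cases hQv : Q v = 0
    · have : v ∈ S i := ⟨hv, hQv⟩
      rw [h0] at this
      exact hv0 (by simpa using this)
    -- a second vector
    have h1 : finrank F (Submodule.span F {v}) < finrank F (D i) := by
      rw [finrank_span_singleton hv0, hD.finrank_eq i]
      omega
    have h3 : ∃ u ∈ D i, u ∉ Submodule.span F {v} := by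
      by_contra hcon
      push Not at hcon
      have := Submodule.finrank_mono hcon
      omega
    obtain ⟨u, hu, hu'⟩ := h3
    obtain ⟨c, hc⟩ := exists_sqrt h2 (Q u / Q v)
    have h4 : u + c • v ∈ S i := by
      refine ⟨(D i).add_mem hu ((D i).smul_mem c hv), ?_⟩
      rw [hadd i u hu _ ((D i).smul_mem c hv), hQ.smul, hc]
      have h6 : Q u / Q v * Q v = Q u := by field_simp
      rw [h6, ← two_mul, h2, zero_mul]
    rw [h0] at h4
    have h5 : u + c • v = 0 := by simpa using h4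
    apply hu'
    have h6 : u = (-c) • v := by
      rw [neg_smul]
      exact eq_neg_of_add_eq_zero_left h5
    rw [h6]
    exact Submodule.smul_mem _ _ (Submodule.mem_span_singleton_self v)
  have hperm : ∀ g ∈ H, ∃ σ : Equiv.Perm (Fin 2), ∀ i, ∀ v ∈ D i, (g : Matrix ι ι F) *ᵥ v ∈ D (σ i) := by
    intro g hg
    obtain ⟨σ, hσ⟩ := hle hg
    refine ⟨σ, fun i v hv => ?_⟩
    rw [← hσ i]
    exact ⟨v, hv, rfl⟩
  by_contra hcon
  push Not at hcon
  obtain ⟨i₀, hcon'⟩ := hcon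
  simp only [IsTotallySingularQuad] at hcon'
  push Not at hcon'
  obtain ⟨w₀, hw₀, hQw₀⟩ := hcon'
  -- both nonzero or one invariant
  by_cases hboth : ∀ i, ∃ w ∈ D i, Q w ≠ 0
  · refine hinvW (S 0 ⊔ S 1) ?_ ?_ ?_
    · intro h
      have := hSne 0
      rw [eq_bot_iff] at h
      exact this (eq_bot_iff.2 (le_sup_left.trans h))
    · intro h
      obtain ⟨w, hw, hQw⟩ := hboth 0
      have hmem : w ∈ S 0 ⊔ S 1 := by
        rw [h]
        trivial
      obtain ⟨x, hx, y, hy, hxy⟩ := Submodule.mem_sup.1 hmem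
      have h3 : x - w = 0 := hdisj _ ((D 0).sub_mem hx.1 hw) y hy.1 (by rw [← hxy]; abel)
      apply hQw
      rw [← sub_eq_zero.1 h3]
      exact hx.2
    · intro g hg v hv
      obtain ⟨x, hx, y, hy, rfl⟩ := Submodule.mem_sup.1 hv
      obtain ⟨σ, hσ⟩ := hperm g hg
      rw [Matrix.mulVec_add]
      have hS : ∀ i, ∀ z ∈ S i, (g : Matrix ι ι F) *ᵥ z ∈ S 0 ⊔ S 1 := by
        intro i z hz
        have h3 : (g : Matrix ι ι F) *ᵥ z ∈ S (σ i) := ⟨hσ i z hz.1, by rw [Q_isom (hH hg), hz.2]⟩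
        have key : ∀ j, S j ≤ S 0 ⊔ S 1 := by
          intro j
          fin_cases j
          · exact le_sup_left
          · exact le_sup_right
        exact key _ h3
      exact Submodule.add_mem _ (hS 0 x hx) (hS 1 y hy)
  · push Not at hboth
    obtain ⟨j, hj⟩ := hboth
    -- `D j` is totally singular while `D i₀` is not: no swap
    have hij : i₀ ≠ j := by
      rintro rfl
      exact hQw₀ (hj _ hw₀)
    refine hinvW (D j) (hne j) ?_ ?_
    · intro h
      apply hij
      have hw : w₀ ∈ D j := by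
        rw [h]
        trivial
      exact absurd (hj _ hw) hQw₀
    · intro g hg v hv
      obtain ⟨σ, hσ⟩ := hperm g hg
      by_cases hσj : σ j = j
      · have := hσ j v hv
        rwa [hσj] at this
      · exfalso
        -- `σ` swaps
        have h3 : σ i₀ = j := by
          have key : ∀ (τ : Equiv.Perm (Fin 2)) (a b : Fin 2), a ≠ b → τ b ≠ b → τ a = b := by decide
          exact key σ i₀ j hij hσj
        have h5 := hσ i₀ w₀ hw₀
        rw [h3] at h5
        have h4 := hj _ h5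
        rw [Q_isom (hH hg)] at h4
        exact hQw₀ h4

/-- A quadratic form with rational polar form is rational up to an invariant linear functional. -/
theorem quad_rat_even (hQ : IsNondegenerateQuadraticForm Q) [Nonempty ι] (hcard : 2 ≤ Fintype.card ι) {H : Subgroup (GL ι F)}
    (hH : H ≤ isometryGroup F Q) (hIrr : ActsIrreducibly (matrixSet H)) (F₁ : Subfield F) {p k : ℕ} [Fact p.Prime] [CharP F p]
    (hF₁ : ∀ x, x ∈ F₁ ↔ x ^ p ^ k = x) (P : GL ι F) {ζ : F} (hζ : ζ ≠ 0) (hR : IsFormRationalStructure (pol Q) F₁ ζ P)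
    (hle : H ≤ subfieldSubgroup F₁ P) : IsQuadFormRationalStructure (fun v => ζ * Q v) F₁ P := by
  classical
  by_cases h2 : (2 : F) = 0
  swap
  · intro u hu
    have h3 : ζ * pol Q ((P : Matrix ι ι F) *ᵥ u) ((P : Matrix ι ι F) *ᵥ u) ∈ F₁ := hR u u hu hu
    rw [pol_self hQ] at h3
    have h5 : (2 : F) ∈ F₁ := by
      have := F₁.add_mem F₁.one_mem F₁.one_mem
      rwa [one_add_one_eq_two] at this
    have h4 : ζ * Q ((P : Matrix ι ι F) *ᵥ u) = ζ * (2 * Q ((P : Matrix ι ι F) *ᵥ u)) * (2 : F)⁻¹ := by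
      field_simp
    simp only
    rw [h4]
    exact F₁.mul_mem h3 (F₁.inv_mem h5)
  -- characteristic two
  let τ : F →+* F := iterateFrobenius F p k
  have hτ : ∀ x, τ x = x ^ p ^ k := fun x => by simp [τ, iterateFrobenius_def]
  have hτF : ∀ x, x ∈ F₁ ↔ τ x = x := fun x => by rw [hF₁, hτ]
  let q : (ι → F) → F := fun u => ζ * Q ((P : Matrix ι ι F) *ᵥ u)
  let pr : (ι → F) → (ι → F) → F := fun u v => ζ * pol Q ((P : Matrix ι ι F) *ᵥ u) ((P : Matrix ι ι F) *ᵥ v)
  have hq_add : ∀ u v, q (u + v) = q u + q v + pr u v := by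
    intro u v
    simp only [q, pr]
    rw [Matrix.mulVec_add, Q_add hQ]
    ring
  have hq_smul : ∀ (c : F) u, q (c • u) = c ^ 2 * q u := by
    intro c u
    simp only [q]
    rw [Matrix.mulVec_smul, hQ.smul]
    ring
  let Rt : (ι → F) → Prop := fun u => ∀ i, u i ∈ F₁
  have hprR : ∀ u v, Rt u → Rt v → τ (pr u v) = pr u v := fun u v hu hv => (hτF _).1 (hR u v hu hv)
  let δ : (ι → F) → F := fun u => τ (q u) - q u
  have hδ_add : ∀ u v, Rt u → Rt v → δ (u + v) = δ u + δ v := by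
    intro u v hu hv
    simp only [δ]
    rw [hq_add, map_add, map_add, hprR u v hu hv]
    ring
  have hδ_smul : ∀ (c : F) u, c ∈ F₁ → δ (c • u) = c ^ 2 * δ u := by
    intro c u hc
    simp only [δ]
    rw [hq_smul, map_mul, map_pow, (hτF c).1 hc]
    ring
  have hRs : ∀ i : ι, Rt (Pi.single i 1) := fun i j => Cfsg.Agent.Lib.Geo.RatStruct.isRat_single i j
  have hRadd : ∀ u v, Rt u → Rt v → Rt (u + v) := fun u v hu hv i => F₁.add_mem (hu i) (hv i)
  have hRsmul : ∀ (c : F) u, c ∈ F₁ → Rt u → Rt (c • u) := fun c u hc hu i => F₁.mul_mem hc (hu i)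
  -- the square roots
  choose s hs using fun i : ι => exists_sqrt h2 (δ (Pi.single i 1))
  have hsq_sum : ∀ (T : Finset ι) (u : ι → F), (∑ i ∈ T, u i * s i) ^ 2 = ∑ i ∈ T, u i ^ 2 * δ (Pi.single i 1) := by
    intro T u
    induction T using Finset.induction_on with
    | empty => simp
    | insert a T ha ih =>
      rw [Finset.sum_insert ha, Finset.sum_insert ha, ← ih, ← hs a]
      have : ∀ x y : F, (x + y) ^ 2 = x ^ 2 + y ^ 2 + 2 * (x * y) := fun x y => by ring
      rw [this, h2]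
      ring
  have hδ_sum : ∀ (T : Finset ι) (u : ι → F), Rt u → δ (∑ i ∈ T, u i • (Pi.single i 1 : ι → F)) = ∑ i ∈ T, u i ^ 2 * δ (Pi.single i 1) ∧
      Rt (∑ i ∈ T, u i • (Pi.single i 1 : ι → F)) := by
    intro T u hu
    induction T using Finset.induction_on with
    | empty =>
      simp only [Finset.sum_empty]
      refine ⟨?_, fun i => F₁.zero_mem⟩
      simp [δ, q, Q_zero hQ]
    | insert a T ha ih =>
      rw [Finset.sum_insert ha, Finset.sum_insert ha]
      have h3 := hRsmul (u a) _ (hu a) (hRs a)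
      refine ⟨?_, hRadd _ _ h3 ih.2⟩
      rw [hδ_add _ _ h3 ih.2, hδ_smul _ _ (hu a), ih.1]
  have hdecomp : ∀ u : ι → F, ∑ i, u i • (Pi.single i 1 : ι → F) = u := by
    intro u
    funext j
    simp [Finset.sum_apply, Pi.single_apply]
  have hell : ∀ u, Rt u → (∑ i, u i * s i) ^ 2 = δ u := by
    intro u hu
    rw [hsq_sum, ← (hδ_sum Finset.univ u hu).1, hdecomp]
  -- invariance
  have hmat : ∀ h ∈ H, ∀ u, Rt u → Rt (((P⁻¹ * h * P : GL ι F) : Matrix ι ι F) *ᵥ u) ∧
      δ (((P⁻¹ * h * P : GL ι F) : Matrix ι ι F) *ᵥ u) = δ u := by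
    intro h hh
    set m : Matrix ι ι F := ((P⁻¹ * h * P : GL ι F) : Matrix ι ι F) with hm
    have hPm : ∀ u, (P : Matrix ι ι F) *ᵥ (m *ᵥ u) = (h : Matrix ι ι F) *ᵥ ((P : Matrix ι ι F) *ᵥ u) := by
      intro u
      rw [Matrix.mulVec_mulVec, Matrix.mulVec_mulVec, hm, ← Units.val_mul, ← Units.val_mul]
      congr 2
      group
    have hqm : ∀ u, q (m *ᵥ u) = q u := by
      intro u
      simp only [q]
      rw [hPm, Q_isom (hH hh)]
    have hpm : ∀ u v, pr (m *ᵥ u) (m *ᵥ v) = pr u v := by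
      intro u v
      simp only [pr]
      rw [hPm, hPm, polar_isom (hH hh)]
    obtain ⟨l, hl, hent⟩ := Cfsg.Agent.Lib.Geo.RatStruct.exists_scalar_of_mem (hle hh)
    have hm₀ : ∀ u, Rt u → Rt ((l • m) *ᵥ u) := by
      intro u hu i
      rw [Matrix.mulVec, dotProduct]
      refine F₁.sum_mem fun j _ => F₁.mul_mem ?_ (hu j)
      have := hent i j
      simpa [hm, Matrix.smul_apply] using this
    -- `l` is rational
    obtain ⟨a, b, hab⟩ : ∃ a b : ι, pr (Pi.single a 1) (Pi.single b 1) ≠ 0 := by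
      by_contra hcon
      push Not at hcon
      obtain ⟨i₀⟩ := ‹Nonempty ι›
      have hv : (P : Matrix ι ι F) *ᵥ (Pi.single i₀ 1) ≠ 0 := by
        intro h0
        have h3 := congrArg (fun w => ((P⁻¹ : GL ι F) : Matrix ι ι F) *ᵥ w) h0
        simp only [Matrix.mulVec_mulVec, ← Units.val_mul, inv_mul_cancel, Units.val_one, Matrix.one_mulVec, Matrix.mulVec_zero] at h3
        have := congrFun h3 i₀
        simp at this
      obtain ⟨x, hx⟩ := (hQ.nondegenerate _ hv).2
      apply hx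
      -- expand `x`
      have hxe : x = (P : Matrix ι ι F) *ᵥ (∑ j, (((P⁻¹ : GL ι F) : Matrix ι ι F) *ᵥ x) j • (Pi.single j 1 : ι → F)) := by
        rw [hdecomp, Matrix.mulVec_mulVec, ← Units.val_mul, mul_inv_cancel, Units.val_one, Matrix.one_mulVec]
      rw [hxe, Matrix.mulVec_sum]
      have : ∀ (T : Finset ι), pol Q ((P : Matrix ι ι F) *ᵥ (Pi.single i₀ 1)) (∑ j ∈ T, (P : Matrix ι ι F) *ᵥ ((((P⁻¹ : GL ι F) : Matrix ι ι F) *ᵥ x) j • (Pi.single j 1 : ι → F))) = 0 := by
        intro T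
        induction T using Finset.induction_on with
        | empty =>
          rw [Finset.sum_empty]
          exact Cfsg.Agent.Lib.Geo.QForm.pol_zero_right hQ _
        | insert c T hc ih =>
          rw [Finset.sum_insert hc, pol_add_right hQ, ih, Matrix.mulVec_smul, pol_smul_right hQ]
          have h5 := hcon i₀ c
          simp only [pr] at h5
          have h6 := (mul_eq_zero.1 h5).resolve_left hζ
          rw [h6]
          ring
      exact this _
    have hl2 : l ^ 2 ∈ F₁ := by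
      have h3 := hR _ _ (hm₀ _ (hRs a)) (hm₀ _ (hRs b))
      have h4 : pr ((l • m) *ᵥ Pi.single a 1) ((l • m) *ᵥ Pi.single b 1) = l ^ 2 * pr (Pi.single a 1) (Pi.single b 1) := by
        simp only [pr]
        rw [Matrix.smul_mulVec, Matrix.smul_mulVec, Matrix.mulVec_smul, Matrix.mulVec_smul, pol_smul_left hQ, pol_smul_right hQ]
        have := hpm (Pi.single a 1) (Pi.single b 1)
        simp only [pr] at this
        rw [← this]
        ring
      have h5 : pr ((l • m) *ᵥ Pi.single a 1) ((l • m) *ᵥ Pi.single b 1) ∈ F₁ := h3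
      rw [h4] at h5
      have h6 := F₁.div_mem h5 (hR _ _ (hRs a) (hRs b))
      have h7 : l ^ 2 * pr (Pi.single a 1) (Pi.single b 1) / pr (Pi.single a 1) (Pi.single b 1) = l ^ 2 := by
        field_simp
      exact h7 ▸ h6
    have hlF : l ∈ F₁ := by
      rw [hτF]
      apply sq_inj_of_two h2
      rw [← map_pow]
      exact (hτF _).1 hl2
    intro u hu
    have h3 : Rt (m *ᵥ u) := by
      intro i
      have h4 := F₁.mul_mem (F₁.inv_mem hlF) (hm₀ u hu i)
      have h5 : ((l • m) *ᵥ u) i = l * (m *ᵥ u) i := by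
        rw [Matrix.smul_mulVec]
        rfl
      rw [h5, inv_mul_cancel_left₀ hl] at h4
      exact h4
    refine ⟨h3, ?_⟩
    simp only [δ]
    rw [hqm]
  -- the hyperplane
  have hs0 : s = 0 := by
    by_contra hs0
    let ℓ : (ι → F) →ₗ[F] F := ∑ i, (s i) • LinearMap.proj i
    have hℓ : ∀ v, ℓ v = ∑ i, v i * s i := by
      intro v
      simp [ℓ, LinearMap.sum_apply, mul_comm]
    have hℓR : ∀ u, Rt u → (ℓ u) ^ 2 = δ u := by
      intro u hu
      rw [hℓ]
      exact hell u hu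
    have hinvℓ : ∀ h ∈ H, ∀ x, ℓ (((P⁻¹ * h * P : GL ι F) : Matrix ι ι F) *ᵥ x) = ℓ x := by
      intro h hh x
      have h3 : ℓ ∘ₗ Matrix.toLin' ((P⁻¹ * h * P : GL ι F) : Matrix ι ι F) = ℓ := by
        apply (Pi.basisFun F ι).ext
        intro j
        rw [Pi.basisFun_apply]
        simp only [LinearMap.comp_apply, Matrix.toLin'_apply]
        obtain ⟨h4, h5⟩ := hmat h hh _ (hRs j)
        apply sq_inj_of_two h2
        rw [hℓR _ h4, h5, hℓR _ (hRs j)]
      have h4 := congrArg (fun L : (ι → F) →ₗ[F] F => L x) h3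
      simp only [LinearMap.comp_apply, Matrix.toLin'_apply] at h4
      exact h4
    let W : Submodule F (ι → F) := (LinearMap.ker ℓ).map (Matrix.toLin' (P : Matrix ι ι F))
    have hPinj : Function.Injective (Matrix.toLin' (P : Matrix ι ι F)) := by
      intro x y hxy
      simp only [Matrix.toLin'_apply] at hxy
      have h1 := congrArg (fun w => ((P⁻¹ : GL ι F) : Matrix ι ι F) *ᵥ w) hxy
      simpa [Matrix.mulVec_mulVec, ← Units.val_mul] using h1
    rcases hIrr W (by
      rintro _ ⟨h, hh, rfl⟩ _ ⟨_, ⟨x, hx, rfl⟩, rfl⟩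
      refine ⟨((P⁻¹ * h * P : GL ι F) : Matrix ι ι F) *ᵥ x, ?_, ?_⟩
      · change ℓ _ = 0
        rw [hinvℓ h hh]
        exact hx
      · simp only [Matrix.toLin'_apply]
        rw [Matrix.mulVec_mulVec, Matrix.mulVec_mulVec, ← Units.val_mul, ← Units.val_mul]
        congr 2
        group) with h | h
    · have h3 : LinearMap.ker ℓ = ⊥ := by
        rw [eq_bot_iff]
        intro x hx
        have h4 : Matrix.toLin' (P : Matrix ι ι F) x ∈ W := ⟨x, hx, rfl⟩
        rw [h] at h4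
        have h5 : Matrix.toLin' (P : Matrix ι ι F) x = 0 := by simpa using h4
        have h6 : x = 0 := hPinj (by rw [h5, map_zero])
        simp [h6]
      have h4 := LinearMap.finrank_range_add_finrank_ker ℓ
      rw [h3, finrank_bot, add_zero, Module.finrank_fintype_fun_eq_card] at h4
      have h5 : finrank F (LinearMap.range ℓ) ≤ finrank F F := Submodule.finrank_le _
      rw [finrank_self] at h5
      omega
    · apply hs0
      have h3 : LinearMap.ker ℓ = ⊤ := by
        rw [eq_top_iff]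
        intro x _
        have h4 : Matrix.toLin' (P : Matrix ι ι F) x ∈ W := by
          rw [h]
          trivial
        obtain ⟨y, hy, hyx⟩ := h4
        rw [← hPinj hyx]
        exact hy
      funext i
      have h4 : (Pi.single i 1 : ι → F) ∈ LinearMap.ker ℓ := by
        rw [h3]
        trivial
      have h5 : ℓ (Pi.single i 1) = 0 := h4
      rw [hℓ] at h5
      simpa [Pi.single_apply] using h5
  intro u hu
  simp only
  have h3 := hell u hu
  simp only [hs0, Pi.zero_apply, mul_zero, Finset.sum_const_zero] at h3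
  rw [hτF]
  have h4 : τ (q u) - q u = 0 := by
    have h5 : δ u = τ (q u) - q u := rfl
    rw [← h5, ← h3]
    simp
  exact sub_eq_zero.1 h4

/-- The main theorem. -/
theorem main_of_noclassE (hQ : IsNondegenerateQuadraticForm Q) [Nonempty ι] (hcard : 4 ≤ Fintype.card ι) {H : Subgroup (GL ι F)}
    (hH : H ≤ isometryGroup F Q) (hNo : NoClassE Q H) : InOrthogonalResidualClass H := by
  classical
  have hf := hf_polar hQ
  have hfix : ∀ g ∈ H, ∀ u v, pol Q ((g : Matrix ι ι F) *ᵥ u) ((g : Matrix ι ι F) *ᵥ v) = pol Q u v :=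
    fun g hg u v => polar_isom (hH hg) u v
  have hIrr := irr_of_noclassE hQ hH hNo
  have hS : NoStr (pol Q) (RingEquiv.refl F) 1 H :=
    { irr := hIrr
      dec := fun t k D hD hle htr => hNo.dec t k D ⟨hD, fun i j => by
        obtain ⟨g, hg, hgm⟩ := htr i j
        exact isometric_of_trans hH hg hgm⟩ hle
      pair := fun k D hD hts hle => by
        have hk : 2 ≤ k := by
          have h1 := card_eq_of_decomp hD
          omega
        exact hNo.pair k D hD (pair_of_polar hQ hH hIrr hk hD hts hle) hle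
      fld := fun r K hr hK hadj hle => hNo.fld r K hr hK hadj hle
      ten := fun a b e P f₁ f₂ ε₁ ε₂ ha hb h₁ h₂ hε hlaw hmem => hNo.ten a b e P f₁ f₂ ε₁ ε₂ ha hb h₁ h₂ hε hlaw hmem }
  have hSf : ∀ P₀ : Subgroup (GL ι F), P₀ ≤ H → HN H P₀ → ActsAbsolutelyIrreducibly (matrixSet P₀) →
      ∀ F₀ : Subfield F, F₀ ≠ ⊤ → ¬ RealisableOver F₀ (matrixSet P₀) := by
    intro P₀ hP₀ hN hA F₀ hF₀ hR
    obtain ⟨B, F₁, p, s, k, hp, hc, -, hs, hcardF, hF₁, hHB, hB⟩ := subfield_mem H P₀ hA hN F₀ hF₀ hR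
    haveI : Fact p.Prime := ⟨hp⟩
    have hfix₀ : FixesForm (matrixSet P₀) (pol Q) := by
      rintro _ ⟨x, hx, rfl⟩ u v
      exact hfix x (hP₀ hx) u v
    obtain ⟨ζ, hζ, hR'⟩ := rational_zeta hf.sesq hf.nd hA hfix₀ B F₁ p k hF₁ hB
    exact hNo.sub F₁ s B⁻¹ ζ hs hcardF hζ (quad_rat_even hQ (by omega) hH hIrr F₁ hF₁ B⁻¹ hζ hR' hHB) hHB
  have hWr : ∀ (a k : ℕ) (e₂ : ι ≃ (Fin k → Fin a)) (P₂ : GL ι F) (A : (Fin a → F) → (Fin a → F) → F) (ε₁ c : F),
      2 ≤ a → 2 ≤ k → HF (RingEquiv.refl F) ε₁ A → c ≠ 0 →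
      (∀ x y : (Fin k → Fin a) → F, pol Q ((P₂ : Matrix ι ι F) *ᵥ (x ∘ e₂)) ((P₂ : Matrix ι ι F) *ᵥ (y ∘ e₂)) =
        c * ∑ u, ∑ v, x u * (∏ i, gramMatrix A (u i) (v i)) * (RingEquiv.refl F) (y v)) → c * ε₁ ^ k = 1 * (RingEquiv.refl F) c →
      H ≤ tensorWreathSubgroup a k e₂ P₂ → False := by
    intro a k e₂ P₂ A ε₁ c ha hk hA hc hlaw hε hle
    refine hNo.wr a k e₂ P₂ A ε₁ c ha hk hA hc hlaw ?_ hle
    have h1 : c * (ε₁ ^ k - 1) = 0 := by
      simp only [RingEquiv.refl_apply, one_mul] at hε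
      linear_combination hε
    exact sub_eq_zero.1 ((mul_eq_zero.1 h1).resolve_left hc)
  rcases aschF (by omega) hf H hfix hS hWr hSf with ⟨r, R, hr, hRH, hRN, hA, hSC, hcase⟩ | ⟨P, hP⟩
  · exfalso
    -- the commutator is `-1`
    obtain ⟨x, -, y, -, c, hc1, hcR, hxy⟩ := exists_comm_elt' (by omega) hA hSC
    have hc2 : (c : F) * c = 1 := by
      obtain ⟨i₀⟩ := ‹Nonempty ι›
      let v : ι → F := Pi.single i₀ 1
      have hv : v ≠ 0 := by
        intro h0
        have := congrFun h0 i₀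
        simp [v] at this
      obtain ⟨⟨u, hu⟩, -⟩ := hf.nd v hv
      have h1 := polar_isom (hH (hRH hcR)) u v
      rw [sc_val, Matrix.smul_mulVec, Matrix.smul_mulVec, Matrix.one_mulVec, Matrix.one_mulVec, hf.sesq.smul_left, hf.sesq.smul_right] at h1
      simp only [RingEquiv.refl_apply] at h1
      have h3 : ((c : F) * c - 1) * pol Q u v = 0 := by linear_combination h1
      exact sub_eq_zero.1 ((mul_eq_zero.1 h3).resolve_right hu)
    have hcm : (c : F) = -1 := by
      have h3 : ((c : F) - 1) * ((c : F) + 1) = 0 := by linear_combination hc2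
      rcases mul_eq_zero.1 h3 with h4 | h4
      · exact absurd (Units.ext (sub_eq_zero.1 h4)) hc1
      · exact eq_neg_of_add_eq_zero_left h4
    have h2 : (2 : F) ≠ 0 := by
      intro h
      apply hc1
      apply Units.ext
      rw [hcm, Units.val_one]
      linear_combination -h
    rcases hcase with ⟨-, hx2⟩ | ⟨hodd, hxr⟩
    · exact hNo.rg R h2 hRH hRN hA hSC hx2
    · have h3 := hxr _ hcR
      have h4 := congrArg (fun g : GL ι F => ((g : Matrix ι ι F))) h3
      simp only [← map_pow, sc_val, Units.val_one] at h4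
      obtain ⟨i₀⟩ := ‹Nonempty ι›
      have h5 := congrFun (congrFun h4 i₀) i₀
      simp only [Matrix.smul_apply, Matrix.one_apply_eq, smul_eq_mul, mul_one, Units.val_pow_eq_pow_val] at h5
      rw [hcm, hodd.neg_one_pow] at h5
      apply h2
      linear_combination -h5
  · refine ⟨P, hP, no_unitary_of_bilinear hf.sesq hf.nd hP.absIrred hP.no_subfield ?_⟩
    rintro _ ⟨x, hx, rfl⟩ u v
    exact hfix x (hP.le hx) u v

end Cfsg.Agent.Lib.CmaxE.Core
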