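import Mathlib
import Cfsg.Agent.Lib.CmaxE.Core
import Cfsg.Agent.Lib.AschF.OddMax

/-!
# `Ω` lies in none of the members of the classes, in all characteristics
-/

set_option autoImplicit false

namespace Cfsg.Agent.Lib.CmaxE.Proper

open Matrix Module Cfsg Cfsg.Geo
open Cfsg.Agent.Lib.Geo.Basic Cfsg.Agent.Lib.Geo.Polar Cfsg.Agent.Lib.Geo.QForm Cfsg.Agent.Lib.Geo.Centres
open Cfsg.Agent.Lib.GeoOmega.Basic Cfsg.Agent.Lib.AschF.OmegaP
open Cfsg.Agent.Lib.NotMax.Tensor (TT TT_add_left TT_add_right TT_smul_left TT_smul_right TT_unique TT_ne_zero span_TT ext_TT mem_tensor)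
open Cfsg.Agent.Lib.CmaxE.Core

universe u

variable {ι : Type} [Fintype ι] [DecidableEq ι] {F : Type u} [Field F] {Q : (ι → F) → F}

section Dec
variable (hQ : IsNondegenerateQuadraticForm Q)
include hQ

/-- `Ω` stabilises no decomposition, in any characteristic. -/
theorem omega_not_le_dec' [Fintype F] (hι : 7 ≤ Fintype.card ι) {t k : ℕ} {D : Fin t → Submodule F (ι → F)}
    (hD : IsMDecomposition k D) : ¬ omegaGL Q ≤ decompositionStabilizer D := by
  classical
  intro hle
  have h2 := hD.two_le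
  have hcard := Cfsg.Agent.Lib.AschF.OddA.card_eq_of_decomp hD
  let i₀ : Fin t := ⟨0, by omega⟩
  obtain ⟨w, hw, hw0⟩ : ∃ w ∈ D i₀, w ≠ 0 := Submodule.exists_mem_ne_zero_of_ne_bot (by
    intro h
    have h3 := hD.finrank_eq i₀
    rw [h, finrank_bot] at h3
    have := hD.pos
    omega)
  let E : Submodule F (ι → F) := ⨆ j, ⨆ (_ : j ≠ i₀), D j
  have hdisj : Disjoint (D i₀) E := hD.indep i₀
  have hsup : D i₀ ⊔ E = ⊤ := by
    rw [eq_top_iff, ← hD.iSup_eq_top]
    refine iSup_le fun j => ?_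
    by_cases hj : j = i₀
    · rw [hj]
      exact le_sup_left
    · exact le_trans (le_iSup₂_of_le j hj le_rfl) le_sup_right
  have hE : 4 ≤ finrank F E := by
    have h3 := Submodule.finrank_sup_add_finrank_inf_eq (D i₀) E
    rw [hsup, hdisj.eq_bot, finrank_bot, finrank_top, finrank_fintype_fun_eq_card, hD.finrank_eq] at h3
    have h4 : 2 * k ≤ t * k := Nat.mul_le_mul_right k h2
    omega
  have h3 := finrank_inf_ker E (formVec (pol Q) w)
  obtain ⟨a, ⟨haE, hak⟩, ha0, hQa⟩ := exists_singular hQ (E ⊓ LinearMap.ker (dualOfVec (formVec (pol Q) w))) (by omega)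
  have haw : pol Q a w = 0 := by
    have : dualOfVec (formVec (pol Q) w) a = 0 := hak
    rwa [dualOfVec_apply, formVec_eq hQ] at this
  have hwE : w ∉ E := by
    intro h
    have := hdisj.le_bot ⟨hw, h⟩
    exact hw0 (by simpa using this)
  have hwa : w ∉ Submodule.span F {a} := by
    intro h
    obtain ⟨s, rfl⟩ := Submodule.mem_span_singleton.1 h
    exact hwE (E.smul_mem s haE)
  obtain ⟨c, hQc, hca, hcw⟩ := exists_singular_orth_one hQ (by omega) a w hwa
  have hac : pol Q a c = 0 := by rw [pol_symm hQ, hca]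
  obtain ⟨σ, hσ⟩ := hle (sg_mem hQ (by omega) a c hQa hQc hac)
  have hg : ((sg hQ a c hQa hQc hac : GL ι F) : Matrix ι ι F) *ᵥ w ∈ D (σ i₀) := by
    rw [← hσ i₀]
    exact ⟨w, hw, rfl⟩
  have hgw : ((sg hQ a c hQa hQc hac : GL ι F) : Matrix ι ι F) *ᵥ w = w + pol Q w c • a := by
    rw [sg_mulVec hQ, pol_symm hQ w a, haw, zero_smul, sub_zero]
  have hl : pol Q w c ≠ 0 := by
    rw [pol_symm hQ]
    exact hcw
  rw [hgw] at hg
  by_cases hj : σ i₀ = i₀
  · rw [hj] at hg
    have h5 : pol Q w c • a ∈ D i₀ := by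
      have := (D i₀).sub_mem hg hw
      rwa [add_sub_cancel_left] at this
    have h6 : pol Q w c • a ∈ E := E.smul_mem _ haE
    have h7 := hdisj.le_bot ⟨h5, h6⟩
    have h8 : pol Q w c • a = 0 := by simpa using h7
    exact ha0 ((smul_eq_zero.1 h8).resolve_left hl)
  · have h5 : w + pol Q w c • a ∈ E := (le_iSup₂_of_le (f := fun j (_ : j ≠ i₀) => D j) (σ i₀) hj le_rfl : D (σ i₀) ≤ E) hg
    apply hwE
    have := E.sub_mem h5 (E.smul_mem (pol Q w c) haE)
    rwa [add_sub_cancel_right] at this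

end Dec

section Field
variable (hQ : IsNondegenerateQuadraticForm Q)
include hQ

/-- Elements of the field commute with Siegel transformations. -/
theorem K_apply [Fintype F] [Nonempty ι] (hι : 7 ≤ Fintype.card ι) {r : ℕ} {K : Subalgebra F (Matrix ι ι F)}
    (hK : IsFieldSubalgebra r K) (hle : omegaGL Q ≤ subalgebraNormalizer K) (a c y : ι → F) (ha : Q a = 0) (hc : Q c = 0)
    (hac : pol Q a c = 0) (hya : pol Q y a = 1) (hyc : pol Q y c = 0) (k : Matrix ι ι F) (hk : k ∈ K) :
    k *ᵥ c = pol Q (k *ᵥ y) a • c + (- pol Q (k *ᵥ y) c) • a := by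
  classical
  have P := isPolar hQ
  obtain ⟨b, e, hb', he', hb, he, hbe⟩ := P.exists_hyperbolic (![a, c] : Fin 2 → ι → F) (by simp; omega)
  rw [P.mem_perp, Fin.forall_fin_two] at hb' he'
  simp only [Matrix.cons_val_zero, Matrix.cons_val_one] at hb' he'
  simp only [Set.mem_ofPred_eq] at hb he
  have hab : pol Q a b = 0 := by rw [pol_symm hQ]; exact hb'.1
  have hbc : pol Q b c = 0 := hb'.2
  have hae : pol Q a e = 0 := by rw [pol_symm hQ]; exact he'.1
  have hce : pol Q c e = 0 := by rw [pol_symm hQ]; exact he'.2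
  obtain ⟨hca', hba', hcomm⟩ := commutator_sg hQ a b c e ha hb hc he hac hab hbc hae hce hbe
  have hXm := hle (sg_mem hQ hι c e hc he hce)
  have hYm := hle (sg_mem hQ hι b a hb ha hba')
  have hTm := hle (sg_mem hQ hι c a hc ha hca')
  letI fK : Field K := (Cfsg.Agent.Lib.AschF.OddB.isField_K hK).toField
  haveI hfinM : Finite (Matrix ι ι F) := inferInstanceAs (Finite (ι → ι → F))
  haveI hfinK : Finite K := Finite.of_injective (fun k : K => (k : Matrix ι ι F)) Subtype.val_injective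
  let CH := Cfsg.Agent.Lib.AschF.OddB.conjHom K
  have h1 : CH ⟨_, hTm⟩ = 1 := by
    have h3 : (⟨_, hTm⟩ : subalgebraNormalizer K) = ⟨_, hXm⟩ * ⟨_, hYm⟩ * (⟨_, hXm⟩ : subalgebraNormalizer K)⁻¹ * (⟨_, hYm⟩ : subalgebraNormalizer K)⁻¹ := by
      apply Subtype.ext
      exact hcomm.symm
    rw [h3, map_mul, map_mul, map_mul, map_inv, map_inv]
    have hcm := (IsCyclic.commutative (α := K ≃ₐ[F] K)).is_comm.comm (CH ⟨_, hXm⟩) (CH ⟨_, hYm⟩)
    rw [hcm]
    group
  have hcommK := Cfsg.Agent.Lib.AschF.OddB.comm_of_conjHom_eq_one K ⟨_, hTm⟩ h1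
  have h3 := hcommK k hk
  simp only at h3
  have h4 := congrArg (fun M : Matrix ι ι F => M *ᵥ y) h3
  simp only [← Matrix.mulVec_mulVec] at h4
  rw [sg_mulVec hQ, sg_mulVec hQ, hya, hyc, one_smul, zero_smul, sub_zero, Matrix.mulVec_add] at h4
  have h6 : k *ᵥ c = (k *ᵥ y + k *ᵥ c) - k *ᵥ y := by abel
  rw [h6, ← h4, neg_smul]
  abel

/-- `Ω` normalises no field, in any characteristic. -/
theorem omega_not_le_field' [Fintype F] [Nonempty ι] (hι : 7 ≤ Fintype.card ι) {r : ℕ} (hr2 : 2 ≤ r) {K : Subalgebra F (Matrix ι ι F)}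
    (hK : IsFieldSubalgebra r K) : ¬ omegaGL Q ≤ subalgebraNormalizer K := by
  classical
  intro hle
  obtain ⟨a, b, c, e, ha, hb, hc, he, hac, hab, hbc, hae, hce, hbe, hc0, y, hya, hyc⟩ := exists_quad hQ hι
  have hmem : ∀ k ∈ K, (k : Matrix ι ι F) *ᵥ c ∈ Submodule.span F {c} := by
    intro k hk
    have h1 := K_apply hQ hι hK hle a c y ha hc hac hya hyc k hk
    have h2 := K_apply hQ hι hK hle b c e hb hc hbc (by rw [pol_symm hQ]; exact hbe) (by rw [pol_symm hQ]; exact hce) k hk
    have h3 := congrArg (pol Q e) (h1.symm.trans h2)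
    rw [pol_add_right hQ, pol_add_right hQ, pol_smul_right hQ, pol_smul_right hQ, pol_smul_right hQ, pol_smul_right hQ,
      pol_symm hQ e c, hce, pol_symm hQ e a, hae, pol_symm hQ e b, hbe] at h3
    have h4 : pol Q (k *ᵥ e) c = 0 := by linear_combination h3
    rw [h2, h4, neg_zero, zero_smul, add_zero]
    exact Submodule.smul_mem _ _ (Submodule.mem_span_singleton_self c)
  let φ₀ : K →ₗ[F] (ι → F) :=
    { toFun := fun k => (k : Matrix ι ι F) *ᵥ c
      map_add' := fun x y => Matrix.add_mulVec _ _ _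
      map_smul' := fun t x => Matrix.smul_mulVec _ _ _ }
  let φ : K →ₗ[F] Submodule.span F {c} := φ₀.codRestrict _ (fun k => hmem k k.2)
  have hinj : Function.Injective φ := by
    rw [← LinearMap.ker_eq_bot, LinearMap.ker_eq_bot']
    intro k hk
    by_contra hk0
    have hk1 : (k : Matrix ι ι F) *ᵥ c = 0 := congrArg Subtype.val hk
    obtain ⟨l, -, hl⟩ := hK.inv k k.2 (fun h => hk0 (Subtype.ext h))
    have hlk : l * (k : Matrix ι ι F) = 1 := by
      have := mul_eq_one_comm.1 hl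
      exact this
    have h3 := congrArg (fun v => l *ᵥ v) hk1
    simp only [Matrix.mulVec_mulVec, hlk, Matrix.one_mulVec, Matrix.mulVec_zero] at h3
    exact hc0 h3
  have h5 := LinearMap.finrank_le_finrank_of_injective hinj
  rw [hK.finrank_eq, finrank_span_singleton hc0] at h5
  omega

end Field

/-- The key computation for subfield groups, in any characteristic. -/
theorem subfield_top_of_family' [Finite F] {F₀ : Subfield F} {N : Matrix ι ι F} (hN0 : N ≠ 0) (hNN : N * N = 0)
    (hfam : ∀ t : F, ∃ l : F, l ≠ 0 ∧ ∀ i j, l * (1 + t • N) i j ∈ F₀) : F₀ = ⊤ := by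
  classical
  by_cases h2 : (2 : F) = 0
  swap
  · exact subfield_top_of_family h2 hN0 hNN hfam
  haveI := Fintype.ofFinite F
  haveI : Fintype F₀ := Fintype.ofFinite F₀
  have hoff : ∃ k l, k ≠ l ∧ N k l ≠ 0 := by
    by_contra hcon
    push Not at hcon
    apply hN0
    ext i j
    by_cases hij : i = j
    · subst hij
      have h1 := congrFun (congrFun hNN i) i
      rw [Matrix.mul_apply, Finset.sum_eq_single i] at h1
      · simpa using h1
      · intro b _ hb
        rw [hcon i b (Ne.symm hb), zero_mul]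
      · simp
    · exact hcon i j hij
  obtain ⟨k, l, hkl, hN⟩ := hoff
  have h20 : (2 : F₀) = 0 := by
    apply Subtype.ext
    exact h2
  have key : ∀ t : F, t ≠ 0 → t * N k l ∈ F₀ := by
    intro t ht
    obtain ⟨c, hc, hcR⟩ := hfam t
    set R : Matrix ι ι F := c • (1 + t • N) with hR
    have hRent : ∀ i j, R i j ∈ F₀ := fun i j => by
      rw [hR, Matrix.smul_apply, smul_eq_mul]
      exact hcR i j
    have hRR : R * R = (c ^ 2) • 1 := by
      rw [hR]
      have h3 : (c • (1 + t • N)) * (c • (1 + t • N)) = (c ^ 2) • (1 + (2 * t) • N) := by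
        rw [Matrix.smul_mul, Matrix.mul_smul, smul_smul, ← pow_two]
        congr 1
        rw [add_mul, mul_add, mul_add, Matrix.smul_mul, Matrix.mul_smul, Matrix.smul_mul, Matrix.mul_smul, hNN]
        simp only [one_mul, mul_one, smul_zero, add_zero]
        rw [two_mul, add_smul, add_assoc]
      rw [h3, h2, zero_mul, zero_smul, add_zero]
    have hRkl : R k l = c * (t * N k l) := by
      rw [hR]
      simp [Matrix.one_apply_ne hkl]
    have h5 : (R * R) k k ∈ F₀ := by
      rw [Matrix.mul_apply]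
      exact F₀.sum_mem fun s _ => F₀.mul_mem (hRent _ _) (hRent _ _)
    have h6 : c ^ 2 ∈ F₀ := by
      rw [hRR] at h5
      simpa using h5
    have h7 : c ∈ F₀ := by
      obtain ⟨d, hd⟩ := exists_sqrt h20 (⟨c ^ 2, h6⟩ : F₀)
      have h8 : ((d : F)) ^ 2 = c ^ 2 := congrArg Subtype.val hd
      rw [← sq_inj_of_two h2 h8]
      exact d.2
    have h8 := F₀.div_mem (hRent k l) h7
    have h9 : c * (t * N k l) / c = t * N k l := by field_simp
    rwa [hRkl, h9] at h8
  have h1 := key 1 one_ne_zero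
  rw [one_mul] at h1
  rw [eq_top_iff]
  intro t _
  by_cases ht : t = 0
  · rw [ht]
    exact F₀.zero_mem
  · have := F₀.div_mem (key t ht) h1
    rwa [mul_div_assoc, div_self hN, mul_one] at this

section Sub
variable (hQ : IsNondegenerateQuadraticForm Q)
include hQ

/-- `Ω` does not lie in a subfield group, in any characteristic. -/
theorem omega_not_le_subfield' [Finite F] (hι : 7 ≤ Fintype.card ι) {F₀ : Subfield F} (hF₀ : F₀ ≠ ⊤) (P : GL ι F) :
    ¬ omegaGL Q ≤ subfieldSubgroup F₀ P := by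
  intro hle
  apply hF₀
  obtain ⟨a, b, c, e, ha, hb, hc, he, hac, hab, hbc, hae, hce, hbe, hc0, y, hya, hyc⟩ := exists_quad hQ hι
  have hca : pol Q c a = 0 := by rw [pol_symm hQ, hac]
  -- the matrix of the nilpotent
  let N₀ : Matrix ι ι F := ((sg hQ c a hc ha hca : GL ι F) : Matrix ι ι F) - 1
  have hN₀ : ∀ v, N₀ *ᵥ v = pol Q v a • c - pol Q v c • a := by
    intro v
    simp only [N₀]
    rw [Matrix.sub_mulVec, Matrix.one_mulVec, sg_mulVec hQ]
    abel
  have hcc : pol Q c c = 0 := by rw [pol_self hQ, hc, mul_zero]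
  have haa : pol Q a a = 0 := by rw [pol_self hQ, ha, mul_zero]
  have hN₀N₀ : N₀ * N₀ = 0 := by
    apply Matrix.ext_of_mulVec_single
    intro j
    rw [← Matrix.mulVec_mulVec, hN₀, hN₀, Matrix.zero_mulVec]
    simp only [sub_eq_add_neg, ← neg_smul, pol_add_left hQ, pol_smul_left hQ, hca, haa, hcc, hac]
    simp
  let N : Matrix ι ι F := ((P⁻¹ : GL ι F) : Matrix ι ι F) * N₀ * (P : Matrix ι ι F)
  have hPP : (P : Matrix ι ι F) * ((P⁻¹ : GL ι F) : Matrix ι ι F) = 1 := by
    rw [← Units.val_mul, mul_inv_cancel, Units.val_one]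
  have hNN : N * N = 0 := by
    simp only [N]
    calc _ = ((P⁻¹ : GL ι F) : Matrix ι ι F) * N₀ * ((P : Matrix ι ι F) * ((P⁻¹ : GL ι F) : Matrix ι ι F)) * N₀ * (P : Matrix ι ι F) := by
          simp only [mul_assoc]
      _ = 0 := by
          rw [hPP, mul_one, mul_assoc ((P⁻¹ : GL ι F) : Matrix ι ι F), hN₀N₀]
          simp
  have hN0 : N ≠ 0 := by
    intro h
    have h1 : N₀ = 0 := by
      have : N₀ = (P : Matrix ι ι F) * N * ((P⁻¹ : GL ι F) : Matrix ι ι F) := by
        simp only [N]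
        calc N₀ = ((P : Matrix ι ι F) * ((P⁻¹ : GL ι F) : Matrix ι ι F)) * N₀ * ((P : Matrix ι ι F) * ((P⁻¹ : GL ι F) : Matrix ι ι F)) := by
              rw [hPP]; simp
          _ = _ := by simp only [mul_assoc]
      rw [this, h]
      simp
    have h3 := hN₀ y
    rw [h1, hya, hyc, Matrix.zero_mulVec] at h3
    have h4 : c = 0 := by simpa using h3.symm
    exact hc0 h4
  refine subfield_top_of_family' hN0 hNN (fun t => ?_)
  have hta : Q (t • a) = 0 := by rw [hQ.smul, ha, mul_zero]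
  have hcta : pol Q c (t • a) = 0 := by rw [pol_smul_right hQ, hca, mul_zero]
  obtain ⟨l, hl, hent⟩ := Cfsg.Agent.Lib.Geo.RatStruct.exists_scalar_of_mem (hle (sg_mem hQ hι c (t • a) hc hta hcta))
  refine ⟨l, hl, fun i j => ?_⟩
  convert hent i j using 3
  have h5 : ((sg hQ c (t • a) hc hta hcta : GL ι F) : Matrix ι ι F) = 1 + t • N₀ := by
    apply Matrix.ext_of_mulVec_single
    intro j
    rw [sg_mulVec hQ, Matrix.add_mulVec, Matrix.one_mulVec, Matrix.smul_mulVec, hN₀, pol_smul_right hQ]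
    ext s
    simp only [Pi.add_apply, Pi.sub_apply, Pi.smul_apply, smul_eq_mul]
    ring
  rw [Units.val_mul, Units.val_mul, h5]
  simp only [N]
  rw [mul_add, add_mul, mul_one, ← Units.val_mul, inv_mul_cancel, Units.val_one, Matrix.mul_smul, Matrix.smul_mul]

end Sub

section Tensor
variable (hQ : IsNondegenerateQuadraticForm Q)
include hQ

/-- The image of a Siegel transformation is a line of the tensor structure. -/
theorem line_of_siegel [Fintype F] (hι : 7 ≤ Fintype.card ι) {k l : ℕ} (hl : 3 ≤ l) (e : ι ≃ Fin k × Fin l) (P : GL ι F)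
    (hle : omegaGL Q ≤ tensorProductSubgroup k l e P) (a c y : ι → F) (ha : Q a = 0) (hc : Q c = 0) (hac : pol Q c a = 0)
    (hya : pol Q y a = 1) (hyc : pol Q y c = 0) (hc0 : c ≠ 0) :
    k ≤ 2 ∧ ∃ y₀ : Fin l → F, y₀ ≠ 0 ∧ (∀ x, TT e P x y₀ ∈ Submodule.span F (Set.range ![a, c])) ∧
      ∀ w ∈ Submodule.span F (Set.range ![a, c]), (2 ≤ k → ∃ x, w = TT e P x y₀) := by
  classical
  set W : Submodule F (ι → F) := Submodule.span F (Set.range ![a, c]) with hW
  have hWa : a ∈ W := Submodule.subset_span ⟨0, rfl⟩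
  have hWc : c ∈ W := Submodule.subset_span ⟨1, rfl⟩
  have hWr : finrank F W ≤ 2 := by
    change Set.finrank F (Set.range ![a, c]) ≤ 2
    exact (finrank_range_le_card _).trans (by simp)
  set g := sg hQ c a hc ha hac with hg
  have hgv : ∀ v, (g : Matrix ι ι F) *ᵥ v - v ∈ W := by
    intro v
    rw [hg, sg_mulVec hQ]
    have : v + pol Q v a • c - pol Q v c • a - v = pol Q v a • c - pol Q v c • a := by abel
    rw [this]
    exact W.sub_mem (W.smul_mem _ hWc) (W.smul_mem _ hWa)
  obtain ⟨α, β, hαβ⟩ := mem_tensor e P (hle (sg_mem hQ hι c a hc ha hac))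
  let U : (Fin k → F) →ₗ[F] (Fin l → F) →ₗ[F] (ι → F) :=
    LinearMap.mk₂ F (TT e P) (TT_add_left e P) (TT_smul_left e P) (TT_add_right e P) (TT_smul_right e P)
  have hUapp : ∀ x y, U x y = TT e P x y := fun _ _ => rfl
  obtain ⟨s, hs⟩ := scalar_of_image U (by
      intro x x' y₁ y₂ h hy hLI
      by_cases hx : x = 0
      · have := hLI.ne_zero 0
        simp [hx] at this
      · obtain ⟨r, -, h1, -⟩ := TT_unique e P hx hy h
        have h2 : ![x, x'] = ![x, r • x] := by rw [h1]
        rw [h2] at hLI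
        have h3 := LinearIndependent.pair_iff.1 hLI r (-1) (by simp)
        have h4 := h3.2
        simp at h4)
    (Matrix.toLin' (α : Matrix (Fin k) (Fin k) F)) (Matrix.toLin' (β : Matrix (Fin l) (Fin l) F)) W (by
      intro x y
      simp only [Matrix.toLin'_apply, hUapp]
      rw [← hαβ]
      exact hgv _)
    (by simp; omega)
  have hαx : ∀ x, (α : Matrix (Fin k) (Fin k) F) *ᵥ x = s • x := by
    intro x
    have := LinearMap.congr_fun hs x
    simpa using this
  -- the endomorphism of the second factor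
  let B : (Fin l → F) → (Fin l → F) := fun y => s • ((β : Matrix (Fin l) (Fin l) F) *ᵥ y) - y
  have hgT : ∀ x y, (g : Matrix ι ι F) *ᵥ TT e P x y - TT e P x y = TT e P x (B y) := by
    intro x y
    rw [hαβ, hαx, TT_smul_left]
    simp only [B]
    rw [← TT_smul_right, sub_eq_add_neg (s • _) y, TT_add_right, sub_eq_add_neg (TT e P x _)]
    congr 1
    have := TT_smul_right e P (-1) x y
    simp only [neg_smul, one_smul] at this
    exact this.symm
  have hB : ∃ y, B y ≠ 0 := by
    by_contra hcon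
    push Not at hcon
    have h1 : (g : Matrix ι ι F) = 1 := by
      apply ext_TT e P
      intro x y
      have h3 := hgT x y
      have h2 := TT_smul_right e P 0 x y
      simp only [zero_smul, zero_smul] at h2
      rw [hcon, h2, sub_eq_zero] at h3
      rw [h3, Matrix.one_mulVec]
    have h2 := sg_mulVec hQ c a hc ha hac y
    rw [← hg, h1, Matrix.one_mulVec, hya, hyc] at h2
    have h3 : c = 0 := by
      have : y + (1 : F) • c - (0 : F) • a = y + c := by simp
      rw [this] at h2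
      simpa using h2.symm
    exact hc0 h3
  obtain ⟨y₁, hy₁⟩ := hB
  refine ?_
  let φ₀ : (Fin k → F) →ₗ[F] (ι → F) := U.flip (B y₁)
  have hφ₀ : ∀ x, φ₀ x = TT e P x (B y₁) := fun _ => rfl
  have hφmem : ∀ x, φ₀ x ∈ W := by
    intro x
    rw [hφ₀, ← hgT]
    exact hgv _
  let φ : (Fin k → F) →ₗ[F] W := φ₀.codRestrict W hφmem
  have hinj : Function.Injective φ := by
    rw [← LinearMap.ker_eq_bot, LinearMap.ker_eq_bot']
    intro x hx
    by_contra hx0
    have h1 : TT e P x (B y₁) = 0 := congrArg Subtype.val hx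
    exact TT_ne_zero e P hx0 hy₁ h1
  have hk2 := LinearMap.finrank_le_finrank_of_injective hinj
  simp only [finrank_fintype_fun_eq_card, Fintype.card_fin] at hk2
  refine ⟨by omega, B y₁, hy₁, hφmem, fun w hw hk => ?_⟩
  have hk3 : finrank F (Fin k → F) = finrank F W := by
    simp only [finrank_fintype_fun_eq_card, Fintype.card_fin]
    omega
  have hsurj := (LinearMap.injective_iff_surjective_of_finrank_eq_finrank hk3).1 hinj
  obtain ⟨x, hx⟩ := hsurj ⟨w, hw⟩
  exact ⟨x, (congrArg Subtype.val hx).symm⟩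

/-- `Ω` stabilises no tensor decomposition. -/
theorem omega_not_le_tensor [Fintype F] (hι : 7 ≤ Fintype.card ι) {k l : ℕ} (hk : 2 ≤ k) (hl : 3 ≤ l) (e : ι ≃ Fin k × Fin l) (P : GL ι F) :
    ¬ omegaGL Q ≤ tensorProductSubgroup k l e P := by
  classical
  intro hle
  obtain ⟨a, b, c, s, ha, hb, hc, hs, hac, hab, hbc, has, hcs, hbs, hc0, y, hya, hyc⟩ := exists_quad hQ hι
  have hca : pol Q c a = 0 := by rw [pol_symm hQ, hac]
  have hcb : pol Q c b = 0 := by rw [pol_symm hQ, hbc]
  obtain ⟨-, y₀, hy₀, hA₁, hA₂⟩ := line_of_siegel hQ hι hl e P hle a c y ha hc hca hya hyc hc0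
  obtain ⟨-, y₁, hy₁, hB₁, hB₂⟩ := line_of_siegel hQ hι hl e P hle b c s hb hc hcb (by rw [pol_symm hQ]; exact hbs) (by rw [pol_symm hQ]; exact hcs) hc0
  obtain ⟨x₀, hx₀⟩ := hA₂ c (Submodule.subset_span ⟨1, rfl⟩) hk
  obtain ⟨x₁, hx₁⟩ := hB₂ c (Submodule.subset_span ⟨1, rfl⟩) hk
  obtain ⟨x₂, hx₂⟩ := hB₂ b (Submodule.subset_span ⟨0, rfl⟩) hk
  have hx₀0 : x₀ ≠ 0 := by
    rintro rfl
    apply hc0
    rw [hx₀]
    have := TT_smul_left e P (0 : F) (0 : Fin k → F) y₀
    simpa using this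
  obtain ⟨r, hr, -, hr2⟩ := TT_unique e P hx₀0 hy₀ (hx₀.symm.trans hx₁)
  have hb2 : b ∈ Submodule.span F (Set.range ![a, c]) := by
    rw [hx₂]
    have h3 : TT e P x₂ y₁ = TT e P (r⁻¹ • x₂) y₀ := by
      rw [hr2, TT_smul_right, TT_smul_left, smul_smul, mul_inv_cancel₀ hr, one_smul]
    rw [h3]
    exact hA₁ _
  have h5 : ∀ w ∈ Submodule.span F (Set.range ![a, c]), pol Q s w = 0 := by
    intro w hw
    induction hw using Submodule.span_induction with
    | mem x hx =>
      obtain ⟨i, rfl⟩ := hx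
      fin_cases i
      · simpa [pol_symm hQ s a] using has
      · simpa [pol_symm hQ s c] using hcs
    | zero => exact pol_zero_right hQ _
    | add x y _ _ hx hy => rw [pol_add_right hQ, hx, hy, add_zero]
    | smul t x _ hx => rw [pol_smul_right hQ, hx, mul_zero]
  have h6 := h5 b hb2
  rw [pol_symm hQ, hbs] at h6
  exact one_ne_zero h6

end Tensor

end Cfsg.Agent.Lib.CmaxE.Proper
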