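import Mathlib
import Cfsg.Agent.Lib.CmaxE.Proper

/-!
# Criteria for plus type
-/

set_option autoImplicit false

namespace Cfsg.Agent.Lib.CmaxE.Plus

open Matrix Module Cfsg Cfsg.Geo
open Cfsg.Agent.Lib.Geo.Basic Cfsg.Agent.Lib.Geo.Polar Cfsg.Agent.Lib.Geo.QForm Cfsg.Agent.Lib.Geo.Centres
open Cfsg.Agent.Lib.GeoOmega.Basic Cfsg.Agent.Lib.AschF.OmegaP
open Cfsg.Agent.Lib.GeoOmega.Nondeg Cfsg.Agent.Lib.GeoOmega.NondegW Cfsg.Agent.Lib.GeoOmega.Singular
open Cfsg.Agent.Lib.NotMax.Tensor (TT TT_add_left TT_add_right TT_smul_left TT_smul_right TT_unique TT_ne_zero span_TT ext_TT mem_tensor pureT)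
open Cfsg.Agent.Lib.CmaxE.Core

universe u

variable {ι : Type} [Fintype ι] [DecidableEq ι] {F : Type u} [Field F] {Q : (ι → F) → F}

omit [Fintype ι] [DecidableEq ι] in
theorem finrank_sup_span' [Fintype ι] {U : Submodule F (ι → F)} {v : ι → F} (hv : v ∉ U) :
    finrank F (U ⊔ Submodule.span F {v} : Submodule F (ι → F)) = finrank F U + 1 := by
  have h1 := Submodule.finrank_sup_add_finrank_inf_eq U (Submodule.span F {v})
  have h0 : v ≠ 0 := by
    rintro rfl
    exact hv U.zero_mem
  have h2 : U ⊓ Submodule.span F {v} = ⊥ := by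
    rw [eq_bot_iff]
    rintro x ⟨hx, hxv⟩
    obtain ⟨c, rfl⟩ := Submodule.mem_span_singleton.1 hxv
    by_cases hc : c = 0
    · simp [hc]
    · exfalso
      apply hv
      have := U.smul_mem c⁻¹ hx
      rwa [smul_smul, inv_mul_cancel₀ hc, one_smul] at this
  rw [h2, finrank_bot, finrank_span_singleton h0] at h1
  omega

/-- From an injective linear map to an invertible matrix. -/
theorem exists_gl_of_injective (L : (ι → F) →ₗ[F] (ι → F)) (hL : Function.Injective L) :
    ∃ g : GL ι F, ∀ v, (g : Matrix ι ι F) *ᵥ v = L v := by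
  let E := LinearEquiv.ofInjectiveEndo L hL
  refine ⟨⟨LinearMap.toMatrix' E.toLinearMap, LinearMap.toMatrix' E.symm.toLinearMap, ?_, ?_⟩, fun v => ?_⟩
  · rw [← LinearMap.toMatrix'_comp]
    simp
  · rw [← LinearMap.toMatrix'_comp]
    simp
  · change LinearMap.toMatrix' E.toLinearMap *ᵥ v = L v
    rw [LinearMap.toMatrix'_mulVec]
    rfl

section Dec
variable (hQ : IsNondegenerateQuadraticForm Q)
include hQ

/-- The span of a totally singular set with trivial polar form is totally singular. -/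
theorem ts_span (S : Set (ι → F)) (hS1 : ∀ s ∈ S, Q s = 0) (hS2 : ∀ s ∈ S, ∀ s' ∈ S, pol Q s s' = 0) :
    IsTotallySingularQuad Q (Submodule.span F S) := by
  have hspan : ∀ v ∈ Submodule.span F S, ∀ s ∈ S, pol Q s v = 0 := by
    intro v hv s hs
    induction hv using Submodule.span_induction with
    | mem x hx => exact hS2 s hs x hx
    | zero => exact pol_zero_right hQ _
    | add x y _ _ hx hy => rw [pol_add_right hQ, hx, hy, add_zero]
    | smul c x _ hx => rw [pol_smul_right hQ, hx, mul_zero]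
  have hpol : ∀ x ∈ Submodule.span F S, ∀ w ∈ Submodule.span F S, pol Q x w = 0 := by
    intro x hx w hw
    induction hx using Submodule.span_induction with
    | mem t ht => exact hspan w hw t ht
    | zero => exact pol_zero_left hQ _
    | add t t' _ _ ht ht' => rw [pol_add_left hQ, ht, ht', add_zero]
    | smul c t _ ht => rw [pol_smul_left hQ, ht, mul_zero]
  intro v hv
  induction hv using Submodule.span_induction with
  | mem x hx => exact hS1 x hx
  | zero => exact Q_zero hQ
  | add x y hxm hym hx hy => rw [Q_add hQ, hx, hy, hpol x hxm y hym, zero_add, zero_add]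
  | smul c x _ hx => rw [hQ.smul, hx, mul_zero]

/-- Isometries permuting an orthogonal decomposition. -/
theorem exists_perm_isometry {t k : ℕ} {D : Fin t → Submodule F (ι → F)} (hD : IsOrthogonalMDecomposition Q k D)
    (τ : Equiv.Perm (Fin t)) :
    ∃ g : GL ι F, g ∈ isometryGroup F Q ∧ ∀ i, ∀ x ∈ D i, (g : Matrix ι ι F) *ᵥ x ∈ D (τ i) := by
  classical
  have hiso := fun i => hD.isometric i (τ i)
  choose e he using hiso
  have hint : DirectSum.IsInternal D :=
    DirectSum.isInternal_submodule_of_iSupIndep_of_iSup_eq_top hD.decomp.decomp.indep hD.decomp.decomp.iSup_eq_top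
  let E := LinearEquiv.ofBijective (DirectSum.coeLinearMap D) hint
  let G : ∀ i, D i →ₗ[F] (ι → F) := fun i => (D (τ i)).subtype ∘ₗ (e i).toLinearMap
  let Φ : (ι → F) →ₗ[F] (ι → F) := (DirectSum.toModule F (Fin t) (ι → F) G) ∘ₗ E.symm.toLinearMap
  have hΦ : ∀ i (x : D i), Φ (x : ι → F) = (e i x : ι → F) := by
    intro i x
    have h1 : E.symm (x : ι → F) = DirectSum.lof F (Fin t) (fun i => D i) i x := by
      rw [LinearEquiv.symm_apply_eq]
      exact (DirectSum.coeLinearMap_lof D i x).symm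
    change (DirectSum.toModule F (Fin t) (ι → F) G) (E.symm (x : ι → F)) = _
    rw [h1, DirectSum.toModule_lof]
    rfl
  have hΦmem : ∀ i, ∀ x ∈ D i, Φ x ∈ D (τ i) := by
    intro i x hx
    have := hΦ i ⟨x, hx⟩
    simp only at this
    rw [this]
    exact (e i _).2
  have hΦQ : ∀ i, ∀ x ∈ D i, Q (Φ x) = Q x := by
    intro i x hx
    have := hΦ i ⟨x, hx⟩
    simp only at this
    rw [this]
    exact he i _
  have hor : ∀ i j, i ≠ j → ∀ x ∈ D i, ∀ y ∈ D j, pol Q x y = 0 := fun i j hij x hx y hy =>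
    hD.decomp.orthogonal i j hij x hx y hy
  have hQΦ : ∀ v, Q (Φ v) = Q v := by
    intro v
    obtain ⟨c, hc, rfl⟩ := Cfsg.Agent.Lib.Geo.SpDecomp.exists_comps hD.decomp.decomp.iSup_eq_top v
    rw [map_sum, Q_sum_orth hQ _ _ (fun i _ j _ hij => hor _ _ (fun h => hij (τ.injective h)) _ (hΦmem i _ (hc i)) _ (hΦmem j _ (hc j))),
      Q_sum_orth hQ _ _ (fun i _ j _ hij => hor _ _ hij _ (hc i) _ (hc j))]
    exact Finset.sum_congr rfl fun i _ => hΦQ i _ (hc i)
  have hpolΦ : ∀ u v, pol Q (Φ u) (Φ v) = pol Q u v := by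
    intro u v
    have h1 := Q_add hQ (Φ u) (Φ v)
    have h2 := Q_add hQ u v
    rw [← map_add, hQΦ, hQΦ, hQΦ] at h1
    linear_combination h2 - h1
  have hinj : Function.Injective Φ := by
    rw [← LinearMap.ker_eq_bot, LinearMap.ker_eq_bot']
    intro v hv
    by_contra hv0
    obtain ⟨w, hw⟩ := (hQ.nondegenerate v hv0).2
    apply hw
    have := hpolΦ v w
    rw [hv, pol_zero_left hQ] at this
    exact this.symm
  obtain ⟨g, hg⟩ := exists_gl_of_injective Φ hinj
  refine ⟨g, (mem_isometryGroup_iff Q g).2 fun v => by rw [hg, hQΦ], fun i x hx => ?_⟩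
  rw [hg]
  exact hΦmem i x hx

/-- Two complementary orthogonal subspaces interchanged by an isometry. -/
theorem plus_of_pair [Fintype F] (hn : 4 ∣ Fintype.card ι) {W₁ W₂ : Submodule F (ι → F)} (hsup : W₁ ⊔ W₂ = ⊤)
    (hor : ∀ a ∈ W₁, ∀ b ∈ W₂, pol Q a b = 0) {g : GL ι F} (hgI : g ∈ isometryGroup F Q)
    (hmap1 : W₁.map (Matrix.toLin' (g : Matrix ι ι F)) ≤ W₂) (hmap2 : W₂.map (Matrix.toLin' (g : Matrix ι ι F)) ≤ W₁) :
    IsPlusTypeOn Q ⊤ := by
  have hnd : IsNondegenerateOn (QuadraticMap.polar Q) W₁ := by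
    intro v hv hv0
    obtain ⟨w, hw⟩ := (hQ.nondegenerate v hv0).2
    have hw' : w ∈ W₁ ⊔ W₂ := by
      rw [hsup]
      trivial
    obtain ⟨w₁, hw₁, w₂, hw₂, rfl⟩ := Submodule.mem_sup.1 hw'
    have h3 : pol Q v w₁ ≠ 0 := by
      intro h0
      apply hw
      change pol Q v (w₁ + w₂) = 0
      rw [pol_add_right hQ, h0, hor v hv w₂ hw₂, add_zero]
    exact ⟨⟨w₁, hw₁, by rw [pol_symm hQ] at h3; exact h3⟩, ⟨w₁, hw₁, h3⟩⟩
  have hinf : W₁ ⊓ W₂ = ⊥ := by
    rw [eq_bot_iff]
    rintro x ⟨hx, hx2⟩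
    by_contra hx0
    obtain ⟨y, hy, hne⟩ := (hnd x hx hx0).1
    exact hne (hor y hy x hx2)
  have hf1 := Submodule.finrank_mono hmap1
  have hf2 := Submodule.finrank_mono hmap2
  rw [finrank_map_toLin'] at hf1 hf2
  have hf3 := Submodule.finrank_sup_add_finrank_inf_eq W₁ W₂
  rw [hsup, hinf, finrank_bot, finrank_top, finrank_total] at hf3
  have hf4 := finrank_orth' hQ W₁
  have hmapO : W₁.map (Matrix.toLin' (g : Matrix ι ι F)) = (polB hQ).orthogonal W₁ := by
    apply Submodule.eq_of_le_of_finrank_eq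
    · intro x hx
      rw [mem_orth_iff hQ]
      intro u hu
      rw [pol_symm hQ]
      exact hor u hu x (hmap1 hx)
    · rw [finrank_map_toLin']
      omega
  have hev' : Even (finrank F W₁) := by
    obtain ⟨r, hr⟩ := hn
    exact ⟨r, by omega⟩
  obtain ⟨J, hJ⟩ := exists_anti hQ hnd hev'
  exact plus_of_swap hQ hnd hgI hmapO J hJ

/-- Orthogonal decompositions into an even number of isometric parts are of plus type. -/
theorem plus_of_dec [Fintype F] {t k s : ℕ} {D : Fin t → Submodule F (ι → F)} (hD : IsOrthogonalMDecomposition Q k D)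
    (ht : t = 2 * s) (hev : 4 ∣ Fintype.card ι) : IsPlusTypeOn Q ⊤ := by
  classical
  obtain ⟨g, hgI, hg⟩ := exists_perm_isometry hQ hD (Fin.revPerm (n := t))
  let W₁ : Submodule F (ι → F) := ⨆ i : Fin t, ⨆ (_ : i.val < s), D i
  let W₂ : Submodule F (ι → F) := ⨆ i : Fin t, ⨆ (_ : s ≤ i.val), D i
  have hle1 : ∀ i : Fin t, i.val < s → D i ≤ W₁ := fun i hi => le_iSup₂_of_le (f := fun (i : Fin t) (_ : i.val < s) => D i) i hi le_rfl
  have hle2 : ∀ i : Fin t, s ≤ i.val → D i ≤ W₂ := fun i hi => le_iSup₂_of_le (f := fun (i : Fin t) (_ : s ≤ i.val) => D i) i hi le_rfl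
  have hsup : W₁ ⊔ W₂ = ⊤ := by
    rw [eq_top_iff, ← hD.decomp.decomp.iSup_eq_top]
    refine iSup_le fun i => ?_
    by_cases hi : i.val < s
    · exact le_trans (hle1 i hi) le_sup_left
    · exact le_trans (hle2 i (by omega)) le_sup_right
  have hor : ∀ a ∈ W₁, ∀ b ∈ W₂, pol Q a b = 0 := by
    have h1 : W₁ ≤ (polB hQ).orthogonal W₂ := by
      refine iSup₂_le fun i hi => ?_
      intro x hx
      rw [mem_orth_iff hQ]
      intro u hu
      have h2 : W₂ ≤ (polB hQ).orthogonal (D i) := by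
        refine iSup₂_le fun j hj => ?_
        intro y hy
        rw [mem_orth_iff hQ]
        intro u' hu'
        exact hD.decomp.orthogonal j i (fun h => by rw [h] at hj; omega) y hy u' hu'
      rw [pol_symm hQ]
      exact (mem_orth_iff hQ).1 (h2 hu) x hx
    intro a ha b hb
    exact (mem_orth_iff hQ).1 (h1 ha) b hb
  have hmap1 : W₁.map (Matrix.toLin' (g : Matrix ι ι F)) ≤ W₂ := by
    rw [Submodule.map_le_iff_le_comap]
    refine iSup₂_le fun i hi x hx => ?_
    rw [Submodule.mem_comap, Matrix.toLin'_apply]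
    refine hle2 _ ?_ (hg i x hx)
    simp only [Fin.revPerm_apply, Fin.val_rev]
    omega
  have hmap2 : W₂.map (Matrix.toLin' (g : Matrix ι ι F)) ≤ W₁ := by
    rw [Submodule.map_le_iff_le_comap]
    refine iSup₂_le fun i hi x hx => ?_
    rw [Submodule.mem_comap, Matrix.toLin'_apply]
    refine hle1 _ ?_ (hg i x hx)
    simp only [Fin.revPerm_apply, Fin.val_rev]
    omega
  exact plus_of_pair hQ hev hsup hor hgI hmap1 hmap2

/-- A skew map with square a non-square scalar forces plus type when the dimension is divisible by four. -/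
theorem plus_of_skew [Fintype F] (h2 : (2 : F) ≠ 0) {n : ℕ} (hn : Fintype.card ι = 4 * n)
    (J : (ι → F) →ₗ[F] (ι → F)) (δ : F) (hδ : ∀ s : F, s ^ 2 ≠ δ) (hJ2 : ∀ v, J (J v) = δ • v)
    (hJ : ∀ u v, pol Q (J u) v = - pol Q u (J v)) : IsPlusTypeOn Q ⊤ := by
  classical
  have hQJ : ∀ w, Q w = 0 → Q (J w) = 0 := by
    intro w hw
    have h1 := hJ (J w) w
    rw [hJ2, pol_smul_left hQ, pol_self hQ, pol_self hQ, hw] at h1
    have h3 : (2 : F) * Q (J w) = 0 := by linear_combination h1
    exact (mul_eq_zero.1 h3).resolve_left h2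
  have hpJ : ∀ w, pol Q w (J w) = 0 := by
    intro w
    have h1 := hJ w w
    rw [pol_symm hQ] at h1
    have h3 : (2 : F) * pol Q w (J w) = 0 := by linear_combination h1
    exact (mul_eq_zero.1 h3).resolve_left h2
  have key : ∀ m : ℕ, m ≤ n → ∃ U : Submodule F (ι → F), finrank F U = 2 * m ∧ (∀ u ∈ U, Q u = 0) ∧ ∀ u ∈ U, J u ∈ U := by
    intro m
    induction m with
    | zero =>
      intro _
      refine ⟨⊥, by simp, ?_, ?_⟩
      · intro u hu
        rw [(Submodule.mem_bot F).1 hu, Q_zero hQ]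
      · intro u hu
        rw [(Submodule.mem_bot F).1 hu, map_zero]
        exact Submodule.zero_mem _
    | succ m ih =>
      intro hm
      obtain ⟨U, hU, hUQ, hUJ⟩ := ih (by omega)
      obtain ⟨C, hC⟩ := Submodule.exists_isCompl U
      have h3 := Submodule.finrank_add_eq_of_isCompl hC
      rw [finrank_total] at h3
      have h4 := finrank_orth' hQ U
      have h5 := Submodule.finrank_sup_add_finrank_inf_eq C ((polB hQ).orthogonal U)
      have h6 : finrank F (C ⊔ (polB hQ).orthogonal U : Submodule F (ι → F)) ≤ Fintype.card ι := by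
        have := Submodule.finrank_le (C ⊔ (polB hQ).orthogonal U)
        rwa [finrank_total] at this
      obtain ⟨w, ⟨hwC, hwO⟩, hw0, hQw⟩ := exists_singular hQ (C ⊓ (polB hQ).orthogonal U) (by omega)
      have hwU : w ∉ U := by
        intro h
        have := hC.disjoint.le_bot ⟨h, hwC⟩
        exact hw0 (by simpa using this)
      have hwO' : ∀ u ∈ U, pol Q u w = 0 := by
        intro u hu
        rw [pol_symm hQ]
        exact (mem_orth_iff hQ).1 hwO u hu
      have hJwO : ∀ u ∈ U, pol Q u (J w) = 0 := by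
        intro u hu
        have h7 := hJ u w
        rw [hwO' _ (hUJ u hu)] at h7
        linear_combination h7
      set U₁ := U ⊔ Submodule.span F {w} with hU₁
      have hJw : J w ∉ U₁ := by
        intro h
        obtain ⟨u, hu, x, hx, hsum⟩ := Submodule.mem_sup.1 h
        obtain ⟨α, rfl⟩ := Submodule.mem_span_singleton.1 hx
        have h7 : δ • w = J u + α • J w := by
          rw [← hJ2]
          conv_lhs => rw [← hsum]
          rw [map_add, map_smul]
        rw [← hsum] at h7
        have h8 : (δ - α ^ 2) • w = J u + α • u := by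
          rw [sub_smul, h7, smul_add, smul_smul, ← pow_two]
          abel
        have h9 : δ - α ^ 2 ≠ 0 := fun h0 => hδ α (by linear_combination -h0)
        apply hwU
        have h10 : (δ - α ^ 2) • w ∈ U := by
          rw [h8]
          exact U.add_mem (hUJ u hu) (U.smul_mem _ hu)
        have := U.smul_mem (δ - α ^ 2)⁻¹ h10
        rwa [smul_smul, inv_mul_cancel₀ h9, one_smul] at this
      refine ⟨U₁ ⊔ Submodule.span F {J w}, ?_, ?_, ?_⟩
      · rw [finrank_sup_span' hJw, hU₁, finrank_sup_span' hwU, hU]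
        ring
      · intro x hx
        obtain ⟨x₁, hx₁, y, hy, rfl⟩ := Submodule.mem_sup.1 hx
        obtain ⟨u, hu, z, hz, rfl⟩ := Submodule.mem_sup.1 hx₁
        obtain ⟨α, rfl⟩ := Submodule.mem_span_singleton.1 hz
        obtain ⟨β, rfl⟩ := Submodule.mem_span_singleton.1 hy
        rw [Q_add hQ, Q_add hQ, hUQ u hu, hQ.smul, hQ.smul, hQw, hQJ w hQw, pol_smul_right hQ, hwO' u hu,
          pol_add_left hQ, pol_smul_right hQ, pol_smul_right hQ, hJwO u hu, pol_smul_left hQ, hpJ w]
        ring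
      · intro x hx
        obtain ⟨x₁, hx₁, y, hy, rfl⟩ := Submodule.mem_sup.1 hx
        obtain ⟨u, hu, z, hz, rfl⟩ := Submodule.mem_sup.1 hx₁
        obtain ⟨α, rfl⟩ := Submodule.mem_span_singleton.1 hz
        obtain ⟨β, rfl⟩ := Submodule.mem_span_singleton.1 hy
        rw [map_add, map_add, map_smul, map_smul, hJ2, smul_smul]
        have hwm : w ∈ U₁ ⊔ Submodule.span F {J w} :=
          Submodule.mem_sup_left (Submodule.mem_sup_right (Submodule.mem_span_singleton_self w))
        have hJm : J w ∈ U₁ ⊔ Submodule.span F {J w} :=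
          Submodule.mem_sup_right (Submodule.mem_span_singleton_self _)
        have hum : J u ∈ U₁ ⊔ Submodule.span F {J w} :=
          Submodule.mem_sup_left (Submodule.mem_sup_left (hUJ u hu))
        exact Submodule.add_mem _ (Submodule.add_mem _ hum (Submodule.smul_mem _ _ hJm)) (Submodule.smul_mem _ _ hwm)
  obtain ⟨U, hU, hUQ, -⟩ := key n le_rfl
  refine ⟨U, le_top, hUQ, ?_⟩
  rw [finrank_top, finrank_total, hU, hn]
  ring

end Dec

end Cfsg.Agent.Lib.CmaxE.Plus
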