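import Mathlib
import Cfsg.Agent.Lib.CmaxE.Plus

/-!
# Symplectic type normal subgroups in even orthogonal groups
-/

set_option autoImplicit false

namespace Cfsg.Agent.Lib.CmaxE.Rg

open Matrix Module Cfsg Cfsg.Geo
open Cfsg.Agent.Lib.Geo.Basic Cfsg.Agent.Lib.Geo.Polar Cfsg.Agent.Lib.Geo.QForm
open Cfsg.Agent.Lib.GeoOmega.Basic Cfsg.Agent.Lib.AschF.OmegaP
open Cfsg.Agent.Lib.GeoOmega.Nondeg Cfsg.Agent.Lib.GeoOmega.NondegW Cfsg.Agent.Lib.GeoOmega.Singular
open Cfsg.Agent.Lib.Asch.XT Cfsg.Agent.Lib.Asch.GT Cfsg.Agent.Lib.Asch.SC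
open Cfsg.Agent.Lib.AschF.Top (exists_noncomm')
open Cfsg.Agent.Lib.AschF.OddA (polar_isom Q_isom)
open Cfsg.Agent.Lib.CmaxE.Core Cfsg.Agent.Lib.CmaxE.Plus

universe u

variable {ι : Type} [Fintype ι] [DecidableEq ι] {F : Type u} [Field F] {Q : (ι → F) → F}

section Group
variable {G : Type*} [Group G] {u : G} (hu : ∀ g, u * g = g * u) (huu : u * u = 1)
include hu huu

theorem comm_A {x y r : G} (h1 : x * y = u * (y * x)) (h2 : r * y = u * (y * r)) : (r * x) * y = y * (r * x) := by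
  calc (r * x) * y = r * (x * y) := mul_assoc _ _ _
    _ = r * (u * (y * x)) := by rw [h1]
    _ = u * (r * (y * x)) := by rw [← mul_assoc, ← hu r, mul_assoc]
    _ = u * ((r * y) * x) := by rw [mul_assoc r]
    _ = u * ((u * (y * r)) * x) := by rw [h2]
    _ = (u * u) * (y * (r * x)) := by simp only [mul_assoc]
    _ = y * (r * x) := by rw [huu, one_mul]

theorem comm_B {x y r : G} (h1 : x * y = y * x) (h2 : r * y = y * r) : (r * x) * y = y * (r * x) := by
  calc (r * x) * y = r * (x * y) := mul_assoc _ _ _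
    _ = r * (y * x) := by rw [h1]
    _ = (r * y) * x := by rw [mul_assoc]
    _ = (y * r) * x := by rw [h2]
    _ = y * (r * x) := mul_assoc _ _ _

end Group

variable [Fintype F]

/-- The commutators inside `R` are `±1`. -/
theorem sign_of_comm (hQ : IsNondegenerateQuadraticForm Q) [Nonempty ι] (h2 : (2 : F) ≠ 0) {R : Subgroup (GL ι F)} (hRI : R ≤ isometryGroup F Q)
    (hSC : ScC R) {x y : GL ι F} (hx : x ∈ R) (hy : y ∈ R) : x * y = y * x ∨ x * y = sc (-1) * (y * x) := by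
  classical
  obtain ⟨c, hc⟩ := hSC x hx y hy
  have hc0 : c ≠ 0 := by
    rintro rfl
    rw [zero_smul] at hc
    have h1 : IsUnit ((x : Matrix ι ι F) * (y : Matrix ι ι F)) := (x * y).isUnit
    rw [hc] at h1
    exact not_isUnit_zero h1
  have hcm : ((x * y * x⁻¹ * y⁻¹ : GL ι F) : Matrix ι ι F) = c • 1 := by
    rw [Units.val_mul, Units.val_mul, Units.val_mul, hc, Matrix.smul_mul, Matrix.smul_mul]
    have h3 : (y : Matrix ι ι F) * (x : Matrix ι ι F) * ((x⁻¹ : GL ι F) : Matrix ι ι F) * ((y⁻¹ : GL ι F) : Matrix ι ι F) = 1 := by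
      rw [← Units.val_mul, ← Units.val_mul, ← Units.val_mul]
      simp
    rw [h3]
  have hmem : x * y * x⁻¹ * y⁻¹ ∈ R := R.mul_mem (R.mul_mem (R.mul_mem hx hy) (R.inv_mem hx)) (R.inv_mem hy)
  obtain ⟨i₀⟩ := ‹Nonempty ι›
  have hv : (Pi.single i₀ 1 : ι → F) ≠ 0 := by
    intro h0
    have := congrFun h0 i₀
    simp at this
  obtain ⟨u, hu⟩ := (hQ.nondegenerate _ hv).1
  have hiso := polar_isom (hRI hmem) u (Pi.single i₀ 1)
  rw [hcm, Matrix.smul_mulVec, Matrix.smul_mulVec, Matrix.one_mulVec, Matrix.one_mulVec, pol_smul_left hQ, pol_smul_right hQ] at hiso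
  have h3 : (c * c - 1) * pol Q u (Pi.single i₀ 1) = 0 := by linear_combination hiso
  have h4 := sub_eq_zero.1 ((mul_eq_zero.1 h3).resolve_right hu)
  have h5 : (c - 1) * (c + 1) = 0 := by linear_combination h4
  rcases mul_eq_zero.1 h5 with h6 | h6
  · left
    apply Units.ext
    rw [Units.val_mul, Units.val_mul, hc, sub_eq_zero.1 h6, one_smul]
  · right
    apply Units.ext
    have h7 : c = -1 := eq_neg_of_add_eq_zero_left h6
    rw [Units.val_mul, Units.val_mul, Units.val_mul, hc, sc_val, h7]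
    simp

/-- An involution anticommuting with another element. -/
theorem exists_involution (hQ : IsNondegenerateQuadraticForm Q) [Nonempty ι] (h2 : (2 : F) ≠ 0) (hn : 3 ≤ Fintype.card ι) {R : Subgroup (GL ι F)}
    (hRI : R ≤ isometryGroup F Q) (hA : ActsAbsolutelyIrreducibly (matrixSet R)) (hSC : ScC R)
    (hx2 : ∀ x ∈ R, ∃ m : Fˣ, m ^ 2 = 1 ∧ x ^ 2 = sc m) :
    ∃ x ∈ R, x ^ 2 = 1 ∧ ∃ y ∈ R, y * x = sc (-1) * (x * y) := by
  classical
  let u : GL ι F := sc (-1)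
  have huc : ∀ g : GL ι F, u * g = g * u := fun g => comm_of_mem_scalars (x := u) (y := g) ⟨-1, rfl⟩
  have huu : u * u = 1 := by
    simp only [u]
    rw [← map_mul]
    simp
  have hu1 : u ≠ 1 := by
    intro h
    have h3 := congrArg (fun g : GL ι F => (g : Matrix ι ι F)) h
    simp only [u, sc_val, Units.val_one] at h3
    obtain ⟨i₀⟩ := ‹Nonempty ι›
    have h4 := congrFun (congrFun h3 i₀) i₀
    simp at h4
    apply h2
    linear_combination -h4
  have hsq : ∀ x ∈ R, x ^ 2 = 1 ∨ x ^ 2 = u := by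
    intro x hx
    obtain ⟨m, hm, hxm⟩ := hx2 x hx
    have h5 : ((m : F) - 1) * ((m : F) + 1) = 0 := by
      have := congrArg Units.val hm
      simp only [Units.val_pow_eq_pow_val, Units.val_one] at this
      linear_combination this
    rcases mul_eq_zero.1 h5 with h6 | h6
    · left
      have : m = 1 := Units.ext (sub_eq_zero.1 h6)
      rw [hxm, this, map_one]
    · right
      have : m = -1 := Units.ext (by simpa using eq_neg_of_add_eq_zero_left h6)
      rw [hxm, this]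
  have hsign : ∀ {x y : GL ι F}, x ∈ R → y ∈ R → x * y = y * x ∨ x * y = u * (y * x) := fun hx hy => sign_of_comm hQ h2 hRI hSC hx hy
  -- a non-commuting pair
  obtain ⟨x₀, hx₀, y₀, hy₀, hne⟩ : ∃ x ∈ R, ∃ y ∈ R, x * y ≠ y * x := by
    have := exists_noncomm' (by omega) hA
    push Not at this
    exact this
  have hxy : x₀ * y₀ = u * (y₀ * x₀) := (hsign hx₀ hy₀).resolve_left hne
  have hyx : y₀ * x₀ = u * (x₀ * y₀) := by
    rw [hxy, ← mul_assoc, huu, one_mul]
  rcases hsq x₀ hx₀ with hxs | hxs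
  · exact ⟨x₀, hx₀, hxs, y₀, hy₀, hyx⟩
  rcases hsq y₀ hy₀ with hys | hys
  · exact ⟨y₀, hy₀, hys, x₀, hx₀, hxy⟩
  -- a third element
  let C := Subgroup.center R
  have hcardC := card_eq hA hSC
  haveI : Finite (GL ι F) := inferInstanceAs (Finite (Units _))
  let X₀ : R := ⟨x₀, hx₀⟩
  let Y₀ : R := ⟨y₀, hy₀⟩
  have hexists : ∃ q : R ⧸ C, q ≠ (1 : R) ∧ q ≠ X₀ ∧ q ≠ Y₀ ∧ q ≠ (X₀ * Y₀ : R) := by
    by_contra hcon
    push Not at hcon
    haveI : Fintype (R ⧸ C) := Fintype.ofFinite _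
    let s : Finset (R ⧸ C) := {((1 : R) : R ⧸ C), (X₀ : R ⧸ C), (Y₀ : R ⧸ C), ((X₀ * Y₀ : R) : R ⧸ C)}
    have hs : s = Finset.univ := by
      apply Finset.eq_univ_of_forall
      intro q
      by_cases h1 : q = ((1 : R) : R ⧸ C)
      · simp [s, h1]
      by_cases h3 : q = (X₀ : R ⧸ C)
      · simp [s, h3]
      by_cases h4 : q = (Y₀ : R ⧸ C)
      · simp [s, h4]
      simp only [s, Finset.mem_insert, Finset.mem_singleton]
      right; right; right
      exact hcon q h1 h3 h4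
    have hcs : Fintype.card (R ⧸ C) ≤ 4 := by
      rw [← Finset.card_univ, ← hs]
      exact Finset.card_le_four
    have hlag := Subgroup.card_eq_card_quotient_mul_card_subgroup C
    rw [hcardC, Nat.card_eq_fintype_card (α := R ⧸ C)] at hlag
    have hC0 : Nat.card C ≠ 0 := Nat.card_pos.ne'
    have h5 : Fintype.card ι ^ 2 = Fintype.card (R ⧸ C) := by
      apply mul_left_cancel₀ hC0
      rw [hlag]
      ring
    have h6 : 9 ≤ Fintype.card ι ^ 2 := by nlinarith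
    omega
  obtain ⟨q, hq1, hqx, hqy, hqxy⟩ := hexists
  obtain ⟨⟨r, hr⟩, rfl⟩ := QuotientGroup.mk_surjective q
  -- squares are central
  have hcenter : ∀ t : R, t ^ 2 ∈ C := by
    intro t
    change t ^ 2 ∈ Subgroup.center R
    rw [center_eq hA, Subgroup.mem_subgroupOf]
    obtain ⟨m, -, hm⟩ := hx2 t t.2
    change (t : GL ι F) ^ 2 ∈ scalars ι F
    rw [hm]
    exact ⟨m, rfl⟩
  have hmk : ∀ t : R, (t = 1 ∨ t = X₀ ∨ t = Y₀ ∨ t = X₀ * Y₀) → (⟨r, hr⟩ * t : R) ∉ C := by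
    intro t ht hc
    have h3 : ((⟨r, hr⟩ : R) : R ⧸ C) = (t : R ⧸ C) := by
      rw [QuotientGroup.eq]
      have hcc : (⟨r, hr⟩ * t : R) ∈ Subgroup.center R := hc
      have h4 : (⟨r, hr⟩ : R)⁻¹ * t = (⟨r, hr⟩ * t : R)⁻¹ * t ^ 2 := by
        have h5 := Subgroup.mem_center_iff.1 (inv_mem hcc) t
        have h6 : (⟨r, hr⟩ : R)⁻¹ = t * (⟨r, hr⟩ * t : R)⁻¹ := by
          rw [_root_.mul_inv_rev]
          group
        calc (⟨r, hr⟩ : R)⁻¹ * t = (t * (⟨r, hr⟩ * t : R)⁻¹) * t := by rw [← h6]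
          _ = ((⟨r, hr⟩ * t : R)⁻¹ * t) * t := by rw [h5]
          _ = _ := by rw [pow_two, mul_assoc]
      rw [h4]
      exact C.mul_mem (C.inv_mem hc) (hcenter t)
    rcases ht with rfl | rfl | rfl | rfl
    · exact hq1 h3
    · exact hqx h3
    · exact hqy h3
    · exact hqxy h3
  -- adjusting
  obtain ⟨t, ht, hzx, hzy⟩ : ∃ t : R, (t = 1 ∨ t = X₀ ∨ t = Y₀ ∨ t = X₀ * Y₀) ∧
      (r * t) * x₀ = x₀ * (r * t) ∧ (r * t) * y₀ = y₀ * (r * t) := by
    obtain ⟨t₁, ht₁, h1⟩ : ∃ t₁ : R, (t₁ = 1 ∨ t₁ = X₀) ∧ (r * t₁) * y₀ = y₀ * (r * t₁) := by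
      rcases hsign hr hy₀ with h | h
      · refine ⟨1, Or.inl rfl, ?_⟩
        simpa using h
      · exact ⟨X₀, Or.inr rfl, comm_A huc huu hxy h⟩
    have hr₁ : r * t₁ ∈ R := R.mul_mem hr t₁.2
    rcases hsign hr₁ hx₀ with h | h
    · exact ⟨t₁, by tauto, h, h1⟩
    · refine ⟨t₁ * Y₀, ?_, ?_, ?_⟩
      · rcases ht₁ with rfl | rfl
        · right; right; left
          exact one_mul _
        · right; right; right
          rfl
      · have h3 : (r * (t₁ : GL ι F) * y₀) * x₀ = x₀ * (r * t₁ * y₀) := comm_A huc huu hyx h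
        simpa [mul_assoc] using h3
      · have h3 : (r * (t₁ : GL ι F) * y₀) * y₀ = y₀ * (r * t₁ * y₀) := comm_B huc huu rfl h1
        simpa [mul_assoc] using h3
  set z : GL ι F := r * t with hz
  have hzR : z ∈ R := R.mul_mem hr t.2
  have hzns : ∃ y ∈ R, z * y ≠ y * z := by
    by_contra hcon
    push Not at hcon
    apply hmk t ht
    change (⟨r, hr⟩ * t : R) ∈ Subgroup.center R
    rw [center_eq hA, Subgroup.mem_subgroupOf]
    exact mem_scalars_of_comm hA hcon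
  rcases hsq z hzR with hzs | hzs
  · obtain ⟨y, hy, hzy'⟩ := hzns
    have h3 := (hsign hzR hy).resolve_left hzy'
    refine ⟨z, hzR, hzs, y, hy, ?_⟩
    change y * z = u * (z * y)
    rw [h3, ← mul_assoc u u, huu, one_mul]
  · refine ⟨z * x₀, R.mul_mem hzR hx₀, ?_, y₀, hy₀, ?_⟩
    · have h3 : (z * x₀) ^ 2 = z ^ 2 * x₀ ^ 2 := by
        calc (z * x₀) ^ 2 = z * (x₀ * z) * x₀ := by rw [pow_two]; simp only [mul_assoc]
          _ = z * (z * x₀) * x₀ := by rw [hzx]
          _ = _ := by rw [pow_two, pow_two]; simp only [mul_assoc]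
      rw [h3, hzs, hxs]
      exact huu
    · change y₀ * (z * x₀) = u * ((z * x₀) * y₀)
      calc y₀ * (z * x₀) = (y₀ * z) * x₀ := (mul_assoc _ _ _).symm
        _ = (z * y₀) * x₀ := by rw [hzy]
        _ = z * (y₀ * x₀) := mul_assoc _ _ _
        _ = z * (u * (x₀ * y₀)) := by rw [hyx]
        _ = u * (z * (x₀ * y₀)) := by rw [← mul_assoc, ← huc z, mul_assoc]
        _ = u * ((z * x₀) * y₀) := by rw [mul_assoc z]

/-- Plus type from a symplectic type normal subgroup. -/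
theorem plus_of_rg (hQ : IsNondegenerateQuadraticForm Q) [Nonempty ι] (h2 : (2 : F) ≠ 0) (hn : 4 ∣ Fintype.card ι) {R : Subgroup (GL ι F)}
    (hRI : R ≤ isometryGroup F Q) (hA : ActsAbsolutelyIrreducibly (matrixSet R)) (hSC : ScC R)
    (hx2 : ∀ x ∈ R, ∃ m : Fˣ, m ^ 2 = 1 ∧ x ^ 2 = sc m) : IsPlusTypeOn Q ⊤ := by
  classical
  have hn3 : 3 ≤ Fintype.card ι := by
    obtain ⟨r, hr⟩ := hn
    have h0 : 0 < Fintype.card ι := Fintype.card_pos
    omega
  obtain ⟨x, hx, hx1, y, hy, hyx⟩ := exists_involution hQ h2 hn3 hRI hA hSC hx2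
  set M : Matrix ι ι F := (x : Matrix ι ι F) with hM
  have hMM : ∀ v, M *ᵥ (M *ᵥ v) = v := by
    intro v
    rw [Matrix.mulVec_mulVec]
    have : M * M = 1 := by
      have h3 := congrArg (fun g : GL ι F => (g : Matrix ι ι F)) hx1
      simp only [pow_two, Units.val_mul, Units.val_one] at h3
      exact h3
    rw [this, Matrix.one_mulVec]
  let W₁ : Submodule F (ι → F) := LinearMap.ker (Matrix.toLin' M - LinearMap.id)
  let W₂ : Submodule F (ι → F) := LinearMap.ker (Matrix.toLin' M + LinearMap.id)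
  have hW₁ : ∀ v, v ∈ W₁ ↔ M *ᵥ v = v := by
    intro v
    simp only [W₁, LinearMap.mem_ker, LinearMap.sub_apply, Matrix.toLin'_apply, LinearMap.id_apply, sub_eq_zero]
  have hW₂ : ∀ v, v ∈ W₂ ↔ M *ᵥ v = -v := by
    intro v
    simp only [W₂, LinearMap.mem_ker, LinearMap.add_apply, Matrix.toLin'_apply, LinearMap.id_apply]
    exact add_eq_zero_iff_eq_neg
  have hsup : W₁ ⊔ W₂ = ⊤ := by
    rw [eq_top_iff]
    intro v _
    have h3 : v = (2 : F)⁻¹ • (v + M *ᵥ v) + (2 : F)⁻¹ • (v - M *ᵥ v) := by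
      rw [← smul_add]
      have : v + M *ᵥ v + (v - M *ᵥ v) = (2 : F) • v := by
        rw [two_smul]
        abel
      rw [this, smul_smul, inv_mul_cancel₀ h2, one_smul]
    rw [h3]
    refine Submodule.add_mem_sup ?_ ?_
    · rw [hW₁, Matrix.mulVec_smul, Matrix.mulVec_add, hMM, add_comm]
    · rw [hW₂, Matrix.mulVec_smul, Matrix.mulVec_sub, hMM, ← smul_neg, neg_sub]
  have hxI := hRI hx
  have hor : ∀ a ∈ W₁, ∀ b ∈ W₂, pol Q a b = 0 := by
    intro a ha b hb
    have h3 := polar_isom hxI a b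
    rw [(hW₁ a).1 ha, (hW₂ b).1 hb] at h3
    have h4 : pol Q a (-b) = - pol Q a b := by
      have := pol_smul_right hQ (-1) a b
      simpa using this
    change pol Q a (-b) = pol Q a b at h3
    rw [h4] at h3
    have h5 : (2 : F) * pol Q a b = 0 := by linear_combination -h3
    exact (mul_eq_zero.1 h5).resolve_left h2
  have hxyv : ∀ v, M *ᵥ ((y : Matrix ι ι F) *ᵥ v) = - ((y : Matrix ι ι F) *ᵥ (M *ᵥ v)) := by
    intro v
    have hxy' : x * y = sc (-1) * (y * x) := by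
      rw [hyx, ← mul_assoc, ← map_mul]
      simp
    have h3 := congrArg (fun g : GL ι F => (g : Matrix ι ι F) *ᵥ v) hxy'
    simp only [Units.val_mul, ← Matrix.mulVec_mulVec, sc_val] at h3
    rw [h3]
    simp [Matrix.smul_mulVec]
    rw [Matrix.neg_mulVec]
  refine plus_of_pair hQ hn hsup hor (hRI hy) ?_ ?_
  · rintro _ ⟨a, ha, rfl⟩
    rw [Matrix.toLin'_apply, hW₂, hxyv, (hW₁ a).1 ha]
  · rintro _ ⟨a, ha, rfl⟩
    rw [Matrix.toLin'_apply, hW₁, hxyv, (hW₂ a).1 ha, Matrix.mulVec_neg, neg_neg]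

/-- The order of a symplectic type group is a power of two modulo scalars. -/
theorem false_of_three_dvd [Nonempty ι] (hn : 3 ∣ Fintype.card ι) {R : Subgroup (GL ι F)}
    (hA : ActsAbsolutelyIrreducibly (matrixSet R)) (hSC : ScC R)
    (hx2 : ∀ x ∈ R, ∃ m : Fˣ, m ^ 2 = 1 ∧ x ^ 2 = sc m) : False := by
  classical
  haveI : Finite (GL ι F) := inferInstanceAs (Finite (Units _))
  let C := Subgroup.center R
  have hcardC := card_eq hA hSC
  have hlag := Subgroup.card_eq_card_quotient_mul_card_subgroup C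
  rw [hcardC] at hlag
  have hC0 : Nat.card C ≠ 0 := Nat.card_pos.ne'
  have h5 : Fintype.card ι ^ 2 = Nat.card (R ⧸ C) := by
    apply mul_left_cancel₀ hC0
    rw [hlag]
    ring
  have h3 : 3 ∣ Nat.card (R ⧸ C) := by
    rw [← h5]
    exact Dvd.dvd.pow hn (by norm_num)
  haveI : Fact (Nat.Prime 3) := ⟨Nat.prime_three⟩
  obtain ⟨q, hq⟩ := exists_prime_orderOf_dvd_card' 3 h3
  obtain ⟨t, rfl⟩ := QuotientGroup.mk_surjective q
  have hc : t ^ 2 ∈ C := by
    change t ^ 2 ∈ Subgroup.center R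
    rw [center_eq hA, Subgroup.mem_subgroupOf]
    obtain ⟨m, -, hm⟩ := hx2 t t.2
    change (t : GL ι F) ^ 2 ∈ scalars ι F
    rw [hm]
    exact ⟨m, rfl⟩
  have h6 : ((t : R ⧸ C)) ^ 2 = 1 := by
    rw [← QuotientGroup.mk_pow, QuotientGroup.eq_one_iff]
    exact hc
  have h7 := orderOf_dvd_of_pow_eq_one h6
  rw [hq] at h7
  omega

end Cfsg.Agent.Lib.CmaxE.Rg
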