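import Mathlib
import Cfsg.Agent.Lib.CmaxE.Plus

/-!
# A form defined over the subfield of index two has plus type
-/

set_option autoImplicit false

namespace Cfsg.Agent.Lib.CmaxE.Sub2

open Matrix Module Cfsg Cfsg.Geo Polynomial
open Cfsg.Agent.Lib.Geo.Basic Cfsg.Agent.Lib.Geo.Polar Cfsg.Agent.Lib.Geo.QForm Cfsg.Agent.Lib.Geo.Centres
open Cfsg.Agent.Lib.GeoOmega.Basic Cfsg.Agent.Lib.AschF.OmegaP
open Cfsg.Agent.Lib.GeoOmega.Nondeg Cfsg.Agent.Lib.GeoOmega.NondegW Cfsg.Agent.Lib.GeoOmega.Singular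
open Cfsg.Agent.Lib.CmaxE.Core Cfsg.Agent.Lib.CmaxE.Plus

universe u

variable {ι : Type} [Fintype ι] [DecidableEq ι] {F : Type u} [Field F] [Fintype F]

/-- A divisor of `X^q - X` has a root. -/
theorem exists_root_of_dvd (g : F[X]) (hg : g.natDegree ≠ 0) (hdvd : g ∣ X ^ Fintype.card F - X) : ∃ s : F, g.eval s = 0 := by
  classical
  have hg0 : g ≠ 0 := by
    rintro rfl
    simp at hg
  have hgu : ¬ IsUnit g := by
    intro h
    exact hg (natDegree_eq_zero_of_isUnit h)
  obtain ⟨p, hp, hpg⟩ := WfDvdMonoid.exists_irreducible_factor hgu hg0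
  have hmonic : (X ^ Fintype.card F - X : F[X]).Monic := by
    apply monic_X_pow_sub
    simpa using Fintype.one_lt_card
  have hroots := FiniteField.roots_X_pow_card_sub_X F
  have hprod := prod_multiset_X_sub_C_of_monic_of_roots_card_eq hmonic (by
    rw [hroots, FiniteField.X_pow_card_sub_X_natDegree_eq F Fintype.one_lt_card]
    simp)
  rw [hroots] at hprod
  have h1 : p ∣ ((Finset.univ.val : Multiset F).map fun a => X - C a).prod := by
    rw [hprod]
    exact hpg.trans hdvd
  obtain ⟨a, -, ha⟩ := hp.prime.exists_mem_multiset_map_dvd h1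
  have h3 := hp.associated_of_dvd (irreducible_X_sub_C a) ha
  refine ⟨a, ?_⟩
  have h4 : (X - C a) ∣ g := h3.symm.dvd.trans hpg
  exact dvd_iff_isRoot.1 h4

/-- A quadratic polynomial over the subfield of index two has a root. -/
theorem exists_root_quadratic (F₁ : Subfield F) (hcard : Fintype.card F = Nat.card F₁ ^ 2) (b c : F₁) :
    ∃ s : F, s ^ 2 + b * s + c = 0 := by
  classical
  haveI : Fintype F₁ := Fintype.ofFinite F₁
  let g : F₁[X] := X ^ 2 + C b * X + C c
  have hdeg : g.natDegree = 2 := by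
    simp only [g]
    compute_degree!
  have hmon : g.Monic := by
    simp only [g]
    monicity!
  have hg0 : g ≠ 0 := hmon.ne_zero
  have hev : ∀ s : F, (g.map F₁.subtype).eval s = s ^ 2 + b * s + c := by
    intro s
    simp [g]
  by_cases hirr : Irreducible g
  · haveI : Fact (Irreducible g) := ⟨hirr⟩
    let E := AdjoinRoot g
    let pb := AdjoinRoot.powerBasis hg0
    haveI : Module.Finite F₁ E := pb.finite
    haveI : Finite E := Module.finite_of_finite F₁
    haveI : Fintype E := Fintype.ofFinite E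
    have hfin : Module.finrank F₁ E = 2 := by
      rw [pb.finrank]
      simpa [pb] using hdeg
    have hcE : Fintype.card E = Fintype.card F := by
      rw [hcard, ← Nat.card_eq_fintype_card, Module.natCard_eq_pow_finrank (K := F₁), hfin]
    have hz := FiniteField.pow_card (AdjoinRoot.root g)
    rw [hcE] at hz
    have h1 : g ∣ X ^ Fintype.card F - X := by
      rw [← AdjoinRoot.mk_eq_zero, map_sub, map_pow, AdjoinRoot.mk_X, hz, sub_self]
    have h2 : g.map F₁.subtype ∣ X ^ Fintype.card F - X := by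
      have := Polynomial.map_dvd F₁.subtype h1
      simpa using this
    obtain ⟨s, hs⟩ := exists_root_of_dvd _ (by rw [natDegree_map, hdeg]; norm_num) h2
    exact ⟨s, by rw [← hev, hs]⟩
  · have h1 := hmon.irreducible_iff_roots_eq_zero_of_degree_le_three (by omega) (by omega)
    rw [h1] at hirr
    obtain ⟨r, hr⟩ := Multiset.exists_mem_of_ne_zero hirr
    have hr' : g.eval r = 0 := isRoot_of_mem_roots hr
    refine ⟨r, ?_⟩
    have h3 : (g.map F₁.subtype).eval (F₁.subtype r) = F₁.subtype (g.eval r) := by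
      rw [eval_map, eval₂_hom]
    rw [hev, hr'] at h3
    simpa using h3

variable {Q : (ι → F) → F}

/-- Totally singular subspaces exist. -/
theorem exists_ts_dim (hQ : IsNondegenerateQuadraticForm Q) : ∀ k : ℕ, 2 * k + 2 ≤ Fintype.card ι →
    ∃ U : Submodule F (ι → F), finrank F U = k ∧ ∀ u ∈ U, Q u = 0 ∧ ∀ v ∈ U, pol Q u v = 0 := by
  intro k
  induction k with
  | zero =>
    intro _
    refine ⟨⊥, by simp, fun u hu => ?_⟩
    rw [(Submodule.mem_bot F).1 hu]
    exact ⟨Q_zero hQ, fun v _ => pol_zero_left hQ v⟩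
  | succ k ih =>
    intro hk
    obtain ⟨U, hU, hU2⟩ := ih (by omega)
    obtain ⟨C, hC⟩ := Submodule.exists_isCompl U
    have h3 := Submodule.finrank_add_eq_of_isCompl hC
    rw [finrank_total] at h3
    have h4 := finrank_orth' hQ U
    have h5 := Submodule.finrank_sup_add_finrank_inf_eq C ((polB hQ).orthogonal U)
    have h6 : finrank F (C ⊔ (polB hQ).orthogonal U : Submodule F (ι → F)) ≤ Fintype.card ι := by
      have := Submodule.finrank_le (C ⊔ (polB hQ).orthogonal U)
      rwa [finrank_total] at this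
    obtain ⟨w, ⟨hwC, hwO⟩, hw0, hQw⟩ := exists_singular hQ (C ⊓ (polB hQ).orthogonal U) (by omega)
    have hwU : w ∉ U := by
      intro h
      have := hC.disjoint.le_bot ⟨h, hwC⟩
      exact hw0 (by simpa using this)
    have hwO' : ∀ u ∈ U, pol Q w u = 0 := fun u hu => (mem_orth_iff hQ).1 hwO u hu
    refine ⟨U ⊔ Submodule.span F {w}, by rw [finrank_sup_span' hwU, hU], fun x hx => ?_⟩
    obtain ⟨u, hu, z, hz, rfl⟩ := Submodule.mem_sup.1 hx
    obtain ⟨α, rfl⟩ := Submodule.mem_span_singleton.1 hz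
    have hww : pol Q w w = 0 := by rw [pol_self hQ, hQw, mul_zero]
    refine ⟨?_, fun v hv => ?_⟩
    · rw [Q_add hQ, (hU2 u hu).1, hQ.smul, hQw, pol_smul_right hQ, pol_symm hQ, hwO' u hu]
      ring
    · obtain ⟨u', hu', z', hz', rfl⟩ := Submodule.mem_sup.1 hv
      obtain ⟨β, rfl⟩ := Submodule.mem_span_singleton.1 hz'
      simp only [pol_add_left hQ, pol_add_right hQ, pol_smul_left hQ, pol_smul_right hQ, hww, hwO' u' hu',
        (hU2 u hu).2 u' hu']
      rw [pol_symm hQ u w, hwO' u hu]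
      ring

/-- Forms defined over the subfield of index two are of plus type. -/
theorem plus_of_subfield2 (hQ : IsNondegenerateQuadraticForm Q) (F₁ : Subfield F) (hcard : Fintype.card F = Nat.card F₁ ^ 2)
    {m : ℕ} (hm : Fintype.card ι = 2 * m) (hm1 : 1 ≤ m) (P : GL ι F) {ζ : F} (hζ : ζ ≠ 0)
    (hrat : IsQuadFormRationalStructure (fun v => ζ * Q v) F₁ P) : IsPlusTypeOn Q ⊤ := by
  classical
  haveI : Fintype F₁ := Fintype.ofFinite F₁
  -- coordinates over the subfield
  let inc : (ι → F₁) → (ι → F) := fun u i => (u i : F)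
  have hinc_add : ∀ u v, inc (u + v) = inc u + inc v := fun u v => by
    funext i
    simp [inc]
  have hinc_smul : ∀ (c : F₁) u, inc (c • u) = (c : F) • inc u := fun c u => by
    funext i
    simp [inc]
  have hrat' : ∀ u : ι → F₁, ζ * Q ((P : Matrix ι ι F) *ᵥ inc u) ∈ F₁ := fun u => hrat (inc u) (fun i => (u i).2)
  let T : (ι → F) → F := fun v => ζ * Q ((P : Matrix ι ι F) *ᵥ v)
  have hTadd : ∀ x y, T (x + y) = T x + T y + ζ * pol Q ((P : Matrix ι ι F) *ᵥ x) ((P : Matrix ι ι F) *ᵥ y) := by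
    intro x y
    simp only [T]
    rw [Matrix.mulVec_add, Q_add hQ]
    ring
  have hTsmul : ∀ (c : F) x, T (c • x) = c ^ 2 * T x := by
    intro c x
    simp only [T]
    rw [Matrix.mulVec_smul, hQ.smul]
    ring
  let Q₁ : (ι → F₁) → F₁ := fun u => ⟨T (inc u), hrat' u⟩
  have hQ₁v : ∀ u, (Q₁ u : F) = T (inc u) := fun _ => rfl
  have hpol₁ : ∀ u v, ((QuadraticMap.polar Q₁ u v : F₁) : F) = ζ * pol Q ((P : Matrix ι ι F) *ᵥ inc u) ((P : Matrix ι ι F) *ᵥ inc v) := by
    intro u v
    change T (inc (u + v)) - T (inc u) - T (inc v) = _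
    rw [hinc_add, hTadd]
    ring
  have hpolsub : ∀ x y z, pol Q (x + y) z = pol Q x z + pol Q y z := pol_add_left hQ
  have hQ₁ : IsNondegenerateQuadraticForm Q₁ := by
    refine ⟨fun c v => ?_, ⟨fun x y v => ?_, fun c x v => ?_, fun v x y => ?_, fun c v x => ?_⟩, fun v hv => ?_⟩
    · apply Subtype.ext
      change T (inc (c • v)) = (c : F) ^ 2 * T (inc v)
      rw [hinc_smul, hTsmul]
    · apply Subtype.ext
      simp only [Subfield.coe_add, hpol₁]
      rw [hinc_add, Matrix.mulVec_add, pol_add_left hQ]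
      ring
    · apply Subtype.ext
      simp only [Subfield.coe_mul, hpol₁]
      rw [hinc_smul, Matrix.mulVec_smul, pol_smul_left hQ]
      ring
    · apply Subtype.ext
      simp only [Subfield.coe_add, hpol₁]
      rw [hinc_add, Matrix.mulVec_add, pol_add_right hQ]
      ring
    · apply Subtype.ext
      simp only [Subfield.coe_mul, hpol₁]
      rw [hinc_smul, Matrix.mulVec_smul, pol_smul_right hQ]
      ring
    · have hPv : (P : Matrix ι ι F) *ᵥ inc v ≠ 0 := by
        intro h0
        have h1 := congrArg (fun w => ((P⁻¹ : GL ι F) : Matrix ι ι F) *ᵥ w) h0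
        simp only [inv_mulVec_mulVec, Matrix.mulVec_zero] at h1
        apply hv
        funext i
        have := congrFun h1 i
        exact Subtype.ext this
      have key : ∃ i, pol Q ((P : Matrix ι ι F) *ᵥ inc v) ((P : Matrix ι ι F) *ᵥ inc (Pi.single i 1)) ≠ 0 := by
        by_contra hcon
        push Not at hcon
        obtain ⟨w, hw⟩ := (hQ.nondegenerate _ hPv).2
        apply hw
        have h1 : w = (P : Matrix ι ι F) *ᵥ (((P⁻¹ : GL ι F) : Matrix ι ι F) *ᵥ w) := (mulVec_inv_mulVec P w).symm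
        have h3 : ((P⁻¹ : GL ι F) : Matrix ι ι F) *ᵥ w = ∑ i, (((P⁻¹ : GL ι F) : Matrix ι ι F) *ᵥ w) i • inc (Pi.single i 1) := by
          conv_lhs => rw [Cfsg.Agent.Lib.Asch.Forms.sum_single (((P⁻¹ : GL ι F) : Matrix ι ι F) *ᵥ w)]
          refine Finset.sum_congr rfl fun i _ => ?_
          congr 1
          funext j
          simp [inc, Pi.single_apply]
          split_ifs <;> simp
        change pol Q _ w = 0
        rw [h1, h3, Matrix.mulVec_sum]
        have h5 : ∀ (s : Finset ι) (g : ι → F), pol Q ((P : Matrix ι ι F) *ᵥ inc v) (∑ i ∈ s, (P : Matrix ι ι F) *ᵥ (g i • inc (Pi.single i 1))) = 0 := by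
          intro s g
          induction s using Finset.induction_on with
          | empty => simp [pol_zero_right hQ]
          | insert a s ha ih =>
            rw [Finset.sum_insert ha, pol_add_right hQ, ih, Matrix.mulVec_smul, pol_smul_right hQ, hcon a]
            ring
        exact h5 _ _
      obtain ⟨i, hi⟩ := key
      have hne : QuadraticMap.polar Q₁ v (Pi.single i 1) ≠ 0 := by
        intro h0
        have h1 := hpol₁ v (Pi.single i 1)
        rw [h0] at h1
        exact mul_ne_zero hζ hi h1.symm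
      refine ⟨⟨Pi.single i 1, ?_⟩, ⟨Pi.single i 1, hne⟩⟩
      rw [QuadraticMap.polar_comm]
      exact hne
  -- a totally singular subspace of codimension two in a maximal one
  obtain ⟨U, hU, hU2⟩ := exists_ts_dim hQ₁ (m - 1) (by rw [show Fintype.card ι = 2 * m from hm]; omega)
  obtain ⟨C, hC⟩ := Submodule.exists_isCompl U
  have h3 := Submodule.finrank_add_eq_of_isCompl hC
  rw [finrank_total] at h3
  have h4 := finrank_orth' hQ₁ U
  have h5 := Submodule.finrank_sup_add_finrank_inf_eq C ((polB hQ₁).orthogonal U)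
  have h6 : finrank F₁ (C ⊔ (polB hQ₁).orthogonal U : Submodule F₁ (ι → F₁)) ≤ Fintype.card ι := by
    have := Submodule.finrank_le (C ⊔ (polB hQ₁).orthogonal U)
    rwa [finrank_total] at this
  set D := C ⊓ (polB hQ₁).orthogonal U with hD
  have hD2 : 2 ≤ finrank F₁ D := by omega
  obtain ⟨d₁, hd₁, hd₁0⟩ : ∃ d ∈ D, d ≠ 0 := Submodule.exists_mem_ne_zero_of_ne_bot (by
    intro h
    rw [h, finrank_bot] at hD2
    omega)
  obtain ⟨d₂, hd₂, hd₂n⟩ : ∃ d ∈ D, d ∉ Submodule.span F₁ {d₁} := by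
    by_contra hcon
    push Not at hcon
    have h7 := Submodule.finrank_mono (show D ≤ Submodule.span F₁ {d₁} from hcon)
    rw [finrank_span_singleton hd₁0] at h7
    omega
  have hdU : ∀ d ∈ D, ∀ u ∈ U, pol Q₁ u d = 0 := by
    intro d hd u hu
    rw [pol_symm hQ₁]
    exact (mem_orth_iff hQ₁).1 hd.2 u hu
  -- the zero of the binary form
  obtain ⟨s, t, hst, hzero⟩ : ∃ s t : F, (s ≠ 0 ∨ t ≠ 0) ∧ (Q₁ d₁ : F) * s ^ 2 + ((QuadraticMap.polar Q₁ d₁ d₂ : F₁) : F) * (s * t) + (Q₁ d₂ : F) * t ^ 2 = 0 := by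
    by_cases ha : Q₁ d₁ = 0
    · refine ⟨1, 0, Or.inl one_ne_zero, ?_⟩
      rw [ha]
      simp
    · have ha' : (Q₁ d₁ : F) ≠ 0 := fun h => ha (Subtype.ext h)
      obtain ⟨s, hs⟩ := exists_root_quadratic F₁ hcard (QuadraticMap.polar Q₁ d₁ d₂ / Q₁ d₁) (Q₁ d₂ / Q₁ d₁)
      refine ⟨s, 1, Or.inr one_ne_zero, ?_⟩
      simp only [Subfield.coe_div] at hs
      have h7 : (Q₁ d₁ : F) * (s ^ 2 + ((QuadraticMap.polar Q₁ d₁ d₂ : F₁) : F) / (Q₁ d₁ : F) * s + (Q₁ d₂ : F) / (Q₁ d₁ : F)) = 0 := by
        rw [hs, mul_zero]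
      field_simp at h7
      linear_combination h7
  -- the vector over the big field
  let w : ι → F := s • inc d₁ + t • inc d₂
  let b := Module.finBasis F₁ U
  have hbU : ∀ i, ((b i : U) : ι → F₁) ∈ U := fun i => (b i).2
  let u : Fin (finrank F₁ U) → ι → F := fun i => inc (b i : ι → F₁)
  have hsep : ∀ z : F, (∀ τ : Module.Dual F₁ F, τ z = 0) → z = 0 := fun z h => (Module.forall_dual_apply_eq_zero_iff F₁ z).1 h
  -- applying a functional coordinatewise
  have hτ : ∀ (τ : Module.Dual F₁ F) (c : F) (x : ι → F₁) (i : ι), τ ((c • inc x) i) = (τ c • x) i := by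
    intro τ c x i
    have h7 : (c • inc x) i = (x i : F₁) • c := by
      simp [inc, Subfield.smul_def, mul_comm]
    rw [h7, map_smul]
    simp [mul_comm]
  have hli : LinearIndependent F u := by
    rw [Fintype.linearIndependent_iff]
    intro g hg j
    apply hsep
    intro τ
    have h7 : ∑ i, τ (g i) • ((b i : U) : ι → F₁) = 0 := by
      funext x
      have h8 := congrArg (fun v : ι → F => τ (v x)) hg
      simp only [Finset.sum_apply, map_sum, Pi.zero_apply, map_zero] at h8
      simp only [Finset.sum_apply, Pi.zero_apply]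
      rw [← h8]
      refine Finset.sum_congr rfl fun i _ => ?_
      exact (hτ τ (g i) _ x).symm
    have h8 : LinearIndependent F₁ (fun i => ((b i : U) : ι → F₁)) := b.linearIndependent.map' U.subtype (Submodule.ker_subtype U)
    exact (Fintype.linearIndependent_iff.1 h8) _ h7 j
  set Y₀ : Submodule F (ι → F) := Submodule.span F (Set.range u) with hY₀
  have hY₀r : finrank F Y₀ = m - 1 := by
    rw [hY₀, finrank_span_eq_card hli, Fintype.card_fin, hU]
  have hwY : w ∉ Y₀ := by
    intro hw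
    obtain ⟨g, hg⟩ := (Submodule.mem_span_range_iff_exists_fun F).1 hw
    have hτ0 : ∀ τ : Module.Dual F₁ F, τ s • d₁ + τ t • d₂ = 0 := by
      intro τ
      have h7 : τ s • d₁ + τ t • d₂ = ∑ i, τ (g i) • ((b i : U) : ι → F₁) := by
        funext x
        have h8 := congrArg (fun v : ι → F => τ (v x)) hg
        simp only [Finset.sum_apply, map_sum, w, Pi.add_apply, map_add] at h8
        simp only [Finset.sum_apply, Pi.add_apply]
        rw [← hτ τ s d₁ x, ← hτ τ t d₂ x, ← h8]
        refine Finset.sum_congr rfl fun i _ => ?_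
        exact hτ τ (g i) _ x
      have h8 : τ s • d₁ + τ t • d₂ ∈ U := by
        rw [h7]
        exact Submodule.sum_mem _ fun i _ => Submodule.smul_mem _ _ (hbU i)
      have h9 : τ s • d₁ + τ t • d₂ ∈ C := C.add_mem (C.smul_mem _ hd₁.1) (C.smul_mem _ hd₂.1)
      have := hC.disjoint.le_bot ⟨h8, h9⟩
      simpa using this
    have hd : ∀ τ : Module.Dual F₁ F, τ t = 0 := by
      intro τ
      by_contra h0
      apply hd₂n
      have h7 := hτ0 τ
      have h8 : d₂ = (-(τ s) / τ t) • d₁ := by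
        have h9 : τ t • d₂ = (-τ s) • d₁ := by
          rw [neg_smul]
          exact eq_neg_of_add_eq_zero_right h7
        have h10 := congrArg (fun v => (τ t)⁻¹ • v) h9
        simp only [smul_smul, inv_mul_cancel₀ h0, one_smul] at h10
        rw [h10]
        congr 1
        field_simp
      rw [h8]
      exact Submodule.smul_mem _ _ (Submodule.mem_span_singleton_self _)
    have hd' : ∀ τ : Module.Dual F₁ F, τ s = 0 := by
      intro τ
      have h7 := hτ0 τ
      rw [hd τ, zero_smul, add_zero] at h7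
      exact (smul_eq_zero.1 h7).resolve_right hd₁0
    rcases hst with h0 | h0
    · exact h0 (hsep s hd')
    · exact h0 (hsep t hd)
  -- the totally singular subspace
  have hpolU : ∀ x ∈ U, ∀ y, pol Q₁ x y = 0 → pol Q ((P : Matrix ι ι F) *ᵥ inc x) ((P : Matrix ι ι F) *ᵥ inc y) = 0 := by
    intro x _ y h
    have h7 := hpol₁ x y
    have h8 : QuadraticMap.polar Q₁ x y = 0 := h
    rw [h8] at h7
    exact (mul_eq_zero.1 h7.symm).resolve_left hζ
  have hQU : ∀ x ∈ U, Q ((P : Matrix ι ι F) *ᵥ inc x) = 0 := by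
    intro x hx
    have h7 := hQ₁v x
    rw [(hU2 x hx).1] at h7
    exact (mul_eq_zero.1 h7.symm).resolve_left hζ
  have hQw : Q ((P : Matrix ι ι F) *ᵥ w) = 0 := by
    have h7 : ζ * Q ((P : Matrix ι ι F) *ᵥ w) = 0 := by
      change T w = 0
      simp only [w]
      rw [hTadd, hTsmul, hTsmul, Matrix.mulVec_smul, Matrix.mulVec_smul, pol_smul_left hQ, pol_smul_right hQ,
        ← hQ₁v, ← hQ₁v]
      have h8 := hpol₁ d₁ d₂
      rw [h8] at hzero
      linear_combination hzero
    exact (mul_eq_zero.1 h7).resolve_left hζ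
  have hpolUw : ∀ x ∈ U, pol Q ((P : Matrix ι ι F) *ᵥ inc x) ((P : Matrix ι ι F) *ᵥ w) = 0 := by
    intro x hx
    simp only [w]
    rw [Matrix.mulVec_add, pol_add_right hQ, Matrix.mulVec_smul, Matrix.mulVec_smul, pol_smul_right hQ, pol_smul_right hQ,
      hpolU x hx d₁ (hdU d₁ hd₁ x hx), hpolU x hx d₂ (hdU d₂ hd₂ x hx)]
    ring
  let S : Set (ι → F) := (fun v => (P : Matrix ι ι F) *ᵥ v) '' (Set.range u ∪ {w})
  have hS1 : ∀ v ∈ S, Q v = 0 := by
    rintro _ ⟨v, (⟨i, rfl⟩ | rfl), rfl⟩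
    · exact hQU _ (hbU i)
    · exact hQw
  have hS2 : ∀ v ∈ S, ∀ v' ∈ S, pol Q v v' = 0 := by
    rintro _ ⟨v, (⟨i, rfl⟩ | rfl), rfl⟩ _ ⟨v', (⟨i', rfl⟩ | rfl), rfl⟩
    · exact hpolU _ (hbU i) _ ((hU2 _ (hbU i)).2 _ (hbU i'))
    · exact hpolUw _ (hbU i)
    · rw [pol_symm hQ]
      exact hpolUw _ (hbU i')
    · rw [pol_self hQ, hQw, mul_zero]
  have hts := Cfsg.Agent.Lib.CmaxE.Plus.ts_span hQ S hS1 hS2
  have hfinal : Submodule.span F S = (Y₀ ⊔ Submodule.span F {w}).map (Matrix.toLin' (P : Matrix ι ι F)) := by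
    rw [Submodule.map_sup, Submodule.map_span, Submodule.map_span, ← Submodule.span_union]
    congr 1
    simp only [S, Set.image_union, Matrix.toLin'_apply']
    rfl
  refine ⟨Submodule.span F S, le_top, hts, ?_⟩
  rw [hfinal, finrank_map_toLin', finrank_sup_span' hwY, hY₀r, finrank_top, Module.finrank_fintype_fun_eq_card, hm]
  omega

end Cfsg.Agent.Lib.CmaxE.Sub2
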