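import Mathlib
import Cfsg.Agent.Lib.CmaxE.Plus

/-!
# Tensor decompositions of quadratic forms
-/

set_option autoImplicit false

namespace Cfsg.Agent.Lib.CmaxE.Ten

open Matrix Module Cfsg Cfsg.Geo
open Cfsg.Agent.Lib.Geo.Basic Cfsg.Agent.Lib.Geo.Polar Cfsg.Agent.Lib.Geo.QForm Cfsg.Agent.Lib.Geo.Centres
open Cfsg.Agent.Lib.GeoOmega.Basic Cfsg.Agent.Lib.AschF.OmegaP
open Cfsg.Agent.Lib.GeoOmega.Nondeg Cfsg.Agent.Lib.GeoOmega.NondegW Cfsg.Agent.Lib.GeoOmega.Singular
open Cfsg.Agent.Lib.NotMax.Tensor (TT TT_add_left TT_add_right TT_smul_left TT_smul_right TT_unique TT_ne_zero span_TT ext_TT mem_tensor pureT kronecker_mulVec_pure)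
open Cfsg.Agent.Lib.Asch.Kr (kr kr_mulVec)
open Cfsg.Agent.Lib.Asch.Forms (Sesq)
open Cfsg.Agent.Lib.AschF.Adj (HF)
open Cfsg.Agent.Lib.AschF.OddA (polar_isom Q_isom)
open Cfsg.Agent.Lib.CmaxE.Core Cfsg.Agent.Lib.CmaxE.Plus

universe u

variable {ι : Type} [Fintype ι] [DecidableEq ι] {F : Type u} [Field F] {Q : (ι → F) → F}
variable {a b : ℕ}

section Kr

/-- The action of a Kronecker element on pure tensors. -/
theorem TT_of_kr (e : ι ≃ Fin a × Fin b) (P h : GL ι F) (X : Matrix (Fin a) (Fin a) F) (Y : Matrix (Fin b) (Fin b) F)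
    (hh : (h : Matrix ι ι F) * (P : Matrix ι ι F) = (P : Matrix ι ι F) * kr e X Y) (x : Fin a → F) (y : Fin b → F) :
    (h : Matrix ι ι F) *ᵥ TT e P x y = TT e P (X *ᵥ x) (Y *ᵥ y) := by
  unfold TT
  rw [Matrix.mulVec_mulVec, hh, ← Matrix.mulVec_mulVec, kr_mulVec, kronecker_mulVec_pure]

/-- The conjugate of a Kronecker matrix on pure tensors. -/
theorem conj_kr_TT (e : ι ≃ Fin a × Fin b) (P : GL ι F) (X : Matrix (Fin a) (Fin a) F) (Y : Matrix (Fin b) (Fin b) F)
    (x : Fin a → F) (y : Fin b → F) :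
    ((P : Matrix ι ι F) * kr e X Y * ((P⁻¹ : GL ι F) : Matrix ι ι F)) *ᵥ TT e P x y = TT e P (X *ᵥ x) (Y *ᵥ y) := by
  unfold TT
  rw [← Matrix.mulVec_mulVec, ← Matrix.mulVec_mulVec, inv_mulVec_mulVec, kr_mulVec, kronecker_mulVec_pure]

/-- Swapping the factors. -/
theorem TT_swap (e : ι ≃ Fin a × Fin b) (P : GL ι F) (x : Fin a → F) (y : Fin b → F) :
    TT (e.trans (Equiv.prodComm _ _)) P y x = TT e P x y := by
  unfold TT
  congr 1
  funext i
  simp [pureT, mul_comm]

end Kr

section Pure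
variable (hQ : IsNondegenerateQuadraticForm Q)
include hQ

/-- A totally singular line of tensors gives plus type. -/
theorem plus_of_pure_line (e : ι ≃ Fin a × Fin b) (P : GL ι F) (hcard : Fintype.card ι = 2 * b) {x₀ : Fin a → F}
    (hx₀ : x₀ ≠ 0) (hz : ∀ y, Q (TT e P x₀ y) = 0) : IsPlusTypeOn Q ⊤ := by
  let L : (Fin b → F) →ₗ[F] (ι → F) :=
    { toFun := fun y => TT e P x₀ y
      map_add' := fun y y' => TT_add_right e P x₀ y y'
      map_smul' := fun c y => TT_smul_right e P c x₀ y }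
  have hinj : Function.Injective L := by
    rw [← LinearMap.ker_eq_bot, LinearMap.ker_eq_bot']
    intro y hy
    by_contra hy0
    exact TT_ne_zero e P hx₀ hy0 hy
  refine ⟨LinearMap.range L, le_top, ?_, ?_⟩
  · rintro _ ⟨y, rfl⟩
    exact hz y
  · rw [LinearMap.finrank_range_of_inj hinj, finrank_top, Module.finrank_fintype_fun_eq_card, Module.finrank_fintype_fun_eq_card, hcard]
    simp

/-- Tensors with a factor in a binary anisotropic space. -/
theorem plus_of_tensor2 [Fintype F] (h2 : (2 : F) ≠ 0) {b : ℕ} (hb2 : Even b) (e : ι ≃ Fin 2 × Fin b) (P : GL ι F)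
    {f₁ : (Fin 2 → F) → (Fin 2 → F) → F} {f₂ : (Fin b → F) → (Fin b → F) → F} {ε₁ : F} (hf₁ : HF (RingEquiv.refl F) ε₁ f₁)
    (hlaw : ∀ x x' y y', pol Q (TT e P x y) (TT e P x' y') = f₁ x x' * f₂ y y') : IsPlusTypeOn Q ⊤ := by
  classical
  have hcard : Fintype.card ι = 2 * b := by
    rw [Fintype.card_congr e]
    simp
  by_cases hiso : ∃ x₀ : Fin 2 → F, x₀ ≠ 0 ∧ f₁ x₀ x₀ = 0
  · obtain ⟨x₀, hx₀, hz⟩ := hiso
    refine plus_of_pure_line hQ e P hcard hx₀ fun y => ?_
    have h1 := hlaw x₀ x₀ y y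
    rw [pol_self hQ, hz, zero_mul] at h1
    exact (mul_eq_zero.1 h1).resolve_left h2
  push Not at hiso
  -- the form is symmetric
  let e₀ : Fin 2 → F := ![1, 0]
  let e₁ : Fin 2 → F := ![0, 1]
  have he₀ : e₀ ≠ 0 := by
    intro h
    have := congrFun h 0
    simp [e₀] at this
  have hε : ε₁ = 1 := by
    have h1 := hf₁.herm e₀ e₀
    simp only [RingEquiv.refl_apply] at h1
    have h3 := hiso e₀ he₀
    have h4 : (ε₁ - 1) * f₁ e₀ e₀ = 0 := by linear_combination -h1
    exact sub_eq_zero.1 ((mul_eq_zero.1 h4).resolve_right h3)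
  subst hε
  have hsymm : ∀ x y, f₁ x y = f₁ y x := by
    intro x y
    have := hf₁.herm y x
    simpa using this
  set A := f₁ e₀ e₀ with hA
  set B := f₁ e₀ e₁ with hB
  set C := f₁ e₁ e₁ with hC
  have hexp : ∀ x : Fin 2 → F, x = x 0 • e₀ + x 1 • e₁ := by
    intro x
    funext i
    fin_cases i <;> simp [e₀, e₁]
  have hS := hf₁.sesq
  have hform : ∀ x y : Fin 2 → F, f₁ x y = A * x 0 * y 0 + B * (x 0 * y 1 + x 1 * y 0) + C * x 1 * y 1 := by
    intro x y
    conv_lhs => rw [hexp x, hexp y]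
    simp only [hS.add_left, hS.add_right, hS.smul_left, hS.smul_right, RingEquiv.refl_apply]
    rw [hsymm e₁ e₀]
    ring
  let J₀ : Matrix (Fin 2) (Fin 2) F := !![-B, -C; A, B]
  have hJ₀ : ∀ x, J₀ *ᵥ x = ![-B * x 0 - C * x 1, A * x 0 + B * x 1] := by
    intro x
    funext i
    fin_cases i <;> simp [J₀, Matrix.mulVec, dotProduct, Fin.sum_univ_two] <;> ring
  let δ : F := B ^ 2 - A * C
  have hJ₀2 : ∀ x, J₀ *ᵥ (J₀ *ᵥ x) = δ • x := by
    intro x
    simp only [hJ₀]
    funext i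
    fin_cases i <;> simp [δ] <;> ring
  have hskew : ∀ x y, f₁ (J₀ *ᵥ x) y = - f₁ x (J₀ *ᵥ y) := by
    intro x y
    rw [hform, hform, hJ₀, hJ₀]
    simp only [Matrix.cons_val_zero, Matrix.cons_val_one]
    ring
  have hδ : ∀ s : F, s ^ 2 ≠ δ := by
    intro s hs
    have hA0 : A ≠ 0 := hiso e₀ he₀
    let x : Fin 2 → F := ![s - B, A]
    have hx : x ≠ 0 := by
      intro h
      have := congrFun h 1
      simp [x] at this
      exact hA0 this
    apply hiso x hx
    rw [hform]
    simp only [x, Matrix.cons_val_zero, Matrix.cons_val_one]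
    have hδ' : δ = B ^ 2 - A * C := rfl
    rw [hδ'] at hs
    linear_combination A * hs
  let M : Matrix ι ι F := (P : Matrix ι ι F) * kr e J₀ 1 * ((P⁻¹ : GL ι F) : Matrix ι ι F)
  let J : (ι → F) →ₗ[F] (ι → F) := Matrix.toLin' M
  have hJT : ∀ x y, J (TT e P x y) = TT e P (J₀ *ᵥ x) y := by
    intro x y
    change M *ᵥ _ = _
    rw [conj_kr_TT, Matrix.one_mulVec]
  obtain ⟨k, hk⟩ := hb2
  refine plus_of_skew hQ h2 (n := k) (by omega) J δ hδ ?_ ?_
  · refine span_TT e P _ ?_ ?_ ?_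
    · simp
    · intro u v hu hv
      rw [map_add, map_add, hu, hv, smul_add]
    · intro x y
      rw [hJT, hJT, hJ₀2, TT_smul_left]
  · intro u v
    revert v
    refine span_TT e P (fun u => ∀ v, pol Q (J u) v = - pol Q u (J v)) ?_ ?_ ?_ u
    · intro v
      simp [pol_zero_left hQ]
    · intro u u' hu hu' v
      rw [map_add, pol_add_left hQ, pol_add_left hQ, hu, hu']
      ring
    · intro x y v
      revert v
      refine span_TT e P (fun v => pol Q (J (TT e P x y)) v = - pol Q (TT e P x y) (J v)) ?_ ?_ ?_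
      · simp [pol_zero_right hQ]
      · intro v v' hv hv'
        rw [map_add, pol_add_right hQ, pol_add_right hQ, hv, hv']
        ring
      · intro x' y'
        rw [hJT, hJT, hlaw, hlaw, hskew]
        ring

/-- A totally singular subspace of a factor gives a totally singular subspace of half the dimension. -/
theorem plus_of_factor_ts [Finite F] (h2 : (2 : F) ≠ 0) (e : ι ≃ Fin a × Fin b) (P : GL ι F)
    {f₁ : (Fin a → F) → (Fin a → F) → F} {f₂ : (Fin b → F) → (Fin b → F) → F}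
    (hlaw : ∀ x x' y y', pol Q (TT e P x y) (TT e P x' y') = f₁ x x' * f₂ y y')
    (U : Submodule F (Fin b → F)) (hU : ∀ u ∈ U, ∀ u' ∈ U, f₂ u u' = 0) (hdim : 2 * finrank F U = b) : IsPlusTypeOn Q ⊤ := by
  classical
  have hcard : Fintype.card ι = a * b := by
    rw [Fintype.card_congr e]
    simp
  let S : Set (ι → F) := {v | ∃ x, ∃ y ∈ U, v = TT e P x y}
  have hS1 : ∀ s ∈ S, Q s = 0 := by
    rintro _ ⟨x, y, hy, rfl⟩
    have h1 := hlaw x x y y
    rw [pol_self hQ, hU y hy y hy, mul_zero] at h1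
    exact (mul_eq_zero.1 h1).resolve_left h2
  have hS2 : ∀ s ∈ S, ∀ s' ∈ S, pol Q s s' = 0 := by
    rintro _ ⟨x, y, hy, rfl⟩ _ ⟨x', y', hy', rfl⟩
    rw [hlaw, hU y hy y' hy', mul_zero]
  have hts := ts_span hQ S hS1 hS2
  let L₀ : (Fin a → U) →ₗ[F] (Fin a × Fin b → F) :=
    { toFun := fun z c => (z c.1 : Fin b → F) c.2
      map_add' := fun z z' => by
        funext c
        simp
      map_smul' := fun r z => by
        funext c
        simp }
  let L : (Fin a → U) →ₗ[F] (ι → F) := (Matrix.toLin' (P : Matrix ι ι F)).comp ((LinearMap.funLeft F F e).comp L₀)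
  have hLapp : ∀ z, L z = (P : Matrix ι ι F) *ᵥ ((L₀ z) ∘ e) := fun z => rfl
  have hL : ∀ z, L z ∈ Submodule.span F S := by
    intro z
    have h3 : L z = ∑ i, TT e P (Pi.single i 1) (z i : Fin b → F) := by
      rw [hLapp]
      unfold TT
      rw [← Matrix.mulVec_sum]
      congr 1
      funext j
      simp only [Finset.sum_apply, Function.comp_apply, pureT]
      change (z (e j).1 : Fin b → F) (e j).2 = _
      rw [Finset.sum_eq_single (e j).1]
      · simp
      · intro i _ hi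
        simp [Pi.single_apply, Ne.symm hi]
      · simp
    rw [h3]
    exact Submodule.sum_mem _ fun i _ => Submodule.subset_span ⟨_, _, (z i).2, rfl⟩
  have hinj : Function.Injective L := by
    rw [← LinearMap.ker_eq_bot, LinearMap.ker_eq_bot']
    intro z hz
    rw [hLapp] at hz
    have h3 := congrArg (fun v => ((P⁻¹ : GL ι F) : Matrix ι ι F) *ᵥ v) hz
    simp only [inv_mulVec_mulVec, Matrix.mulVec_zero] at h3
    funext i
    apply Subtype.ext
    funext j
    have h4 := congrFun h3 (e.symm (i, j))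
    simpa [L₀] using h4
  refine ⟨LinearMap.range L, le_top, ?_, ?_⟩
  · rintro _ ⟨z, rfl⟩
    exact hts _ (hL z)
  · rw [LinearMap.finrank_range_of_inj hinj, finrank_top, finrank_total, hcard, Module.finrank_pi_fintype]
    simp only [Finset.sum_const, Finset.card_univ, Fintype.card_fin, smul_eq_mul]
    rw [mul_left_comm, hdim]

end Pure

section Two
variable {κ : Type} [Fintype κ]

/-- Squares are additive in characteristic two. -/
theorem sum_sq_two (h2 : (2 : F) = 0) {T : Type*} (s : Finset T) (f : T → F) : (∑ i ∈ s, f i) ^ 2 = ∑ i ∈ s, f i ^ 2 := by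
  classical
  induction s using Finset.induction_on with
  | empty => simp
  | insert a s ha ih =>
    rw [Finset.sum_insert ha, Finset.sum_insert ha, ← ih]
    linear_combination (f a * ∑ i ∈ s, f i) * h2

variable [DecidableEq κ]

/-- Additive functions of degree two. -/
theorem expand_additive (p : (κ → F) → F) (hadd : ∀ x y, p (x + y) = p x + p y) (hsmul : ∀ (c : F) x, p (c • x) = c ^ 2 * p x)
    (x : κ → F) : p x = ∑ i, x i ^ 2 * p (Pi.single i 1) := by
  classical
  have h0 : p 0 = 0 := by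
    have := hsmul 0 0
    simpa using this
  have key : ∀ s : Finset κ, p (∑ i ∈ s, x i • (Pi.single i 1 : κ → F)) = ∑ i ∈ s, x i ^ 2 * p (Pi.single i 1) := by
    intro s
    induction s using Finset.induction_on with
    | empty => simpa using h0
    | insert a s ha ih => rw [Finset.sum_insert ha, Finset.sum_insert ha, hadd, hsmul, ih]
  have h5 : x = ∑ i, x i • (Pi.single i 1 : κ → F) := Cfsg.Agent.Lib.Asch.Forms.sum_single x
  conv_lhs => rw [h5]
  exact key Finset.univ

/-- The functional attached to an additive function of degree two. -/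
theorem exists_functional [Finite F] (h2 : (2 : F) = 0) (p : (κ → F) → F) (hadd : ∀ x y, p (x + y) = p x + p y)
    (hsmul : ∀ (c : F) x, p (c • x) = c ^ 2 * p x) : ∃ m : κ → F, ∀ x, p x = (∑ i, m i * x i) ^ 2 := by
  classical
  haveI := Fintype.ofFinite F
  have hr := fun i : κ => exists_sqrt h2 (p (Pi.single i 1))
  choose m hm using hr
  refine ⟨m, fun x => ?_⟩
  rw [expand_additive p hadd hsmul x, sum_sq_two h2]
  refine Finset.sum_congr rfl fun i _ => ?_
  rw [← hm]
  ring

end Two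

section Char2

/-- In characteristic two, the sign of a form is trivial. -/
theorem eps_one_of_two {κ : Type} [Fintype κ] [DecidableEq κ] [Nonempty κ] (h2 : (2 : F) = 0) {f : (κ → F) → (κ → F) → F} {ε : F} (hf : HF (RingEquiv.refl F) ε f) : ε = 1 := by
  classical
  obtain ⟨i⟩ := ‹Nonempty κ›
  have hv : (Pi.single i 1 : κ → F) ≠ 0 := by
    intro h
    have := congrFun h i
    simp at this
  obtain ⟨u, hu⟩ := (hf.nd _ hv).1
  have h1 := hf.herm u (Pi.single i 1)
  have h3 := hf.herm (Pi.single i 1) u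
  simp only [RingEquiv.refl_apply] at h1 h3
  have h4 : (ε ^ 2 - 1) * f u (Pi.single i 1) = 0 := by
    rw [h1] at h3
    linear_combination -h3
  have h5 := sub_eq_zero.1 ((mul_eq_zero.1 h4).resolve_right hu)
  have h6 : (ε - 1) ^ 2 = 0 := by linear_combination h5 - ε * h2 + h2
  exact sub_eq_zero.1 (pow_eq_zero_iff (two_ne_zero) |>.1 h6)

variable (hQ : IsNondegenerateQuadraticForm Q)
include hQ

/-- Irreducibility forces the first factor to be alternating, in characteristic two. -/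
theorem alt_left [Finite F] (h2 : (2 : F) = 0) {H : Subgroup (GL ι F)} (hH : H ≤ isometryGroup F Q)
    (hirr : ∀ W : Submodule F (ι → F), (∀ g ∈ H, ∀ v ∈ W, (g : Matrix ι ι F) *ᵥ v ∈ W) → W = ⊥ ∨ W = ⊤)
    (ha : 2 ≤ a) (hb : 1 ≤ b) (e : ι ≃ Fin a × Fin b) (P : GL ι F)
    {f₁ : (Fin a → F) → (Fin a → F) → F} {f₂ : (Fin b → F) → (Fin b → F) → F} {ε₁ ε₂ : F}
    (hf₁ : HF (RingEquiv.refl F) ε₁ f₁) (hf₂ : HF (RingEquiv.refl F) ε₂ f₂)
    (hlaw : ∀ x x' y y', pol Q (TT e P x y) (TT e P x' y') = f₁ x x' * f₂ y y')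
    (hact : ∀ h ∈ H, ∃ (α : GL (Fin a) F) (β : GL (Fin b) F), ∀ x y, (h : Matrix ι ι F) *ᵥ TT e P x y =
      TT e P ((α : Matrix (Fin a) (Fin a) F) *ᵥ x) ((β : Matrix (Fin b) (Fin b) F) *ᵥ y)) : ∀ x, f₁ x x = 0 := by
  classical
  haveI : Nonempty (Fin a) := ⟨⟨0, by omega⟩⟩
  have hε := eps_one_of_two h2 hf₁
  subst hε
  have hS := hf₁.sesq
  have hsymm : ∀ x y, f₁ x y = f₁ y x := by
    intro x y
    have := hf₁.herm y x
    simpa using this
  obtain ⟨m, hm⟩ := exists_functional h2 (fun x => f₁ x x) (by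
      intro x y
      simp only [hS.add_left, hS.add_right]
      rw [hsymm y x]
      linear_combination (f₁ x y) * h2) (by
      intro c x
      simp only [hS.smul_left, hS.smul_right, RingEquiv.refl_apply]
      ring)
  by_contra hcon
  push Not at hcon
  obtain ⟨x₁, hx₁⟩ := hcon
  have hmx₁ : ∑ i, m i * x₁ i ≠ 0 := by
    intro h0
    apply hx₁
    have := hm x₁
    rw [this, h0]
    simp
  have hm0 : ∃ i, m i ≠ 0 := by
    by_contra hc
    push Not at hc
    apply hmx₁
    simp [hc]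
  obtain ⟨i₀, hi₀⟩ := hm0
  obtain ⟨j₀, hj₀⟩ : ∃ j : Fin a, j ≠ i₀ := by
    by_cases h0 : i₀.val = 0
    · exact ⟨⟨1, by omega⟩, by
        intro h
        have := congrArg Fin.val h
        simp at this
        omega⟩
    · exact ⟨⟨0, by omega⟩, by
        intro h
        have := congrArg Fin.val h
        simp at this
        omega⟩
  -- the invariant subspace
  let S : Set (ι → F) := {v | ∃ x y, (∑ i, m i * x i = 0) ∧ v = TT e P x y}
  let W : Submodule F (ι → F) := Submodule.span F S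
  have hinv : ∀ g ∈ H, ∀ v ∈ W, (g : Matrix ι ι F) *ᵥ v ∈ W := by
    intro g hg v hv
    obtain ⟨α, β, hαβ⟩ := hact g hg
    induction hv using Submodule.span_induction with
    | mem t ht =>
      obtain ⟨x, y, hx, rfl⟩ := ht
      rw [hαβ]
      refine Submodule.subset_span ⟨_, _, ?_, rfl⟩
      have hb0 : (Pi.single (⟨0, hb⟩ : Fin b) 1 : Fin b → F) ≠ 0 := by
        intro h
        have := congrFun h ⟨0, hb⟩
        simp at this
      obtain ⟨u', hu'⟩ := (hf₂.nd _ hb0).2
      let y₁ := ((β⁻¹ : GL (Fin b) F) : Matrix (Fin b) (Fin b) F) *ᵥ (Pi.single (⟨0, hb⟩ : Fin b) 1 : Fin b → F)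
      let y₂ := ((β⁻¹ : GL (Fin b) F) : Matrix (Fin b) (Fin b) F) *ᵥ u'
      have hy₁ : (β : Matrix (Fin b) (Fin b) F) *ᵥ y₁ = Pi.single (⟨0, hb⟩ : Fin b) 1 := by
        simp only [y₁]
        exact mulVec_inv_mulVec β _
      have hy₂ : (β : Matrix (Fin b) (Fin b) F) *ᵥ y₂ = u' := by
        simp only [y₂]
        exact mulVec_inv_mulVec β _
      have h3 := polar_isom (hH hg) (TT e P x y₁) (TT e P x y₂)
      rw [hαβ, hαβ, hlaw, hlaw, hy₁, hy₂] at h3
      have h4 : f₁ x x = 0 := by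
        rw [hm x, hx]
        simp
      rw [h4, zero_mul] at h3
      have h5 := (mul_eq_zero.1 h3).resolve_right hu'
      have h6 := hm ((α : Matrix (Fin a) (Fin a) F) *ᵥ x)
      rw [h5] at h6
      exact (pow_eq_zero_iff (two_ne_zero)).1 h6.symm
    | zero => simp
    | add u v _ _ hu hv =>
      rw [Matrix.mulVec_add]
      exact W.add_mem hu hv
    | smul c u _ hu =>
      rw [Matrix.mulVec_smul]
      exact W.smul_mem c hu
  rcases hirr W hinv with h0 | h1
  · -- a non-zero element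
    let x : Fin a → F := Pi.single j₀ (m i₀) - Pi.single i₀ (m j₀)
    have hx0 : x ≠ 0 := by
      intro h
      have := congrFun h j₀
      simp [x, Pi.single_apply, hj₀] at this
      exact hi₀ this
    have hmx : ∑ i, m i * x i = 0 := by
      simp only [x, Pi.sub_apply, mul_sub, Finset.sum_sub_distrib]
      simp [Pi.single_apply]
      ring
    have hy0 : (Pi.single (⟨0, hb⟩ : Fin b) 1 : Fin b → F) ≠ 0 := by
      intro h
      have := congrFun h ⟨0, hb⟩
      simp at this
    have h3 : TT e P x (Pi.single (⟨0, hb⟩ : Fin b) 1) ∈ W := Submodule.subset_span ⟨_, _, hmx, rfl⟩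
    rw [h0, Submodule.mem_bot] at h3
    exact TT_ne_zero e P hx0 hy0 h3
  · -- the functional
    let l : (ι → F) →ₗ[F] F :=
      { toFun := fun v => ∑ c : Fin a × Fin b, (((P⁻¹ : GL ι F) : Matrix ι ι F) *ᵥ v) (e.symm c) * (m c.1 * (if c.2 = ⟨0, hb⟩ then 1 else 0))
        map_add' := fun u v => by
          simp only [Matrix.mulVec_add, Pi.add_apply, add_mul, Finset.sum_add_distrib]
        map_smul' := fun r u => by
          simp only [Matrix.mulVec_smul, Pi.smul_apply, smul_eq_mul, mul_assoc, RingHom.id_apply, Finset.mul_sum] }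
    have hl : ∀ x y, l (TT e P x y) = (∑ i, m i * x i) * y ⟨0, hb⟩ := by
      intro x y
      change ∑ c : Fin a × Fin b, (((P⁻¹ : GL ι F) : Matrix ι ι F) *ᵥ TT e P x y) (e.symm c) * (m c.1 * (if c.2 = ⟨0, hb⟩ then 1 else 0)) = _
      simp only [TT, inv_mulVec_mulVec, Function.comp_apply, Equiv.apply_symm_apply, pureT]
      rw [Fintype.sum_prod_type, Finset.sum_mul]
      refine Finset.sum_congr rfl fun i _ => ?_
      rw [Finset.sum_eq_single ⟨0, hb⟩]
      · simp
        ring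
      · intro j _ hj
        simp [hj]
      · simp
    have hWl : ∀ v ∈ W, l v = 0 := by
      intro v hv
      induction hv using Submodule.span_induction with
      | mem t ht =>
        obtain ⟨x, y, hx, rfl⟩ := ht
        rw [hl, hx, zero_mul]
      | zero => exact map_zero l
      | add u v _ _ hu hv => rw [map_add, hu, hv, add_zero]
      | smul c u _ hu => rw [map_smul, hu, smul_zero]
    have h3 := hWl (TT e P x₁ (Pi.single (⟨0, hb⟩ : Fin b) 1)) (by rw [h1]; trivial)
    rw [hl] at h3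
    simp at h3
    exact hmx₁ h3

/-- The functional attached to a quadratic form which is multiadditive on pure tensors. -/
theorem exists_ell [Finite F] (h2 : (2 : F) = 0) (e : ι ≃ Fin a × Fin b) (P : GL ι F)
    {f₁ : (Fin a → F) → (Fin a → F) → F} {f₂ : (Fin b → F) → (Fin b → F) → F}
    (hlaw : ∀ x x' y y', pol Q (TT e P x y) (TT e P x' y') = f₁ x x' * f₂ y y')
    (halt₁ : ∀ x, f₁ x x = 0) (halt₂ : ∀ y, f₂ y y = 0) :
    ∃ l : (ι → F) →ₗ[F] F, ∀ x y, Q (TT e P x y) = (l (TT e P x y)) ^ 2 := by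
  classical
  haveI := Fintype.ofFinite F
  have hm := fun c : Fin a × Fin b => exists_sqrt h2 (Q (TT e P (Pi.single c.1 1) (Pi.single c.2 1)))
  choose m hm using hm
  let l : (ι → F) →ₗ[F] F :=
    { toFun := fun v => ∑ c : Fin a × Fin b, (((P⁻¹ : GL ι F) : Matrix ι ι F) *ᵥ v) (e.symm c) * m c
      map_add' := fun u v => by
        simp only [Matrix.mulVec_add, Pi.add_apply, add_mul, Finset.sum_add_distrib]
      map_smul' := fun r u => by
        simp only [Matrix.mulVec_smul, Pi.smul_apply, smul_eq_mul, mul_assoc, RingHom.id_apply, Finset.mul_sum] }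
  refine ⟨l, fun x y => ?_⟩
  have hl : l (TT e P x y) = ∑ c : Fin a × Fin b, x c.1 * y c.2 * m c := by
    change ∑ c : Fin a × Fin b, (((P⁻¹ : GL ι F) : Matrix ι ι F) *ᵥ TT e P x y) (e.symm c) * m c = _
    simp only [TT, inv_mulVec_mulVec, Function.comp_apply, Equiv.apply_symm_apply, pureT]
  have h1 : ∀ y, Q (TT e P x y) = ∑ i, x i ^ 2 * Q (TT e P (Pi.single i 1) y) := by
    intro y
    exact expand_additive (fun x => Q (TT e P x y)) (by
      intro x x'
      rw [TT_add_left, Q_add hQ, hlaw, halt₂, mul_zero, add_zero]) (by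
      intro c x
      rw [TT_smul_left, hQ.smul]) x
  have h3 : ∀ i, Q (TT e P (Pi.single i 1) y) = ∑ j, y j ^ 2 * Q (TT e P (Pi.single i 1) (Pi.single j 1)) := by
    intro i
    exact expand_additive (fun y => Q (TT e P (Pi.single i 1) y)) (by
      intro y y'
      rw [TT_add_right, Q_add hQ, hlaw, halt₁, zero_mul, add_zero]) (by
      intro c y
      rw [TT_smul_right, hQ.smul]) y
  rw [h1, hl, sum_sq_two h2, Fintype.sum_prod_type]
  refine Finset.sum_congr rfl fun i _ => ?_
  rw [h3, Finset.mul_sum]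
  refine Finset.sum_congr rfl fun j _ => ?_
  rw [mul_pow, mul_pow, hm]
  ring

/-- An invariant functional vanishes on an irreducible module. -/
theorem ell_eq_zero (h2 : (2 : F) = 0) {H : Subgroup (GL ι F)} (hH : H ≤ isometryGroup F Q)
    (hirr : ∀ W : Submodule F (ι → F), (∀ g ∈ H, ∀ v ∈ W, (g : Matrix ι ι F) *ᵥ v ∈ W) → W = ⊥ ∨ W = ⊤)
    (hn : 2 ≤ Fintype.card ι) (l : (ι → F) →ₗ[F] F) (S : Set (ι → F)) (hS : ∀ s ∈ S, Q s = (l s) ^ 2)
    (hspan : ∀ v, v ∈ Submodule.span F S) (hinv : ∀ h ∈ H, ∀ s ∈ S, (h : Matrix ι ι F) *ᵥ s ∈ S) : l = 0 := by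
  classical
  have h1 : ∀ h ∈ H, ∀ v, l ((h : Matrix ι ι F) *ᵥ v) = l v := by
    intro h hh v
    have hv := hspan v
    induction hv using Submodule.span_induction with
    | mem s hs =>
      apply sq_inj_of_two h2
      rw [← hS _ (hinv h hh s hs), ← hS s hs, Q_isom (hH hh)]
    | zero => simp
    | add u v _ _ hu hv => rw [Matrix.mulVec_add, map_add, map_add, hu, hv]
    | smul c u _ hu => rw [Matrix.mulVec_smul, map_smul, map_smul, hu]
  have hker := hirr (LinearMap.ker l) (fun g hg v hv => by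
    rw [LinearMap.mem_ker] at hv ⊢
    rw [h1 g hg, hv])
  rcases hker with h0 | h0
  · exfalso
    have h3 := LinearMap.finrank_range_add_finrank_ker l
    rw [h0, finrank_bot, Module.finrank_fintype_fun_eq_card] at h3
    have h4 : finrank F (LinearMap.range l) ≤ 1 := by
      have := Submodule.finrank_le (LinearMap.range l)
      simpa using this
    omega
  · exact LinearMap.ker_eq_top.1 h0

/-- Alternating tensor decompositions with a factor of dimension two are of plus type in characteristic two. -/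
theorem plus_of_alt_two [Finite F] (h2 : (2 : F) = 0) {H : Subgroup (GL ι F)} (hH : H ≤ isometryGroup F Q)
    (hirr : ∀ W : Submodule F (ι → F), (∀ g ∈ H, ∀ v ∈ W, (g : Matrix ι ι F) *ᵥ v ∈ W) → W = ⊥ ∨ W = ⊤)
    (hb : 2 ≤ b) (e : ι ≃ Fin 2 × Fin b) (P : GL ι F)
    {f₁ : (Fin 2 → F) → (Fin 2 → F) → F} {f₂ : (Fin b → F) → (Fin b → F) → F} {ε₁ ε₂ : F}
    (hf₁ : HF (RingEquiv.refl F) ε₁ f₁) (hf₂ : HF (RingEquiv.refl F) ε₂ f₂)
    (hlaw : ∀ x x' y y', pol Q (TT e P x y) (TT e P x' y') = f₁ x x' * f₂ y y')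
    (hact : ∀ h ∈ H, ∃ (α : GL (Fin 2) F) (β : GL (Fin b) F), ∀ x y, (h : Matrix ι ι F) *ᵥ TT e P x y =
      TT e P ((α : Matrix (Fin 2) (Fin 2) F) *ᵥ x) ((β : Matrix (Fin b) (Fin b) F) *ᵥ y)) : IsPlusTypeOn Q ⊤ := by
  classical
  have halt₁ := alt_left hQ h2 hH hirr (le_refl 2) (by omega) e P hf₁ hf₂ hlaw hact
  have halt₂ := alt_left hQ h2 hH hirr hb (by omega) (e.trans (Equiv.prodComm _ _)) P hf₂ hf₁
    (fun y y' x x' => by rw [TT_swap, TT_swap, hlaw, mul_comm]) (fun h hh => by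
      obtain ⟨α, β, hαβ⟩ := hact h hh
      exact ⟨β, α, fun y x => by rw [TT_swap, TT_swap, hαβ]⟩)
  have hcard : Fintype.card ι = 2 * b := by
    rw [Fintype.card_congr e]
    simp
  obtain ⟨l, hl⟩ := exists_ell hQ h2 e P hlaw halt₁ halt₂
  have hl0 := ell_eq_zero hQ h2 hH hirr (by omega) l {v | ∃ x y, v = TT e P x y} (by
      rintro _ ⟨x, y, rfl⟩
      exact hl x y) (by
      refine span_TT e P _ (Submodule.zero_mem _) (fun u v hu hv => Submodule.add_mem _ hu hv) (fun x y => Submodule.subset_span ⟨x, y, rfl⟩)) (by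
      rintro h hh _ ⟨x, y, rfl⟩
      obtain ⟨α, β, hαβ⟩ := hact h hh
      exact ⟨_, _, hαβ x y⟩)
  have hx₀ : (Pi.single (0 : Fin 2) 1 : Fin 2 → F) ≠ 0 := by
    intro h
    have := congrFun h 0
    simp at this
  refine plus_of_pure_line hQ e P hcard hx₀ fun y => ?_
  rw [hl, hl0]
  simp

end Char2

end Cfsg.Agent.Lib.CmaxE.Ten
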