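import Mathlib
import Cfsg.Agent.Lib.CmaxE.Ten

/-!
# Tensor cubes of binary forms are of plus type
-/

set_option autoImplicit false

namespace Cfsg.Agent.Lib.CmaxE.Wr

open Matrix Module Cfsg Cfsg.Geo
open Cfsg.Agent.Lib.Geo.Basic Cfsg.Agent.Lib.Geo.Polar Cfsg.Agent.Lib.Geo.QForm
open Cfsg.Agent.Lib.GeoOmega.Basic
open Cfsg.Agent.Lib.GeoOmega.Nondeg Cfsg.Agent.Lib.GeoOmega.NondegW Cfsg.Agent.Lib.GeoOmega.Singular
open Cfsg.Agent.Lib.NotMax.Tensor (TT pureT)
open Cfsg.Agent.Lib.Ten.Mm (ten ten_apply ten_single exists_tw_of_mem coe_tw mm_mulVec_ten)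
open Cfsg.Agent.Lib.Asch.Cl (mem_tensorWreathSubgroup_iff)
open Cfsg.Agent.Lib.AschF.Adj (HF)
open Cfsg.Agent.Lib.AschF.OddD (h_act)
open Cfsg.Agent.Lib.CmaxE.Core Cfsg.Agent.Lib.CmaxE.Plus Cfsg.Agent.Lib.CmaxE.Ten

universe u

variable {ι : Type} [Fintype ι] [DecidableEq ι] {F : Type u} [Field F] [Fintype F] {Q : (ι → F) → F}

/-- The splitting of the triple tensor index. -/
def E₃ : (Fin 3 → Fin 2) ≃ Fin 2 × (Fin 2 × Fin 2) where
  toFun u := (u 0, (u 1, u 2))
  invFun p := ![p.1, p.2.1, p.2.2]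
  left_inv u := by
    funext i
    fin_cases i <;> rfl
  right_inv p := by
    rfl

/-- A numbering of pairs. -/
noncomputable def E₂ : Fin 2 × Fin 2 ≃ Fin 4 := Fintype.equivFinOfCardEq (by simp)

/-- The index map. -/
noncomputable def EE : (Fin 3 → Fin 2) ≃ Fin 2 × Fin 4 := E₃.trans (Equiv.prodCongr (Equiv.refl _) E₂)

theorem EE_symm_apply (p : Fin 2) (q : Fin 4) : EE.symm (p, q) = ![p, (E₂.symm q).1, (E₂.symm q).2] := rfl

variable (hQ : IsNondegenerateQuadraticForm Q)
include hQ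

theorem plus_of_wr8 {H : Subgroup (GL ι F)} (hH : H ≤ isometryGroup F Q)
    (hirr : ∀ W : Submodule F (ι → F), (∀ g ∈ H, ∀ v ∈ W, (g : Matrix ι ι F) *ᵥ v ∈ W) → W = ⊥ ∨ W = ⊤)
    (e₂ : ι ≃ (Fin 3 → Fin 2)) (P₂ : GL ι F) {A : (Fin 2 → F) → (Fin 2 → F) → F} {ε₁ c : F}
    (hA : HF (RingEquiv.refl F) ε₁ A) (hc : c ≠ 0)
    (hlaw : ∀ x y : (Fin 3 → Fin 2) → F, pol Q ((P₂ : Matrix ι ι F) *ᵥ (x ∘ e₂)) ((P₂ : Matrix ι ι F) *ᵥ (y ∘ e₂)) =
      c * ∑ u, ∑ v, x u * (∏ i, gramMatrix A (u i) (v i)) * (y v))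
    (hle : H ≤ tensorWreathSubgroup 2 3 e₂ P₂) : IsPlusTypeOn Q ⊤ := by
  classical
  let e' : ι ≃ Fin 2 × Fin 4 := e₂.trans EE
  let G := gramMatrix A
  let G₂ : Matrix (Fin 4) (Fin 4) F := fun q q' => G (E₂.symm q).1 (E₂.symm q').1 * G (E₂.symm q).2 (E₂.symm q').2
  let f₂ : (Fin 4 → F) → (Fin 4 → F) → F := fun y y' => c * ∑ q, ∑ q', y q * G₂ q q' * y' q'
  have hAexp : ∀ x x', A x x' = ∑ p, ∑ p', x p * G p p' * x' p' := by
    intro x x'
    have := Cfsg.Agent.Lib.Asch.Forms.eq_gram hA.sesq x x'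
    rw [this]
    simp only [dotProduct, Matrix.mulVec, Finset.mul_sum]
    refine Finset.sum_congr rfl fun b _ => Finset.sum_congr rfl fun d _ => ?_
    simp only [Function.comp_apply, RingEquiv.refl_apply]
    rw [mul_assoc]
    rfl
  have hTT : ∀ x y, TT e' P₂ x y = (P₂ : Matrix ι ι F) *ᵥ ((pureT x y ∘ EE) ∘ e₂) := fun x y => rfl
  have hsum : ∀ φ : (Fin 3 → Fin 2) → F, ∑ u, φ u = ∑ p, ∑ q, φ (EE.symm (p, q)) := by
    intro φ
    exact (Equiv.sum_comp EE.symm φ).symm.trans (Fintype.sum_prod_type _)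
  have hlaw' : ∀ x x' y y', pol Q (TT e' P₂ x y) (TT e' P₂ x' y') = A x x' * f₂ y y' := by
    intro x x' y y'
    rw [hTT, hTT, hlaw, hAexp]
    simp only [f₂]
    rw [mul_left_comm]
    congr 1
    rw [hsum]
    simp_rw [hsum]
    have hterm : ∀ p q p' q', (pureT x y ∘ EE) (EE.symm (p, q)) * (∏ i, gramMatrix A (EE.symm (p, q) i) (EE.symm (p', q') i)) * (pureT x' y' ∘ EE) (EE.symm (p', q')) =
        (x p * G p p' * x' p') * (y q * G₂ q q' * y' q') := by
      intro p q p' q'
      simp only [Function.comp_apply, Equiv.apply_symm_apply, pureT]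
      rw [EE_symm_apply, EE_symm_apply, Fin.prod_univ_three]
      simp only [Matrix.cons_val_zero, Matrix.cons_val_one, Matrix.cons_val_two, Matrix.head_cons, Matrix.tail_cons, G₂, G]
      change x p * y q * (gramMatrix A p p' * gramMatrix A (E₂.symm q).1 (E₂.symm q').1 * gramMatrix A (E₂.symm q).2 (E₂.symm q').2) * (x' p' * y' q') = _
      ring
    simp_rw [hterm]
    calc ∑ p, ∑ q, ∑ p', ∑ q', (x p * G p p' * x' p') * (y q * G₂ q q' * y' q')
        = ∑ p, ∑ p', (x p * G p p' * x' p') * ∑ q, ∑ q', (y q * G₂ q q' * y' q') := by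
          refine Finset.sum_congr rfl fun p _ => ?_
          rw [Finset.sum_comm]
          refine Finset.sum_congr rfl fun p' _ => ?_
          rw [Finset.mul_sum]
          refine Finset.sum_congr rfl fun q _ => ?_
          rw [Finset.mul_sum]
      _ = _ := by
          rw [Finset.sum_mul]
          simp_rw [Finset.sum_mul]
  by_cases h2 : (2 : F) = 0
  swap
  · exact plus_of_tensor2 hQ h2 (by decide) e' P₂ hA hlaw'
  -- characteristic two
  have hε := eps_one_of_two h2 hA
  subst hε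
  have hS := hA.sesq
  have hsymm : ∀ x y, A x y = A y x := by
    intro x y
    have := hA.herm y x
    simpa using this
  have hGs : ∀ i j, G i j = G j i := fun i j => hsymm _ _
  have hcard : Fintype.card ι = 2 * 4 := by
    rw [Fintype.card_congr e']
    simp
  have hG0 : ∀ i, G i i = 0 := by
    intro i
    have h1 := hlaw' (Pi.single i 1) (Pi.single i 1) (Pi.single (E₂ (i, i)) 1) (Pi.single (E₂ (i, i)) 1)
    rw [pol_self hQ, h2, zero_mul] at h1
    have h3 : f₂ (Pi.single (E₂ (i, i)) 1) (Pi.single (E₂ (i, i)) 1) = c * G₂ (E₂ (i, i)) (E₂ (i, i)) := by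
      simp only [f₂]
      congr 1
      rw [Finset.sum_eq_single (E₂ (i, i))]
      · rw [Finset.sum_eq_single (E₂ (i, i))]
        · simp
        · intro b _ hb
          simp [Pi.single_apply, hb]
        · simp
      · intro b _ hb
        simp [Pi.single_apply, hb]
      · simp
    rw [h3] at h1
    simp only [G₂, Equiv.symm_apply_apply] at h1
    have h4 : A (Pi.single i 1) (Pi.single i 1) = G i i := rfl
    rw [h4] at h1
    by_contra h0
    exact mul_ne_zero h0 (mul_ne_zero hc (mul_ne_zero h0 h0)) h1.symm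
  have halt₁ : ∀ x, A x x = 0 := by
    intro x
    have := expand_additive (fun x => A x x) (by
      intro x y
      simp only [hS.add_left, hS.add_right]
      rw [hsymm y x]
      linear_combination (A x y) * h2) (by
      intro a x
      simp only [hS.smul_left, hS.smul_right, RingEquiv.refl_apply]
      ring) x
    rw [this]
    exact Finset.sum_eq_zero fun i _ => by
      have : A (Pi.single i 1) (Pi.single i 1) = G i i := rfl
      rw [this, hG0, mul_zero]
  have hf₂sym : ∀ y y', f₂ y y' = f₂ y' y := by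
    intro y y'
    simp only [f₂]
    congr 1
    rw [Finset.sum_comm]
    refine Finset.sum_congr rfl fun q _ => Finset.sum_congr rfl fun q' _ => ?_
    simp only [G₂]
    rw [hGs (E₂.symm q').1, hGs (E₂.symm q').2]
    ring
  have hf₂add : ∀ y y' z, f₂ (y + y') z = f₂ y z + f₂ y' z := by
    intro y y' z
    simp only [f₂, Pi.add_apply, add_mul, Finset.sum_add_distrib, mul_add]
  have hf₂sm : ∀ (a : F) y z, f₂ (a • y) z = a * f₂ y z := by
    intro a y z
    simp only [f₂, Pi.smul_apply, smul_eq_mul, Finset.mul_sum]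
    refine Finset.sum_congr rfl fun q _ => Finset.sum_congr rfl fun q' _ => ?_
    ring
  have halt₂ : ∀ y, f₂ y y = 0 := by
    intro y
    have := expand_additive (fun y => f₂ y y) (by
      intro y y'
      simp only [hf₂add]
      rw [hf₂sym y (y + y'), hf₂sym y' (y + y'), hf₂add, hf₂add, hf₂sym y' y]
      linear_combination (f₂ y y') * h2) (by
      intro a y
      simp only [hf₂sm]
      rw [hf₂sym y (a • y), hf₂sm]
      ring) y
    rw [this]
    refine Finset.sum_eq_zero fun q _ => ?_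
    have h3 : f₂ (Pi.single q 1) (Pi.single q 1) = c * G₂ q q := by
      simp only [f₂]
      congr 1
      rw [Finset.sum_eq_single q]
      · rw [Finset.sum_eq_single q]
        · simp
        · intro b _ hb
          simp [Pi.single_apply, hb]
        · simp
      · intro b _ hb
        simp [Pi.single_apply, hb]
      · simp
    rw [h3]
    simp only [G₂]
    rw [hG0]
    simp
  obtain ⟨l, hl⟩ := exists_ell hQ h2 e' P₂ hlaw' halt₁ halt₂
  let S : Set (ι → F) := {v | ∃ us : Fin 3 → Fin 2 → F, v = (P₂ : Matrix ι ι F) *ᵥ (ten us ∘ e₂)}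
  have hSTT : ∀ us : Fin 3 → Fin 2 → F, (P₂ : Matrix ι ι F) *ᵥ (ten us ∘ e₂) =
      TT e' P₂ (us 0) (fun q => us 1 (E₂.symm q).1 * us 2 (E₂.symm q).2) := by
    intro us
    rw [hTT]
    congr 2
    funext u
    simp only [Function.comp_apply, pureT, ten_apply]
    rw [Fin.prod_univ_three]
    have h3 : EE u = (u 0, E₂ (u 1, u 2)) := rfl
    rw [h3]
    simp only [Equiv.symm_apply_apply]
    ring
  have hl0 : l = 0 := by
    refine ell_eq_zero hQ h2 hH hirr (by omega) l S ?_ ?_ ?_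
    · rintro _ ⟨us, rfl⟩
      rw [hSTT]
      exact hl _ _
    · intro v
      let L : ((Fin 3 → Fin 2) → F) →ₗ[F] (ι → F) := (Matrix.toLin' (P₂ : Matrix ι ι F)).comp (LinearMap.funLeft F F e₂)
      have hL : ∀ z, L z = (P₂ : Matrix ι ι F) *ᵥ (z ∘ e₂) := fun _ => rfl
      have hmem : ∀ z, L z ∈ Submodule.span F S := by
        intro z
        rw [Cfsg.Agent.Lib.Asch.Forms.sum_single z, map_sum]
        refine Submodule.sum_mem _ fun a _ => ?_
        rw [map_smul]
        refine Submodule.smul_mem _ _ (Submodule.subset_span ⟨fun i => Pi.single (a i) 1, ?_⟩)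
        rw [hL, ten_single]
      have h3 : v = L ((((P₂⁻¹ : GL ι F) : Matrix ι ι F) *ᵥ v) ∘ e₂.symm) := by
        rw [hL, Function.comp_assoc, Equiv.symm_comp_self, Function.comp_id, mulVec_inv_mulVec]
      rw [h3]
      exact hmem _
    · rintro h hh _ ⟨us, rfl⟩
      obtain ⟨g, hg, hgh⟩ := (mem_tensorWreathSubgroup_iff e₂ P₂ h).1 (hle hh)
      obtain ⟨gs, τ, rfl⟩ := exists_tw_of_mem hg
      rw [coe_tw] at hgh
      exact ⟨_, by rw [h_act e₂ P₂ h _ hgh, mm_mulVec_ten]⟩
  have hx₀ : (Pi.single (0 : Fin 2) 1 : Fin 2 → F) ≠ 0 := by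
    intro h
    have := congrFun h 0
    simp at this
  refine plus_of_pure_line hQ e' P₂ hcard hx₀ fun y => ?_
  rw [hl, hl0]
  simp

end Cfsg.Agent.Lib.CmaxE.Wr
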