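import Mathlib
import Cfsg.Agent.Lib.CmaxE.Wr
import Cfsg.Agent.Lib.CmaxE.Rg
import Cfsg.Agent.Lib.CmaxE.Sub2
import Cfsg.Agent.Lib.Geo.Om2E

/-!
# Common reductions for even dimensional orthogonal groups
-/

set_option autoImplicit false

namespace Cfsg.Agent.Lib.CmaxE.Common

open Matrix Module Cfsg Cfsg.Geo
open Cfsg.Agent.Lib.Geo.Basic Cfsg.Agent.Lib.Geo.Polar Cfsg.Agent.Lib.Geo.QForm
open Cfsg.Agent.Lib.GeoOmega.Basic Cfsg.Agent.Lib.AschF.OmegaP
open Cfsg.Agent.Lib.GeoOmega.Nondeg Cfsg.Agent.Lib.GeoOmega.NondegW Cfsg.Agent.Lib.GeoOmega.Singular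
open Cfsg.Agent.Lib.NotMax.Tensor (TT pureT TT_add_left TT_add_right TT_smul_left TT_smul_right TT_ne_zero span_TT)
open Cfsg.Agent.Lib.AschF.Adj (HF)
open Cfsg.Agent.Lib.AschF.OddA (polar_isom Q_isom card_eq_of_decomp)
open Cfsg.Agent.Lib.AschF.OddMax (perp_facts two_ne_zero_of_odd)
open Cfsg.Agent.Lib.Asch.MaxSL (eq_inf_of_le)
open Cfsg.Agent.Lib.CmaxE.Core Cfsg.Agent.Lib.CmaxE.Proper Cfsg.Agent.Lib.CmaxE.Plus Cfsg.Agent.Lib.CmaxE.Ten

universe u

variable {ι : Type} [Fintype ι] [DecidableEq ι] {F : Type u} [Field F] [Fintype F] {Q : (ι → F) → F}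

theorem two_of_not_odd (h : ¬ Odd (Fintype.card F)) : (2 : F) = 0 :=
  Cfsg.Agent.Lib.Geo.Om2.two_eq_zero_of_even (F := F) (by
    rw [Nat.not_odd_iff] at h
    omega)

/-- Non-degenerate alternating forms live in even dimension. -/
theorem even_of_symplectic [Finite F] {f : (ι → F) → (ι → F) → F} (hf : IsSymplecticForm f) {W : Submodule F (ι → F)}
    (hW : IsNondegenerateOn f W) : Even (finrank F W) := by
  obtain ⟨n, -, -, h, -⟩ := Cfsg.Agent.Lib.Geo.SpFrames.exists_frame hf W hW
  exact ⟨n, by omega⟩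

variable (hQ : IsNondegenerateQuadraticForm Q)
include hQ

/-- Non-degenerate subspaces have even dimension in characteristic two. -/
theorem even_of_nd_two (h2 : (2 : F) = 0) {W : Submodule F (ι → F)} (hW : IsNondegenerateOn (QuadraticMap.polar Q) W) :
    Even (finrank F W) := by
  refine even_of_symplectic ⟨hQ.polar_bilinear, fun v w => ?_, fun v => ?_, hQ.nondegenerate⟩ hW
  · have h1 : pol Q v w = pol Q w v := pol_symm hQ v w
    change pol Q v w = - pol Q w v
    rw [h1]
    linear_combination (pol Q w v) * h2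
  · change pol Q v v = 0
    rw [pol_self hQ, h2, zero_mul]

/-- A plus type plane over a small field has a distinguished line. -/
theorem plane_line' (hsq : ∀ α : F, α ≠ 0 → α ^ 2 = 1) {H : Subgroup (GL ι F)} (hHI : H ≤ isometryGroup F Q)
    {W : Submodule F (ι → F)} (hfr : finrank F W = 2) (hnd : IsNondegenerateOn (QuadraticMap.polar Q) W)
    (hplus : IsPlusTypeOn Q W) (hle : H ≤ subspaceStabilizer W) :
    ∃ v : ι → F, v ≠ 0 ∧ Q v ≠ 0 ∧ H ≤ subspaceStabilizer (Submodule.span F {v}) := by
  obtain ⟨U, hUW, hUts, hUr⟩ := hplus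
  have hU1 : finrank F U = 1 := by omega
  have hUne : U ≠ ⊥ := by
    intro h
    rw [h, finrank_bot] at hU1
    omega
  obtain ⟨y, hyU, hy0⟩ := Submodule.exists_mem_ne_zero_of_ne_bot hUne
  have hyW := hUW hyU
  have hQy := hUts y hyU
  obtain ⟨-, x, hxW, hx⟩ := hnd y hyW hy0
  have hx' : pol Q y x ≠ 0 := hx
  obtain ⟨z, hzd⟩ : ∃ z : ι → F, z = (pol Q y x)⁻¹ • x := ⟨_, rfl⟩
  have hzW : z ∈ W := by
    rw [hzd]
    exact W.smul_mem _ hxW
  have hyz : pol Q y z = 1 := by
    rw [hzd, pol_smul_right hQ, inv_mul_cancel₀ hx']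
  obtain ⟨z', hzd'⟩ : ∃ z' : ι → F, z' = z - Q z • y := ⟨_, rfl⟩
  have hz'W : z' ∈ W := by
    rw [hzd']
    exact W.sub_mem hzW (W.smul_mem _ hyW)
  have hyy : pol Q y y = 0 := by rw [pol_self hQ, hQy, mul_zero]
  have hzy : pol Q z y = 1 := by rw [pol_symm hQ, hyz]
  have hyz' : pol Q y z' = 1 := by
    rw [hzd', sub_eq_add_neg, ← neg_smul, pol_add_right hQ, pol_smul_right hQ, hyz, hyy]
    ring
  have hQz' : Q z' = 0 := by
    rw [hzd', Q_sub hQ, hQ.smul, hQy, pol_smul_right hQ, hzy]
    ring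
  have hz'y : pol Q z' y = 1 := by rw [pol_symm hQ, hyz']
  have hz'z' : pol Q z' z' = 0 := by rw [pol_self hQ, hQz', mul_zero]
  have hLI : LinearIndependent F ![y, z'] := by
    rw [LinearIndependent.pair_iff]
    intro s t hst
    have h1 := congrArg (fun w => pol Q w z') hst
    have h4 := congrArg (fun w => pol Q w y) hst
    simp only [pol_add_left hQ, pol_smul_left hQ, hyz', hz'z', hyy, hz'y, pol_zero_left hQ] at h1 h4
    constructor
    · simpa using h1
    · simpa using h4
  have hspan : Submodule.span F (Set.range ![y, z']) = W := by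
    apply Submodule.eq_of_le_of_finrank_eq
    · rw [Submodule.span_le]
      rintro _ ⟨i, rfl⟩
      fin_cases i
      · exact hyW
      · exact hz'W
    · rw [finrank_span_eq_card hLI, hfr]
      simp
  have hel : ∀ w ∈ W, ∃ α β : F, w = α • y + β • z' := by
    intro w hw
    rw [← hspan] at hw
    have h1 : Set.range ![y, z'] = {y, z'} := by
      simp [Matrix.range_cons, Matrix.range_empty, Set.pair_comm]
    rw [h1] at hw
    obtain ⟨a, b, hab⟩ := Submodule.mem_span_pair.1 hw
    exact ⟨a, b, hab.symm⟩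
  let v : ι → F := y + z'
  have hvW : v ∈ W := W.add_mem hyW hz'W
  have hQv : Q v = 1 := by
    simp only [v]
    rw [Q_add hQ, hQy, hQz', hyz']
    ring
  have h10 : (1 : F) ≠ 0 := one_ne_zero
  refine ⟨v, ?_, by rw [hQv]; exact h10, ?_⟩
  · intro h0
    rw [h0, Q_zero hQ] at hQv
    exact h10 hQv.symm
  · intro g hg
    apply mem_subspaceStabilizer_of_forall_mem
    have hgv : (g : Matrix ι ι F) *ᵥ v ∈ Submodule.span F {v} := by
      obtain ⟨α, β, hαβ⟩ := hel _ ((mem_subspaceStabilizer_iff_forall_mem W g).1 (hle hg) v hvW)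
      have h1 : Q ((g : Matrix ι ι F) *ᵥ v) = 1 := by
        rw [Q_isom (hHI hg), hQv]
      rw [hαβ, Q_add hQ, hQ.smul, hQ.smul, pol_smul_left hQ, pol_smul_right hQ, hQy, hQz', hyz'] at h1
      have h4 : α * β = 1 := by
        rw [← h1]
        ring
      have hα0 : α ≠ 0 := left_ne_zero_of_mul_eq_one h4
      have h5 := hsq α hα0
      have h6 : β = α := by
        calc β = α ^ 2 * β := by rw [h5, one_mul]
          _ = α * (α * β) := by ring
          _ = α := by rw [h4, mul_one]
      rw [hαβ, h6, ← smul_add]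
      exact Submodule.smul_mem _ _ (Submodule.mem_span_singleton_self _)
    intro u hu
    obtain ⟨c, rfl⟩ := Submodule.mem_span_singleton.1 hu
    rw [Matrix.mulVec_smul]
    exact Submodule.smul_mem _ _ hgv

/-- Lines spanned by non-singular vectors. -/
theorem stab_line_eq (hι : 7 ≤ Fintype.card ι) {H : Subgroup (GL ι F)} (hmax : IsMaximalIn (omegaGL Q) H) {v : ι → F}
    (hv : Q v ≠ 0) (hle : H ≤ subspaceStabilizer (Submodule.span F {v})) :
    H = subspaceStabilizer (Submodule.span F {v}) ⊓ omegaGL Q := by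
  have hv0 : v ≠ 0 := by
    rintro rfl
    exact hv (Q_zero hQ)
  have hfr1 : finrank F (Submodule.span F {v}) = 1 := finrank_span_singleton hv0
  refine eq_inf_of_le hmax hle (omega_not_le_stab hQ hι ?_ ?_)
  · intro h
    rw [h, finrank_bot] at hfr1
    omega
  · intro h
    rw [h, finrank_top, finrank_fintype_fun_eq_card] at hfr1
    omega

/-- Non-degenerate invariant subspaces: the normal form. -/
theorem nd_normal_even (hι : 7 ≤ Fintype.card ι) (hn : 4 ∣ Fintype.card ι) {H : Subgroup (GL ι F)}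
    (hmax : IsMaximalIn (omegaGL Q) H) {W : Submodule F (ι → F)} (hW0 : W ≠ ⊥) (hW1 : W ≠ ⊤)
    (hnd : IsNondegenerateOn (QuadraticMap.polar Q) W) (hle : H ≤ subspaceStabilizer W) :
    (Odd (Fintype.card F) ∧ ∃ W' : Submodule F (ι → F), W' ≠ ⊥ ∧ W' ≠ ⊤ ∧ Odd (finrank F W') ∧ 2 * finrank F W' ≠ Fintype.card ι ∧
      IsNondegenerateOn (QuadraticMap.polar Q) W' ∧ H = subspaceStabilizer W' ⊓ omegaGL Q) ∨
    (∃ W' : Submodule F (ι → F), finrank F W' = 2 ∧ IsNondegenerateOn (QuadraticMap.polar Q) W' ∧ ¬ IsPlusTypeOn Q W' ∧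
      H = subspaceStabilizer W' ⊓ omegaGL Q) ∨
    (4 ≤ Fintype.card F ∧ ∃ W' : Submodule F (ι → F), finrank F W' = 2 ∧ IsNondegenerateOn (QuadraticMap.polar Q) W' ∧ IsPlusTypeOn Q W' ∧
      H = subspaceStabilizer W' ⊓ omegaGL Q) ∨
    (¬ Odd (Fintype.card F) ∧ ∃ v : ι → F, Q v ≠ 0 ∧ H = subspaceStabilizer (Submodule.span F {v}) ⊓ omegaGL Q) ∨
    (∃ W' : Submodule F (ι → F), 4 ≤ finrank F W' ∧ 2 * finrank F W' ≤ Fintype.card ι ∧ Even (finrank F W') ∧
      IsNondegenerateOn (QuadraticMap.polar Q) W' ∧ H = subspaceStabilizer W' ⊓ omegaGL Q) := by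
  have hHO : H ≤ omegaGL Q := hmax.1.le
  have hHI : H ≤ isometryGroup F Q := hHO.trans (omegaGL_le_isometryGroup Q)
  -- pass to the smaller of `W` and its perp
  obtain ⟨W₁, hW₁0, hW₁1, hW₁d, hW₁n, hW₁s⟩ : ∃ W₁ : Submodule F (ι → F), W₁ ≠ ⊥ ∧ W₁ ≠ ⊤ ∧ 2 * finrank F W₁ ≤ Fintype.card ι ∧
      IsNondegenerateOn (QuadraticMap.polar Q) W₁ ∧ H ≤ subspaceStabilizer W₁ := by
    obtain ⟨h5, h6⟩ := perp_facts hQ hnd
    by_cases hd : 2 * finrank F W ≤ Fintype.card ι
    · exact ⟨W, hW0, hW1, hd, hnd, hle⟩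
    · refine ⟨(polB hQ).orthogonal W, ?_, ?_, by omega, h5, fun g hg => stab_orth_of_stab hQ (hHI hg) (hle hg)⟩
      · intro h
        rw [h, finrank_bot, zero_add] at h6
        apply hW1
        apply Submodule.eq_top_of_finrank_eq
        rw [h6]
        simp
      · intro h
        rw [h, finrank_top, finrank_fintype_fun_eq_card] at h6
        apply hW0
        have : finrank F W = 0 := by omega
        exact Submodule.finrank_eq_zero.1 this
  have hW₁pos : 0 < finrank F W₁ := Nat.pos_of_ne_zero (fun h => hW₁0 (Submodule.finrank_eq_zero.1 h))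
  have heq := eq_inf_of_le hmax hW₁s (omega_not_le_stab hQ hι hW₁0 hW₁1)
  by_cases hev : Even (finrank F W₁)
  · by_cases h2d : finrank F W₁ = 2
    · by_cases hpl : IsPlusTypeOn Q W₁
      · by_cases hq4 : 4 ≤ Fintype.card F
        · exact Or.inr (Or.inr (Or.inl ⟨hq4, W₁, h2d, hW₁n, hpl, heq⟩))
        · -- small fields
          have hsq : ∀ α : F, α ≠ 0 → α ^ 2 = 1 := by
            intro α hα
            have h3 := FiniteField.pow_card_sub_one_eq_one α hα
            have hc2 : 2 ≤ Fintype.card F := Fintype.one_lt_card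
            have hcases : Fintype.card F = 2 ∨ Fintype.card F = 3 := by omega
            rcases hcases with h | h
            · rw [h] at h3
              simp only [Nat.add_one_sub_one, pow_one] at h3
              rw [h3]
              simp
            · rw [h] at h3
              exact h3
          obtain ⟨v, hv0, hQv, hvs⟩ := plane_line' hQ hsq hHI h2d hW₁n hpl hW₁s
          by_cases hodd : Odd (Fintype.card F)
          · have h2 := two_ne_zero_of_odd hodd
            left
            refine ⟨hodd, Submodule.span F {v}, ?_, ?_, ?_, ?_, ?_, stab_line_eq hQ hι hmax hQv hvs⟩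
            · intro h
              have := finrank_span_singleton (K := F) hv0
              rw [h, finrank_bot] at this
              omega
            · intro h
              have := finrank_span_singleton (K := F) hv0
              rw [h, finrank_top, finrank_fintype_fun_eq_card] at this
              omega
            · rw [finrank_span_singleton hv0]
              exact odd_one
            · rw [finrank_span_singleton hv0]
              omega
            · have hvv : pol Q v v ≠ 0 := by
                rw [pol_self hQ]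
                exact mul_ne_zero h2 hQv
              intro w hw hw0
              obtain ⟨c, rfl⟩ := Submodule.mem_span_singleton.1 hw
              have hc : c ≠ 0 := by
                rintro rfl
                simp at hw0
              refine ⟨⟨v, Submodule.mem_span_singleton_self _, ?_⟩, ⟨v, Submodule.mem_span_singleton_self _, ?_⟩⟩
              · change pol Q _ _ ≠ 0
                rw [pol_smul_right hQ]
                exact mul_ne_zero hc hvv
              · change pol Q _ _ ≠ 0
                rw [pol_smul_left hQ]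
                exact mul_ne_zero hc hvv
          · exact Or.inr (Or.inr (Or.inr (Or.inl ⟨hodd, v, hQv, stab_line_eq hQ hι hmax hQv hvs⟩)))
      · exact Or.inr (Or.inl ⟨W₁, h2d, hW₁n, hpl, heq⟩)
    · refine Or.inr (Or.inr (Or.inr (Or.inr ⟨W₁, ?_, hW₁d, hev, hW₁n, heq⟩)))
      obtain ⟨r, hr⟩ := hev
      omega
  · -- odd dimension
    have hodd : Odd (Fintype.card F) := by
      by_contra hc
      exact hev (even_of_nd_two hQ (two_of_not_odd hc) hW₁n)
    rw [Nat.not_even_iff_odd] at hev
    left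
    refine ⟨hodd, W₁, hW₁0, hW₁1, hev, ?_, hW₁n, heq⟩
    obtain ⟨r, hr⟩ := hev
    obtain ⟨s, hs⟩ := hn
    omega

omit hQ in
/-- A non-degenerate orthogonal family with the right dimensions is a decomposition. -/
theorem isOrth_of_family (hQ : IsNondegenerateQuadraticForm Q) {t k : ℕ} (ht : 2 ≤ t) (hk : 0 < k) (hn : Fintype.card ι = t * k)
    {D : Fin t → Submodule F (ι → F)} (hfin : ∀ i, finrank F (D i) = k)
    (hnd : ∀ i, IsNondegenerateOn (QuadraticMap.polar Q) (D i))
    (hor : ∀ i j, i ≠ j → ∀ x ∈ D i, ∀ y ∈ D j, pol Q x y = 0)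
    (hiso : ∀ i j, AreIsometricFor Q (D i) (D j)) : IsOrthogonalMDecomposition Q k D := by
  classical
  have hind : iSupIndep D := by
    intro i
    rw [Submodule.disjoint_def]
    intro x hx hx2
    by_contra hx0
    obtain ⟨y, hy, hne⟩ := (hnd i x hx hx0).1
    apply hne
    have h1 : (⨆ j, ⨆ (_ : j ≠ i), D j) ≤ (polB hQ).orthogonal (D i) := by
      refine iSup₂_le fun j hj u hu => ?_
      rw [mem_orth_iff hQ]
      intro w hw
      exact hor j i hj u hu w hw
    have h3 := (mem_orth_iff hQ).1 (h1 hx2) y hy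
    change pol Q y x = 0
    rw [pol_symm hQ]
    exact h3
  have htop : iSup D = ⊤ := by
    apply Submodule.eq_top_of_finrank_eq
    rw [Cfsg.Agent.Lib.Asch.IrrDim.finrank_iSup_of_indep D hind, Finset.sum_congr rfl fun i _ => hfin i,
      Finset.sum_const, Finset.card_univ, Fintype.card_fin, smul_eq_mul, finrank_fintype_fun_eq_card, hn]
  exact ⟨⟨⟨ht, hk, hfin, hind, htop⟩, hnd, fun i j hij x hx y hy => hor i j hij x hx y hy⟩, hiso⟩

/-- Sums of plus type parts have plus type. -/
theorem plus_of_all_plus {t k : ℕ} {D : Fin t → Submodule F (ι → F)} (hD : IsOrthogonalMDecomposition Q k D)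
    (hplus : ∀ i, IsPlusTypeOn Q (D i)) : IsPlusTypeOn Q ⊤ := by
  classical
  have hh := hplus
  choose U hU hUs hUd using hh
  have hind : iSupIndep U := hD.decomp.decomp.indep.mono hU
  have hpolU : ∀ i, ∀ x ∈ U i, ∀ y ∈ U i, pol Q x y = 0 := by
    intro i x hx y hy
    have h1 := Q_add hQ x y
    rw [hUs i _ ((U i).add_mem hx hy), hUs i x hx, hUs i y hy] at h1
    linear_combination -h1
  have hts := ts_span hQ (⋃ i, (U i : Set (ι → F))) (by
      intro s hs
      obtain ⟨i, hi⟩ := Set.mem_iUnion.1 hs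
      exact hUs i s hi) (by
      intro s hs s' hs'
      obtain ⟨i, hi⟩ := Set.mem_iUnion.1 hs
      obtain ⟨j, hj⟩ := Set.mem_iUnion.1 hs'
      by_cases hij : i = j
      · subst hij
        exact hpolU i s hi s' hj
      · exact hD.decomp.orthogonal i j hij s (hU i hi) s' (hU j hj))
  refine ⟨_, le_top, hts, ?_⟩
  rw [← Submodule.iSup_eq_span, Cfsg.Agent.Lib.Asch.IrrDim.finrank_iSup_of_indep U hind, Finset.mul_sum]
  rw [Finset.sum_congr rfl fun i _ => hUd i, Finset.sum_congr rfl fun i _ => hD.decomp.decomp.finrank_eq i,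
    Finset.sum_const, Finset.card_univ, Fintype.card_fin, smul_eq_mul, finrank_top, finrank_fintype_fun_eq_card,
    card_eq_of_decomp hD.decomp.decomp]

end Cfsg.Agent.Lib.CmaxE.Common
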