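import Mathlib
import Cfsg.Agent.Lib.CmaxE.Common
import Cfsg.Agent.Lib.NotMax.OmegaFrame

/-!
# Witt cancellation in plus type spaces, and the half dimensional non-degenerate subspaces
-/

set_option autoImplicit false

namespace Cfsg.Agent.Lib.CmaxE.Five

open Matrix Module Cfsg Cfsg.Geo
open Cfsg.Agent.Lib.Geo.Basic Cfsg.Agent.Lib.Geo.Polar Cfsg.Agent.Lib.Geo.QForm
open Cfsg.Agent.Lib.GeoOmega.Basic Cfsg.Agent.Lib.AschF.OmegaP Cfsg.Agent.Lib.QuadFn
open Cfsg.Agent.Lib.GeoOmega.Nondeg Cfsg.Agent.Lib.GeoOmega.NondegW Cfsg.Agent.Lib.GeoOmega.Singular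
open Cfsg.Agent.Lib.AschF.OddA (polar_isom Q_isom card_eq_of_decomp)
open Cfsg.Agent.Lib.AschF.OddMax (perp_facts two_ne_zero_of_odd)
open Cfsg.Agent.Lib.CmaxE.Core Cfsg.Agent.Lib.CmaxE.Proper Cfsg.Agent.Lib.CmaxE.Plus Cfsg.Agent.Lib.CmaxE.Common
open Cfsg.Agent.Lib.NotMax.OmegaFrame (ndOn_of_nondeg pol_isometric)
open Cfsg.Agent.Lib.GeoOmega.Eichler (pol_sub_right Q_sub)

universe u

variable {ι : Type} [Fintype ι] [DecidableEq ι] {F : Type u} [Field F] {Q : (ι → F) → F}

variable (hQ : IsNondegenerateQuadraticForm Q)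
include hQ

/-- Totally singular subspaces extend to half dimensional ones in a space of plus type. -/
theorem ts_extend {m : ℕ} (hm : Fintype.card ι = 2 * m) (hplus : IsPlusTypeOn Q ⊤) :
    ∀ (d : ℕ) (T : Submodule F (ι → F)), IsTotallySingularQuad Q T → finrank F T + d = m →
      ∃ T' : Submodule F (ι → F), T ≤ T' ∧ IsTotallySingularQuad Q T' ∧ finrank F T' = m := by
  obtain ⟨M, -, hM, hMd⟩ := hplus
  have hS := qspace hQ
  have hdimV : finrank F (ι → F) = 2 * m := by rw [finrank_total, hm]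
  have hMm : finrank F M = m := by
    rw [finrank_top, hdimV] at hMd
    omega
  intro d
  induction d with
  | zero =>
    intro T hT hd
    exact ⟨T, le_rfl, hT, by omega⟩
  | succ d ih =>
    intro T hT hd
    obtain ⟨a, haM, haT', haT⟩ : ∃ a, a ∈ M ∧ a ∈ (polB hQ).orthogonal T ∧ a ∉ T := by
      by_contra hc
      push Not at hc
      have h1 := hS.finrank_inf_orth hdimV hM hMm T
      have h2 : (M ⊓ (polB hQ).orthogonal T : Submodule F (ι → F)) ≤ M ⊓ T := fun x hx => ⟨hx.1, hc x hx.1 hx.2⟩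
      have h3 := Submodule.finrank_mono h2
      omega
    have hQa : Q a = 0 := hM a haM
    have hTs : MaxSingular.TS Q (T ⊔ Submodule.span F {a}) := hS.ts_sup_span hT haT' hQa
    obtain ⟨T', h1, h2, h3⟩ := ih (T ⊔ Submodule.span F {a}) hTs (by
      rw [finrank_sup_span' haT]
      omega)
    exact ⟨T', le_sup_left.trans h1, h2, h3⟩

/-- A half dimensional totally singular subspace of a non-degenerate subspace is its own perp there. -/
theorem inf_orth_eq {A T : Submodule F (ι → F)} (hA : IsNondegenerateOn (QuadraticMap.polar Q) A) (hTA : T ≤ A)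
    (hT : IsTotallySingularQuad Q T) (hd : 2 * finrank F T = finrank F A) : A ⊓ (polB hQ).orthogonal T = T := by
  have hS := qspace hQ
  have hdec := orthDec_of_nd hQ hA
  symm
  apply Submodule.eq_of_le_of_finrank_le
  · exact le_inf hTA (hS.ts_le_orth hT)
  · have h1 : (polB hQ).orthogonal ((polB hQ).orthogonal A ⊔ T) = A ⊓ (polB hQ).orthogonal T := by
      rw [MaxSingular.QSpace.orth_sup, orth_orth hQ]
    have h2 := finrank_orth' hQ ((polB hQ).orthogonal A ⊔ T)
    rw [h1] at h2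
    have h3 := Submodule.finrank_sup_add_finrank_inf_eq ((polB hQ).orthogonal A) T
    have h4 : (polB hQ).orthogonal A ⊓ T = ⊥ := by
      rw [eq_bot_iff]
      rintro x ⟨hx, hx'⟩
      have := hdec.inf.le ⟨hTA hx', hx⟩
      exact this
    rw [h4, finrank_bot] at h3
    have h5 := finrank_orth' hQ A
    omega

/-- Cancellation: the perp of a non-degenerate subspace of plus type in a space of plus type has plus type. -/
theorem plus_cancel (hplus : IsPlusTypeOn Q ⊤) {A : Submodule F (ι → F)} (hA : IsNondegenerateOn (QuadraticMap.polar Q) A)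
    (hAp : IsPlusTypeOn Q A) : IsPlusTypeOn Q ((polB hQ).orthogonal A) := by
  classical
  obtain ⟨T, hTA, hTs, hTd⟩ := hAp
  have hdec := orthDec_of_nd hQ hA
  obtain ⟨M, -, hM, hMd⟩ := id hplus
  rw [finrank_top, finrank_total] at hMd
  set m := finrank F M with hm
  have hTle : finrank F T ≤ m := by
    have h1 := two_finrank_le hQ (U := T) hTs
    omega
  obtain ⟨T', hTT', hT's, hT'd⟩ := ts_extend hQ (m := m) hMd.symm hplus (m - finrank F T) T hTs (by omega)
  have hself := inf_orth_eq hQ hA hTA hTs hTd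
  have hpol : ∀ x ∈ T', ∀ y ∈ T', pol Q x y = 0 := fun x hx y hy => (qspace hQ).ts_polar hT's hx hy
  obtain ⟨R, hR⟩ : ∃ R : Submodule F (ι → F), R = T' ⊓ (polB hQ).orthogonal A := ⟨_, rfl⟩
  have hle : T' ≤ T ⊔ R := by
    intro u hu
    have hu' : u ∈ A ⊔ (polB hQ).orthogonal A := by
      rw [hdec.sup]
      trivial
    obtain ⟨a, ha, b, hb, rfl⟩ := Submodule.mem_sup.1 hu'
    have haT : a ∈ T := by
      rw [← hself]
      refine ⟨ha, (mem_orth_iff hQ).2 fun t ht => ?_⟩
      have h1 := hpol _ hu t (hTT' ht)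
      rw [pol_add_left hQ] at h1
      have h3 : pol Q b t = 0 := (mem_orth_iff hQ).1 hb t (hTA ht)
      rw [h3, add_zero] at h1
      exact h1
    have hbT : b ∈ T' := by
      have := T'.sub_mem hu (hTT' haT)
      rwa [add_sub_cancel_left] at this
    exact Submodule.mem_sup.2 ⟨a, haT, b, by rw [hR]; exact ⟨hbT, hb⟩, rfl⟩
  have hRinf : T ⊓ R = ⊥ := by
    rw [eq_bot_iff]
    rintro x ⟨hx, hx'⟩
    rw [hR] at hx'
    exact hdec.inf.le ⟨hTA hx, hx'.2⟩
  have h1 := Submodule.finrank_sup_add_finrank_inf_eq T R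
  rw [hRinf, finrank_bot, add_zero] at h1
  have h2 := Submodule.finrank_mono hle
  have h3 := Submodule.finrank_mono (sup_le hTT' (by rw [hR]; exact inf_le_left : R ≤ T'))
  have h4 := finrank_orth' hQ A
  refine ⟨R, by rw [hR]; exact inf_le_right, fun u hu => hT's u (by rw [hR] at hu; exact hu.1), ?_⟩
  omega


omit hQ in
/-- Splitting off a hyperbolic pair. -/
structure Peel (Q : (ι → F) → F) (W W₁ : Submodule F (ι → F)) (e f : ι → F) : Prop where
  he : e ∈ W
  hf : f ∈ W
  le : W₁ ≤ W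
  Qe : Q e = 0
  Qf : Q f = 0
  ef : pol Q e f = 1
  orth : ∀ w ∈ W₁, pol Q w e = 0 ∧ pol Q w f = 0
  proj : ∀ w ∈ W, w - pol Q w f • e - pol Q w e • f ∈ W₁

namespace Peel

variable {W W₁ : Submodule F (ι → F)} {e f : ι → F}

theorem ee (P : Peel Q W W₁ e f) : pol Q e e = 0 := by rw [pol_self hQ, P.Qe, mul_zero]

theorem ff (P : Peel Q W W₁ e f) : pol Q f f = 0 := by rw [pol_self hQ, P.Qf, mul_zero]

theorem fe (P : Peel Q W W₁ e f) : pol Q f e = 1 := by rw [pol_symm hQ, P.ef]

theorem finrank_eq (P : Peel Q W W₁ e f) : finrank F W₁ + 2 = finrank F W := by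
  have h1 : e ∉ W₁ := by
    intro h
    have := (P.orth e h).2
    rw [P.ef] at this
    exact one_ne_zero this
  have h2 : f ∉ W₁ ⊔ Submodule.span F {e} := by
    intro h
    obtain ⟨w, hw, x, hx, hwx⟩ := Submodule.mem_sup.1 h
    obtain ⟨c, rfl⟩ := Submodule.mem_span_singleton.1 hx
    have h3 := congrArg (fun z => pol Q z e) hwx
    simp only [pol_add_left hQ, pol_smul_left hQ, P.ee hQ, P.fe hQ, (P.orth w hw).1] at h3
    simp at h3
  have h3 : W = (W₁ ⊔ Submodule.span F {e}) ⊔ Submodule.span F {f} := by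
    apply le_antisymm
    · intro w hw
      have h4 := P.proj w hw
      have h5 : w = (w - pol Q w f • e - pol Q w e • f) + pol Q w f • e + pol Q w e • f := by abel
      rw [h5]
      refine Submodule.add_mem _ (Submodule.add_mem _ (Submodule.mem_sup_left (Submodule.mem_sup_left h4)) ?_) ?_
      · exact Submodule.mem_sup_left (Submodule.mem_sup_right (Submodule.smul_mem _ _ (Submodule.mem_span_singleton_self e)))
      · exact Submodule.mem_sup_right (Submodule.smul_mem _ _ (Submodule.mem_span_singleton_self f))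
    · refine sup_le (sup_le P.le ?_) ?_
      · rw [Submodule.span_singleton_le_iff_mem]
        exact P.he
      · rw [Submodule.span_singleton_le_iff_mem]
        exact P.hf
  rw [h3, finrank_sup_span' h2, finrank_sup_span' h1]

theorem nondeg (P : Peel Q W W₁ e f) (hW : IsNondegenerateOn (QuadraticMap.polar Q) W) :
    IsNondegenerateOn (QuadraticMap.polar Q) W₁ := by
  have key : ∀ y ∈ W₁, y ≠ 0 → ∃ x ∈ W₁, pol Q y x ≠ 0 := by
    intro y hy hy0
    obtain ⟨x, hx, hne⟩ := (hW y (P.le hy) hy0).2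
    refine ⟨_, P.proj x hx, ?_⟩
    rw [sub_eq_add_neg, sub_eq_add_neg, ← neg_smul, ← neg_smul, pol_add_right hQ, pol_add_right hQ, pol_smul_right hQ,
      pol_smul_right hQ, (P.orth y hy).1, (P.orth y hy).2]
    simpa using hne
  intro y hy hy0
  obtain ⟨x, hx, hne⟩ := key y hy hy0
  exact ⟨⟨x, hx, by rw [pol_symm hQ] at hne; exact hne⟩, ⟨x, hx, hne⟩⟩

/-- Passing to the complement of a hyperbolic pair in the orthogonal sum with a further subspace. -/
theorem sup_right (P : Peel Q W W₁ e f) {W' : Submodule F (ι → F)} (hor : ∀ a ∈ W, ∀ b ∈ W', pol Q a b = 0) :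
    Peel Q (W ⊔ W') (W₁ ⊔ W') e f := by
  refine ⟨Submodule.mem_sup_left P.he, Submodule.mem_sup_left P.hf, sup_le_sup_right P.le _, P.Qe, P.Qf, P.ef, ?_, ?_⟩
  · intro w hw
    obtain ⟨a, ha, b, hb, rfl⟩ := Submodule.mem_sup.1 hw
    rw [pol_add_left hQ, pol_add_left hQ, (P.orth a ha).1, (P.orth a ha).2, pol_symm hQ b e, pol_symm hQ b f,
      hor e P.he b hb, hor f P.hf b hb]
    simp
  · intro w hw
    obtain ⟨a, ha, b, hb, rfl⟩ := Submodule.mem_sup.1 hw
    have h1 : pol Q (a + b) f = pol Q a f := by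
      rw [pol_add_left hQ, pol_symm hQ b f, hor f P.hf b hb, add_zero]
    have h3 : pol Q (a + b) e = pol Q a e := by
      rw [pol_add_left hQ, pol_symm hQ b e, hor e P.he b hb, add_zero]
    rw [h1, h3]
    have h4 : a + b - pol Q a f • e - pol Q a e • f = (a - pol Q a f • e - pol Q a e • f) + b := by abel
    rw [h4]
    exact Submodule.add_mem _ (Submodule.mem_sup_left (P.proj a ha)) (Submodule.mem_sup_right hb)

theorem sup_left (P : Peel Q W W₁ e f) {W' : Submodule F (ι → F)} (hor : ∀ a ∈ W, ∀ b ∈ W', pol Q a b = 0) :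
    Peel Q (W' ⊔ W) (W' ⊔ W₁) e f := by
  rw [sup_comm W', sup_comm W']
  exact P.sup_right hQ hor

end Peel

/-- Hyperplanes in a subspace. -/
theorem finrank_hp (T : Submodule F (ι → F)) (c : ι → F) :
    finrank F T ≤ finrank F (T ⊓ LinearMap.ker (dualOfVec (Cfsg.Agent.Lib.Geo.Centres.formVec (pol Q) c)) : Submodule F (ι → F)) + 1 :=
  finrank_inf_ker T _

theorem mem_hp (x c : ι → F) : x ∈ LinearMap.ker (dualOfVec (Cfsg.Agent.Lib.Geo.Centres.formVec (pol Q) c)) ↔ pol Q x c = 0 := by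
  rw [LinearMap.mem_ker, dualOfVec_apply, formVec_eq hQ]

/-- The dimension of the perp inside a non-degenerate subspace. -/
theorem finrank_inf_orth' {A T : Submodule F (ι → F)} (hA : IsNondegenerateOn (QuadraticMap.polar Q) A) (hTA : T ≤ A) :
    finrank F (A ⊓ (polB hQ).orthogonal T : Submodule F (ι → F)) + finrank F T = finrank F A := by
  have hdec := orthDec_of_nd hQ hA
  have h1 : (polB hQ).orthogonal ((polB hQ).orthogonal A ⊔ T) = A ⊓ (polB hQ).orthogonal T := by
    rw [MaxSingular.QSpace.orth_sup, orth_orth hQ]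
  have h2 := finrank_orth' hQ ((polB hQ).orthogonal A ⊔ T)
  rw [h1] at h2
  have h3 := Submodule.finrank_sup_add_finrank_inf_eq ((polB hQ).orthogonal A) T
  have h4 : (polB hQ).orthogonal A ⊓ T = ⊥ := by
    rw [eq_bot_iff]
    rintro x ⟨hx, hx'⟩
    have := hdec.inf.le ⟨hTA hx', hx⟩
    exact this
  rw [h4, finrank_bot] at h3
  have h5 := finrank_orth' hQ A
  omega

/-- Totally singular subspaces of a non-degenerate subspace have at most half its dimension. -/
theorem two_finrank_le_on {A T : Submodule F (ι → F)} (hA : IsNondegenerateOn (QuadraticMap.polar Q) A) (hTA : T ≤ A)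
    (hT : IsTotallySingularQuad Q T) : 2 * finrank F T ≤ finrank F A := by
  have h1 := finrank_inf_orth' hQ hA hTA
  have h2 : T ≤ A ⊓ (polB hQ).orthogonal T := le_inf hTA ((qspace hQ).ts_le_orth hT)
  have h3 := Submodule.finrank_mono h2
  omega

namespace Peel

variable {W W₁ : Submodule F (ι → F)} {e f : ι → F}

/-- A Lagrangian through `e`. -/
theorem exists_lagrangian (P : Peel Q W W₁ e f) (hW : IsNondegenerateOn (QuadraticMap.polar Q) W) {T : Submodule F (ι → F)}
    (hTW : T ≤ W) (hT : IsTotallySingularQuad Q T) (hd : 2 * finrank F T = finrank F W) :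
    ∃ T' : Submodule F (ι → F), T' ≤ W ∧ IsTotallySingularQuad Q T' ∧ 2 * finrank F T' = finrank F W ∧ e ∈ T' := by
  by_cases heT : e ∈ T
  · exact ⟨T, hTW, hT, hd, heT⟩
  let T₀ : Submodule F (ι → F) := T ⊓ LinearMap.ker (dualOfVec (Cfsg.Agent.Lib.Geo.Centres.formVec (pol Q) e))
  have h1 : finrank F T ≤ finrank F T₀ + 1 := finrank_hp hQ T e
  have heT₀ : e ∉ T₀ := fun h => heT h.1
  have hT₀' : e ∈ (polB hQ).orthogonal T₀ := by
    rw [mem_orth_iff hQ]
    rintro u ⟨-, hu⟩
    rw [pol_symm hQ]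
    exact (mem_hp hQ u e).1 hu
  have hT₀ts : MaxSingular.TS Q T₀ := fun u hu => hT u hu.1
  have hts : MaxSingular.TS Q (T₀ ⊔ Submodule.span F {e}) :=
    (qspace hQ).ts_sup_span hT₀ts hT₀' P.Qe
  have hle : T₀ ⊔ Submodule.span F {e} ≤ W := by
    refine sup_le (inf_le_left.trans hTW) ?_
    rw [Submodule.span_singleton_le_iff_mem]
    exact P.he
  have h2 := two_finrank_le_on hQ hW hle hts
  rw [finrank_sup_span' heT₀] at h2
  refine ⟨_, hle, hts, ?_, Submodule.mem_sup_right (Submodule.mem_span_singleton_self e)⟩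
  rw [finrank_sup_span' heT₀]
  omega

/-- The plus type passes to the complement of a hyperbolic pair, and back. -/
theorem plus_iff (P : Peel Q W W₁ e f) (hW : IsNondegenerateOn (QuadraticMap.polar Q) W) :
    IsPlusTypeOn Q W ↔ IsPlusTypeOn Q W₁ := by
  have hfr := P.finrank_eq hQ
  have hW₁ := P.nondeg hQ hW
  constructor
  · rintro ⟨T₀, hT₀W, hT₀, hd₀⟩
    obtain ⟨T, hTW, hT, hd, heT⟩ := P.exists_lagrangian hQ hW hT₀W hT₀ hd₀
    let T₁ : Submodule F (ι → F) := T ⊓ LinearMap.ker (dualOfVec (Cfsg.Agent.Lib.Geo.Centres.formVec (pol Q) f))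
    have h1 : finrank F T ≤ finrank F T₁ + 1 := finrank_hp hQ T f
    have hle : T₁ ≤ W₁ := by
      rintro u ⟨hu, huf⟩
      have h3 := P.proj u (hTW hu)
      have huf' : pol Q u f = 0 := (mem_hp hQ u f).1 huf
      have hue : pol Q u e = 0 := (qspace hQ).ts_polar hT hu heT
      rw [huf', hue, zero_smul, zero_smul, sub_zero, sub_zero] at h3
      exact h3
    have hts : IsTotallySingularQuad Q T₁ := fun u hu => hT u hu.1
    have h2 := two_finrank_le_on hQ hW₁ hle hts
    exact ⟨T₁, hle, hts, by omega⟩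
  · rintro ⟨T₁, hT₁W, hT₁, hd₁⟩
    have heT₁ : e ∉ T₁ := by
      intro h
      have := (P.orth e (hT₁W h)).2
      rw [P.ef] at this
      exact one_ne_zero this
    have hT₁' : e ∈ (polB hQ).orthogonal T₁ := by
      rw [mem_orth_iff hQ]
      intro u hu
      rw [pol_symm hQ]
      exact (P.orth u (hT₁W hu)).1
    refine ⟨T₁ ⊔ Submodule.span F {e}, ?_, (qspace hQ).ts_sup_span hT₁ hT₁' P.Qe, ?_⟩
    · refine sup_le (hT₁W.trans P.le) ?_
      rw [Submodule.span_singleton_le_iff_mem]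
      exact P.he
    · rw [finrank_sup_span' heT₁]
      omega

/-- Isometries extend over a hyperbolic pair. -/
theorem iso {W' W₁' : Submodule F (ι → F)} {e' f' : ι → F} (P : Peel Q W W₁ e f) (P' : Peel Q W' W₁' e' f')
    (hW : IsNondegenerateOn (QuadraticMap.polar Q) W) (h : AreIsometricFor Q W₁ W₁') : AreIsometricFor Q W W' := by
  classical
  obtain ⟨φ, hφ⟩ := h
  let pr : W →ₗ[F] W₁ :=
    { toFun := fun w => ⟨(w : ι → F) - pol Q (w : ι → F) f • e - pol Q (w : ι → F) e • f, P.proj w w.2⟩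
      map_add' := fun a b => by
        apply Subtype.ext
        simp only [Submodule.coe_add, pol_add_left hQ, add_smul]
        abel
      map_smul' := fun c a => by
        apply Subtype.ext
        simp only [Submodule.coe_smul, RingHom.id_apply, pol_smul_left hQ, smul_sub, mul_smul]
        }
  let L : W →ₗ[F] W' :=
    { toFun := fun w => ⟨((φ (pr w) : W₁') : ι → F) + pol Q (w : ι → F) f • e' + pol Q (w : ι → F) e • f',
        W'.add_mem (W'.add_mem (P'.le (φ (pr w)).2) (W'.smul_mem _ P'.he)) (W'.smul_mem _ P'.hf)⟩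
      map_add' := fun a b => by
        apply Subtype.ext
        simp only [map_add, Submodule.coe_add, pol_add_left hQ, add_smul]
        abel
      map_smul' := fun c a => by
        apply Subtype.ext
        simp only [map_smul, Submodule.coe_smul, RingHom.id_apply, pol_smul_left hQ, smul_add, mul_smul] }
  have hLa : ∀ w : W, ((L w : W') : ι → F) = ((φ (pr w) : W₁') : ι → F) + pol Q (w : ι → F) f • e' + pol Q (w : ι → F) e • f' := fun _ => rfl
  have hprv : ∀ w : W, (w : ι → F) = ((pr w : W₁) : ι → F) + pol Q (w : ι → F) f • e + pol Q (w : ι → F) e • f := by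
    intro w
    change (w : ι → F) = ((w : ι → F) - pol Q (w : ι → F) f • e - pol Q (w : ι → F) e • f) + pol Q (w : ι → F) f • e + pol Q (w : ι → F) e • f
    abel
  have hsum : ∀ {W₂ W₂' : Submodule F (ι → F)} {e₂ f₂ : ι → F} (P₂ : Peel Q W₂ W₂' e₂ f₂) (x : ι → F) (hx : x ∈ W₂') (α β : F),
      Q (x + α • e₂ + β • f₂) = Q x + α * β := by
    intro W₂ W₂' e₂ f₂ P₂ x hx α β
    rw [Q_add hQ, Q_add hQ, hQ.smul, hQ.smul, P₂.Qe, P₂.Qf, pol_smul_right hQ, pol_add_left hQ, pol_smul_right hQ,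
      pol_smul_right hQ, pol_smul_left hQ, P₂.ef, (P₂.orth x hx).1, (P₂.orth x hx).2]
    ring
  have hLQ : ∀ w : W, Q ((L w : W') : ι → F) = Q (w : ι → F) := by
    intro w
    rw [hLa, hsum P' _ (φ (pr w)).2, hφ]
    conv_rhs => rw [hprv w]
    rw [hsum P _ (pr w).2]
  have hLpol : ∀ u v : W, pol Q ((L u : W') : ι → F) ((L v : W') : ι → F) = pol Q (u : ι → F) (v : ι → F) := by
    intro u v
    have h1 := hLQ (u + v)
    rw [map_add, Submodule.coe_add, Submodule.coe_add, Q_add hQ, Q_add hQ, hLQ, hLQ] at h1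
    linear_combination h1
  have hinj : Function.Injective L := by
    rw [injective_iff_map_eq_zero]
    intro w hw
    by_contra hw0
    have hw0' : (w : ι → F) ≠ 0 := fun h => hw0 (Subtype.ext h)
    obtain ⟨x, hx, hne⟩ := (hW _ w.2 hw0').2
    apply hne
    have h1 := hLpol w ⟨x, hx⟩
    rw [hw, Submodule.coe_zero, pol_zero_left hQ] at h1
    exact h1.symm
  have hfin : finrank F W = finrank F W' := by
    rw [← P.finrank_eq hQ, ← P'.finrank_eq hQ, φ.finrank_eq]
  exact ⟨LinearMap.linearEquivOfInjective L hinj hfin, fun w => hLQ w⟩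

/-- Transport along an isometry. -/
theorem map_iso {W₀ W' : Submodule F (ι → F)} (φ : W₀ ≃ₗ[F] W') (hφ : ∀ x : W₀, Q ((φ x : W') : ι → F) = Q (x : ι → F))
    (P : Peel Q W W₁ e f) (hW : W ≤ W₀) :
    Peel Q ((W.comap W₀.subtype).map (W'.subtype ∘ₗ φ.toLinearMap)) ((W₁.comap W₀.subtype).map (W'.subtype ∘ₗ φ.toLinearMap))
      ((φ ⟨e, hW P.he⟩ : W') : ι → F) ((φ ⟨f, hW P.hf⟩ : W') : ι → F) := by
  have hpol := pol_isometric hQ φ hφ
  refine ⟨⟨⟨e, hW P.he⟩, P.he, rfl⟩, ⟨⟨f, hW P.hf⟩, P.hf, rfl⟩, Submodule.map_mono (Submodule.comap_mono P.le), ?_, ?_, ?_, ?_, ?_⟩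
  · rw [hφ]
    exact P.Qe
  · rw [hφ]
    exact P.Qf
  · rw [hpol]
    exact P.ef
  · rintro _ ⟨w, hw, rfl⟩
    have h1 := P.orth w hw
    simp only [LinearMap.comp_apply, Submodule.subtype_apply]
    constructor
    · refine Eq.trans (hpol w ⟨e, hW P.he⟩) h1.1
    · refine Eq.trans (hpol w ⟨f, hW P.hf⟩) h1.2
  · rintro _ ⟨w, hw, rfl⟩
    simp only [LinearMap.comp_apply, Submodule.subtype_apply]
    rw [show pol Q ((φ.toLinearMap w : W') : ι → F) ((φ ⟨f, hW P.hf⟩ : W') : ι → F) = pol Q (w : ι → F) f from hpol w ⟨f, hW P.hf⟩,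
      show pol Q ((φ.toLinearMap w : W') : ι → F) ((φ ⟨e, hW P.he⟩ : W') : ι → F) = pol Q (w : ι → F) e from hpol w ⟨e, hW P.he⟩]
    refine ⟨w - pol Q (w : ι → F) f • ⟨e, hW P.he⟩ - pol Q (w : ι → F) e • ⟨f, hW P.hf⟩, ?_, ?_⟩
    · exact P.proj w hw
    · simp only [LinearMap.comp_apply, Submodule.subtype_apply, map_sub, map_smul, Submodule.coe_sub, Submodule.coe_smul]
      rfl

end Peel

/-- Hyperbolic pairs split off from non-degenerate subspaces of dimension at least three. -/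
theorem exists_peel [Fintype F] {W : Submodule F (ι → F)} (hW : IsNondegenerateOn (QuadraticMap.polar Q) W)
    (h3 : 3 ≤ finrank F W) : ∃ (W₁ : Submodule F (ι → F)) (e f : ι → F), Peel Q W W₁ e f := by
  obtain ⟨e, he, he0, hQe⟩ := exists_singular hQ W h3
  obtain ⟨f, hf, hQf, hef⟩ := exists_partner hQ (ndOn_of_nondeg hQ hW) he he0 hQe
  have hee : pol Q e e = 0 := by rw [pol_self hQ, hQe, mul_zero]
  have hff : pol Q f f = 0 := by rw [pol_self hQ, hQf, mul_zero]
  have hfe : pol Q f e = 1 := by rw [pol_symm hQ, hef]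
  let W₁ : Submodule F (ι → F) :=
    { carrier := {w | w ∈ W ∧ pol Q w e = 0 ∧ pol Q w f = 0}
      add_mem' := by
        rintro a b ⟨ha, ha1, ha2⟩ ⟨hb, hb1, hb2⟩
        exact ⟨W.add_mem ha hb, by rw [pol_add_left hQ, ha1, hb1, add_zero], by rw [pol_add_left hQ, ha2, hb2, add_zero]⟩
      zero_mem' := ⟨W.zero_mem, pol_zero_left hQ _, pol_zero_left hQ _⟩
      smul_mem' := by
        rintro c a ⟨ha, ha1, ha2⟩
        exact ⟨W.smul_mem c ha, by rw [pol_smul_left hQ, ha1, mul_zero], by rw [pol_smul_left hQ, ha2, mul_zero]⟩ }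
  refine ⟨W₁, e, f, he, hf, fun x hx => hx.1, hQe, hQf, hef, fun w hw => hw.2, fun w hw => ⟨?_, ?_, ?_⟩⟩
  · exact W.sub_mem (W.sub_mem hw (W.smul_mem _ he)) (W.smul_mem _ hf)
  · rw [sub_eq_add_neg, sub_eq_add_neg, ← neg_smul, ← neg_smul, pol_add_left hQ, pol_add_left hQ, pol_smul_left hQ,
      pol_smul_left hQ, hee, hfe]
    ring
  · rw [sub_eq_add_neg, sub_eq_add_neg, ← neg_smul, ← neg_smul, pol_add_left hQ, pol_add_left hQ, pol_smul_left hQ,
      pol_smul_left hQ, hef, hff]
    ring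


omit hQ in
/-- Two lines spanned by vectors with the same value are isometric. -/
theorem iso_line {x y : ι → F} (hx : x ≠ 0) (hy : y ≠ 0) (hxy : Q y = Q x) (hsm : ∀ (c : F) (v : ι → F), Q (c • v) = c * c * Q v) :
    AreIsometricFor Q (Submodule.span F {x}) (Submodule.span F {y}) := by
  refine ⟨(LinearEquiv.toSpanNonzeroSingleton F _ x hx).symm.trans (LinearEquiv.toSpanNonzeroSingleton F _ y hy), ?_⟩
  rintro ⟨w, hw⟩
  obtain ⟨t, rfl⟩ := Submodule.mem_span_singleton.1 hw
  have h1 : (LinearEquiv.toSpanNonzeroSingleton F _ x hx).symm ⟨t • x, hw⟩ = t := by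
    rw [LinearEquiv.symm_apply_eq]
    apply Subtype.ext
    simp [LinearEquiv.toSpanNonzeroSingleton_apply]
  simp only [LinearEquiv.trans_apply, h1, LinearEquiv.toSpanNonzeroSingleton_apply]
  rw [hsm, hsm, hxy]

/-- The plus type through a chain of hyperbolic pairs on both sides. -/
theorem plus_chain {W W₁ W₂ W' W₁' W₂' : Submodule F (ι → F)} {e₁ f₁ e₂ f₂ e₁' f₁' e₂' f₂' : ι → F}
    (hor : ∀ a ∈ W, ∀ b ∈ W', pol Q a b = 0) (hsup : W ⊔ W' = ⊤)
    (P₁ : Peel Q W W₁ e₁ f₁) (P₂ : Peel Q W₁ W₂ e₂ f₂) (P₁' : Peel Q W' W₁' e₁' f₁') (P₂' : Peel Q W₁' W₂' e₂' f₂') :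
    IsPlusTypeOn Q ⊤ ↔ IsPlusTypeOn Q (W₂ ⊔ W₂') := by
  have hnd : IsNondegenerateOn (QuadraticMap.polar Q) (W ⊔ W') := by
    rw [hsup]
    intro v _ hv0
    obtain ⟨⟨x, hx⟩, ⟨y, hy⟩⟩ := hQ.nondegenerate v hv0
    exact ⟨⟨x, trivial, hx⟩, ⟨y, trivial, hy⟩⟩
  have S₁ := P₁.sup_right hQ hor
  have S₂ := P₂.sup_right hQ (W' := W') (fun a ha b hb => hor a (P₁.le ha) b hb)
  have hor₂ : ∀ a ∈ W₂, ∀ b ∈ W', pol Q b a = 0 := fun a ha b hb => by
    rw [pol_symm hQ]
    exact hor a (P₁.le (P₂.le ha)) b hb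
  have S₃ := P₁'.sup_left hQ (W' := W₂) (fun a ha b hb => hor₂ b hb a ha)
  have S₄ := P₂'.sup_left hQ (W' := W₂) (fun a ha b hb => hor₂ b hb a (P₁'.le ha))
  have n₁ := S₁.nondeg hQ hnd
  have n₂ := S₂.nondeg hQ n₁
  have n₃ := S₃.nondeg hQ n₂
  rw [← hsup, S₁.plus_iff hQ hnd, S₂.plus_iff hQ n₁, S₃.plus_iff hQ n₂, S₄.plus_iff hQ n₃]

omit hQ in
/-- Binary diagonal forms. -/
theorem binary_iso {a b : F} (ha : a ≠ 0) (hb : b ≠ 0) :
    (∃ s t : F, (s ≠ 0 ∨ t ≠ 0) ∧ s ^ 2 * a + t ^ 2 * b = 0) ↔ IsSquare (- (b / a)) := by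
  constructor
  · rintro ⟨s, t, hst, h⟩
    have ht : t ≠ 0 := by
      rintro rfl
      have hs : s ≠ 0 := by simpa using hst
      have : s ^ 2 * a = 0 := by simpa using h
      exact mul_ne_zero (pow_ne_zero 2 hs) ha this
    refine ⟨s / t, ?_⟩
    field_simp
    linear_combination -h
  · rintro ⟨s, hs⟩
    refine ⟨s, 1, Or.inr one_ne_zero, ?_⟩
    have h1 : s ^ 2 * a = - b := by
      rw [pow_two, ← hs]
      field_simp
    rw [h1]
    ring

/-- Half dimensional non-degenerate subspaces in dimension ten. -/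
theorem plus_iff_five [Fintype F] (h2 : (2 : F) ≠ 0) (hc : Fintype.card ι = 10) {W : Submodule F (ι → F)}
    (hW : IsNondegenerateOn (QuadraticMap.polar Q) W) (h5 : finrank F W = 5) :
    IsPlusTypeOn Q ⊤ ↔ (AreIsometricFor Q W ((polB hQ).orthogonal W) ↔ Fintype.card F % 4 = 1) := by
  classical
  have hdec := orthDec_of_nd hQ hW
  obtain ⟨hW', hfr'⟩ := perp_facts hQ hW
  have h5' : finrank F ((polB hQ).orthogonal W) = 5 := by omega
  set W' := (polB hQ).orthogonal W with hW'def
  have hodd : Fintype.card F % 2 = 1 := by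
    apply FiniteField.odd_card_of_char_ne_two
    intro h
    apply h2
    have := ringChar.Nat.cast_ringChar (R := F)
    rw [h] at this
    exact_mod_cast this
  -- the data of one side
  have hline : ∀ {X : Submodule F (ι → F)}, IsNondegenerateOn (QuadraticMap.polar Q) X → finrank F X = 1 →
      ∃ x ∈ X, x ≠ 0 ∧ Q x ≠ 0 ∧ X = Submodule.span F {x} := by
    intro X hX hX1
    have hne : X ≠ ⊥ := by
      intro h
      rw [h, finrank_bot] at hX1
      omega
    obtain ⟨x, hx, hx0⟩ := Submodule.exists_mem_ne_zero_of_ne_bot hne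
    have hXs : X = Submodule.span F {x} := by
      symm
      apply Submodule.eq_of_le_of_finrank_eq
      · rw [Submodule.span_singleton_le_iff_mem]
        exact hx
      · rw [finrank_span_singleton hx0, hX1]
    refine ⟨x, hx, hx0, ?_, hXs⟩
    intro hQx
    obtain ⟨y, hy, hne'⟩ := (hX x hx hx0).2
    rw [hXs] at hy
    obtain ⟨c, rfl⟩ := Submodule.mem_span_singleton.1 hy
    apply hne'
    change pol Q x (c • x) = 0
    rw [pol_smul_right hQ, pol_self hQ, hQx]
    ring
  -- the plane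
  have hplane : ∀ {x x' : ι → F}, x ∈ W → x' ∈ W' → x ≠ 0 → x' ≠ 0 →
      (IsPlusTypeOn Q (Submodule.span F {x} ⊔ Submodule.span F {x'}) ↔
        ∃ s t : F, (s ≠ 0 ∨ t ≠ 0) ∧ s ^ 2 * Q x + t ^ 2 * Q x' = 0) := by
    intro x x' hx hx' hx0 hx'0
    have hxx' : pol Q x x' = 0 := hdec.orth x hx x' hx'
    have hQcomb : ∀ s t : F, Q (s • x + t • x') = s ^ 2 * Q x + t ^ 2 * Q x' := by
      intro s t
      rw [Q_add hQ, hQ.smul, hQ.smul, pol_smul_left hQ, pol_smul_right hQ, hxx']
      ring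
    have hne : ∀ s t : F, (s ≠ 0 ∨ t ≠ 0) → s • x + t • x' ≠ 0 := by
      intro s t hst h0
      have h3 : s • x ∈ W ⊓ W' := by
        refine ⟨W.smul_mem s hx, ?_⟩
        have h4 : s • x = (-t) • x' := by
          rw [neg_smul]
          exact eq_neg_of_add_eq_zero_left h0
        rw [h4]
        exact W'.smul_mem _ hx'
      have h4 : s • x = 0 := by
        rw [hdec.inf] at h3
        exact (Submodule.mem_bot F).1 h3
      have h5 : t • x' = 0 := by
        rw [h4, zero_add] at h0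
        exact h0
      rcases hst with hs | ht
      · exact (smul_ne_zero hs hx0) h4
      · exact (smul_ne_zero ht hx'0) h5
    have hfin : finrank F (Submodule.span F {x} ⊔ Submodule.span F {x'} : Submodule F (ι → F)) = 2 := by
      have hnm : x' ∉ Submodule.span F {x} := by
        intro h
        obtain ⟨c, hc'⟩ := Submodule.mem_span_singleton.1 h
        have h3 := hne (-c) 1 (Or.inr one_ne_zero)
        apply h3
        rw [one_smul, ← hc', neg_smul]
        abel
      rw [finrank_sup_span' hnm, finrank_span_singleton hx0]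
    constructor
    · rintro ⟨U, hUX, hU, hUd⟩
      have hU1 : finrank F U = 1 := by omega
      have hUne : U ≠ ⊥ := by
        intro h
        rw [h, finrank_bot] at hU1
        omega
      obtain ⟨y, hy, hy0⟩ := Submodule.exists_mem_ne_zero_of_ne_bot hUne
      obtain ⟨u, hu, v, hv, rfl⟩ := Submodule.mem_sup.1 (hUX hy)
      obtain ⟨s, rfl⟩ := Submodule.mem_span_singleton.1 hu
      obtain ⟨t, rfl⟩ := Submodule.mem_span_singleton.1 hv
      refine ⟨s, t, ?_, ?_⟩
      · by_contra hcon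
        push Not at hcon
        rw [hcon.1, hcon.2] at hy0
        simp at hy0
      · rw [← hQcomb]
        exact hU _ hy
    · rintro ⟨s, t, hst, h⟩
      refine plus_of_singular hQ hfin (y := s • x + t • x') ?_ (hne s t hst) (by rw [hQcomb, h])
      exact Submodule.add_mem _ (Submodule.mem_sup_left (Submodule.smul_mem _ _ (Submodule.mem_span_singleton_self x)))
        (Submodule.mem_sup_right (Submodule.smul_mem _ _ (Submodule.mem_span_singleton_self x')))
  -- the frames of `W`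
  obtain ⟨W₁, e₁, f₁, P₁⟩ := exists_peel hQ hW (by omega)
  have hW₁ := P₁.nondeg hQ hW
  have hfr₁ := P₁.finrank_eq hQ
  obtain ⟨W₂, e₂, f₂, P₂⟩ := exists_peel hQ hW₁ (by omega)
  have hW₂ := P₂.nondeg hQ hW₁
  have hfr₂ := P₂.finrank_eq hQ
  obtain ⟨x, hx, hx0, hQx, hxs⟩ := hline hW₂ (by omega)
  have hxW : x ∈ W := P₁.le (P₂.le hx)
  by_cases hiso : AreIsometricFor Q W W'
  · -- the isometric case
    obtain ⟨φ, hφ⟩ := id hiso
    have himg : (W.comap W.subtype).map (W'.subtype ∘ₗ φ.toLinearMap) = W' := by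
      apply le_antisymm
      · rintro _ ⟨w, -, rfl⟩
        exact (φ w).2
      · intro y hy
        obtain ⟨w, hw⟩ := φ.surjective ⟨y, hy⟩
        refine ⟨w, by simp, ?_⟩
        simp only [LinearMap.comp_apply, Submodule.subtype_apply]
        exact congrArg Subtype.val hw
    have P₁' := P₁.map_iso hQ φ hφ le_rfl
    rw [himg] at P₁'
    have P₂' := P₂.map_iso hQ φ hφ P₁.le
    set x' : ι → F := ((φ ⟨x, hxW⟩ : W') : ι → F) with hx'
    have hQx' : Q x' = Q x := hφ _
    have hx'0 : x' ≠ 0 := by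
      intro h0
      rw [h0, Q_zero hQ] at hQx'
      exact hQx hQx'.symm
    have hx'W : x' ∈ W' := (φ _).2
    have hW₂' : (W₂.comap W.subtype).map (W'.subtype ∘ₗ φ.toLinearMap) = Submodule.span F {x'} := by
      apply le_antisymm
      · rintro _ ⟨w, hw, rfl⟩
        have hw' : (w : ι → F) ∈ W₂ := hw
        rw [hxs] at hw'
        obtain ⟨c, hc'⟩ := Submodule.mem_span_singleton.1 hw'
        have h3 : w = c • (⟨x, hxW⟩ : W) := Subtype.ext hc'.symm
        rw [h3]
        simp only [LinearMap.comp_apply, Submodule.subtype_apply, map_smul, Submodule.coe_smul]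
        exact Submodule.smul_mem _ _ (Submodule.mem_span_singleton_self _)
      · rw [Submodule.span_singleton_le_iff_mem]
        exact ⟨⟨x, hxW⟩, hx, rfl⟩
    rw [hW₂'] at P₂'
    rw [plus_chain hQ hdec.orth hdec.sup P₁ P₂ P₁' P₂', hxs, hplane hxW hx'W hx0 hx'0, binary_iso hQx (by rw [hQx']; exact hQx), hQx',
      div_self hQx]
    have h4 := FiniteField.isSquare_neg_one_iff (F := F)
    simp only [hiso, true_iff]
    rw [h4]
    omega
  · -- the non-isometric case
    obtain ⟨W₁', e₁', f₁', P₁'⟩ := exists_peel hQ hW' (by omega)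
    have hW₁' := P₁'.nondeg hQ hW'
    have hfr₁' := P₁'.finrank_eq hQ
    obtain ⟨W₂', e₂', f₂', P₂'⟩ := exists_peel hQ hW₁' (by omega)
    have hW₂' := P₂'.nondeg hQ hW₁'
    have hfr₂' := P₂'.finrank_eq hQ
    obtain ⟨x', hx', hx'0, hQx', hxs'⟩ := hline hW₂' (by omega)
    have hx'W : x' ∈ W' := P₁'.le (P₂'.le hx')
    have hnsq : ¬ IsSquare (Q x' / Q x) := by
      rintro ⟨c, hc'⟩
      have hc0 : c ≠ 0 := by
        rintro rfl
        rw [mul_zero] at hc'
        exact (div_ne_zero hQx' hQx) hc'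
      have hx'' : c⁻¹ • x' ≠ 0 := smul_ne_zero (inv_ne_zero hc0) hx'0
      have hQ'' : Q (c⁻¹ • x') = Q x := by
        rw [hQ.smul]
        have h3 : Q x' = c * c * Q x := by
          rw [← hc']
          field_simp
        rw [h3]
        field_simp
      have hsp : Submodule.span F {x'} = Submodule.span F {c⁻¹ • x'} := (Submodule.span_singleton_smul_eq (IsUnit.mk0 _ (inv_ne_zero hc0)) x').symm
      have hb : AreIsometricFor Q W₂ W₂' := by
        rw [hxs, hxs', hsp]
        exact iso_line hx0 hx'' hQ'' (fun c' v => by rw [hQ.smul]; ring)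
      exact hiso (P₁.iso hQ P₁' hW (P₂.iso hQ P₂' hW₁ hb))
    rw [plus_chain hQ hdec.orth hdec.sup P₁ P₂ P₁' P₂', hxs, hxs', hplane hxW hx'W hx0 hx'0, binary_iso hQx hQx']
    simp only [hiso, false_iff]
    -- quadratic characters
    have hch : ringChar F ≠ 2 := by
      intro h
      apply h2
      have := ringChar.Nat.cast_ringChar (R := F)
      rw [h] at this
      exact_mod_cast this
    have hr0 : Q x' / Q x ≠ 0 := div_ne_zero hQx' hQx
    have h6 : quadraticChar F (Q x' / Q x) = -1 := quadraticChar_neg_one_iff_not_isSquare.2 hnsq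
    have h7 : IsSquare (- (Q x' / Q x)) ↔ quadraticChar F (-1) = -1 := by
      rw [← quadraticChar_one_iff_isSquare (neg_ne_zero.2 hr0), ← neg_one_mul, map_mul, h6]
      constructor
      · intro h
        linear_combination -h
      · intro h
        rw [h]
        norm_num
    rw [h7, quadraticChar_neg_one_iff_not_isSquare, FiniteField.isSquare_neg_one_iff]
    omega

end Cfsg.Agent.Lib.CmaxE.Five
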