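import Mathlib
import Cfsg.Agent.Lib.CmaxE.Five
import Cfsg.Agent.Lib.CmaxS.Proper2

/-!
# Quadratic fields of unitary type: similarities, and the type of the form
-/

set_option autoImplicit false

namespace Cfsg.Agent.Lib.CmaxE.Uni

open Matrix Module Cfsg Cfsg.Geo
open Cfsg.Agent.Lib.Geo.Basic Cfsg.Agent.Lib.Geo.Polar Cfsg.Agent.Lib.Geo.QForm
open Cfsg.Agent.Lib.GeoOmega.Basic Cfsg.Agent.Lib.AschF.OmegaP Cfsg.Agent.Lib.QuadFn
open Cfsg.Agent.Lib.GeoOmega.Nondeg Cfsg.Agent.Lib.GeoOmega.NondegW Cfsg.Agent.Lib.GeoOmega.Singular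
open Cfsg.Agent.Lib.AschF.Adj
open Cfsg.Agent.Lib.AschF.OddA (polar_isom Q_isom card_eq_of_decomp hf_polar)
open Cfsg.Agent.Lib.CmaxE.Core Cfsg.Agent.Lib.CmaxE.Proper Cfsg.Agent.Lib.CmaxE.Plus Cfsg.Agent.Lib.CmaxE.Common
open Cfsg.Agent.Lib.CmaxE.Five
open Cfsg.Agent.Lib.CmaxE.Ten (exists_functional)
open Cfsg.Agent.Lib.CmaxS.Proper2 (KL mem_KL finrank_KL exists_inv)

universe u

variable {ι : Type} [Fintype ι] [DecidableEq ι] {F : Type u} [Field F] {Q : (ι → F) → F}

/-- The adjoint of a quadratic field that is not self-adjoint fixes the scalars only. -/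
theorem fix_scalar {f : (ι → F) → (ι → F) → F} {ε : F} (hf : HF (RingEquiv.refl F) ε f) {K : Subalgebra F (Matrix ι ι F)}
    (hK : IsFieldSubalgebra 2 K) (hadj : IsAdjointClosedFor f K) (hns : ¬ IsSelfAdjointFor f K) :
    (∀ k ∈ K, Ad (RingEquiv.refl F) f k ∈ K) ∧
    ∃ x ∈ K, Ad (RingEquiv.refl F) f x ≠ x ∧ ∀ y ∈ K, Ad (RingEquiv.refl F) f y = y → ∃ d : F, y = d • 1 := by
  classical
  have hAdK : ∀ k ∈ K, Ad (RingEquiv.refl F) f k ∈ K := by
    intro k hk
    obtain ⟨k', hk', h⟩ := hadj k hk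
    rw [← ad_unique hf h]
    exact hk'
  have hAds : ∀ (c : F) (k : Matrix ι ι F), Ad (RingEquiv.refl F) f (c • k) = c • Ad (RingEquiv.refl F) f k := fun c k => ad_smul hf c k
  obtain ⟨x, hx, hxne⟩ : ∃ x ∈ K, Ad (RingEquiv.refl F) f x ≠ x := by
    by_contra hcon
    push Not at hcon
    apply hns
    intro k hk u v
    conv_rhs => rw [← hcon k hk]
    exact ad_spec hf k u v
  refine ⟨hAdK, x, hx, hxne, ?_⟩
  have hxsc : ∀ c : F, x ≠ c • 1 := by
    rintro c rfl
    apply hxne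
    rw [hAds, ad_one hf]
  let T : (F × F) →ₗ[F] K :=
    { toFun := fun a => a.1 • (⟨x, hx⟩ : K) + a.2 • (1 : K)
      map_add' := fun a b => by simp only [Prod.fst_add, Prod.snd_add, add_smul]; abel
      map_smul' := fun c a => by simp only [Prod.smul_fst, Prod.smul_snd, smul_eq_mul, mul_smul, smul_add, RingHom.id_apply] }
  have hTv : ∀ a : F × F, ((T a : K) : Matrix ι ι F) = a.1 • x + a.2 • 1 := fun _ => rfl
  have hTinj : Function.Injective T := by
    rw [← LinearMap.ker_eq_bot, LinearMap.ker_eq_bot']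
    rintro ⟨b, c⟩ hT
    have hT' : b • x + c • (1 : Matrix ι ι F) = 0 := by
      have := congrArg Subtype.val hT
      simpa [hTv] using this
    have hb : b = 0 := by
      by_contra hb
      apply hxsc (-(c / b))
      have h3 : b • x = (-c) • (1 : Matrix ι ι F) := by
        rw [neg_smul]
        exact eq_neg_of_add_eq_zero_left hT'
      have h4 : x = b⁻¹ • (b • x) := by rw [smul_smul, inv_mul_cancel₀ hb, one_smul]
      rw [h4, h3, smul_smul]
      congr 1
      field_simp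
    subst hb
    rw [zero_smul, zero_add] at hT'
    have hc : c = 0 := by
      by_contra hc
      have h3 : (1 : Matrix ι ι F) = c⁻¹ • (c • 1) := by rw [smul_smul, inv_mul_cancel₀ hc, one_smul]
      rw [hT', smul_zero] at h3
      have hx0 : x = (0 : F) • (1 : Matrix ι ι F) := by
        rw [zero_smul, ← mul_one x, h3, mul_zero]
      exact hxsc 0 hx0
    rw [hc]
    rfl
  have hfinM : Module.Finite F K := by
    have hne : finrank F K ≠ 0 := by
      rw [hK.finrank_eq]
      norm_num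
    exact Module.finite_of_finrank_pos (Nat.pos_of_ne_zero hne)
  have hTsurj : Function.Surjective T := by
    refine (LinearMap.injective_iff_surjective_of_finrank_eq_finrank ?_).1 hTinj
    rw [hK.finrank_eq, Module.finrank_prod, Module.finrank_self]
  intro y hy hyy
  obtain ⟨⟨a, b⟩, hab⟩ := hTsurj ⟨y, hy⟩
  have h3 : y = a • x + b • 1 := by
    have := congrArg Subtype.val hab
    rw [hTv] at this
    exact this.symm
  have h4 : a • (Ad (RingEquiv.refl F) f x - x) = 0 := by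
    have h5 : Ad (RingEquiv.refl F) f y = a • Ad (RingEquiv.refl F) f x + b • 1 := by
      rw [h3, ad_add hf, hAds, hAds, ad_one hf]
    have h6 : a • Ad (RingEquiv.refl F) f x + b • 1 = a • x + b • 1 := by
      rw [← h5, hyy, ← h3]
    rw [smul_sub, sub_eq_zero]
    exact add_right_cancel h6
  have ha : a = 0 := by
    by_contra ha
    apply hxne
    have := (smul_eq_zero.1 h4).resolve_left ha
    exact sub_eq_zero.1 this
  refine ⟨b, ?_⟩
  rw [h3, ha, zero_smul, zero_add]

variable (hQ : IsNondegenerateQuadraticForm Q)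
include hQ

/-- Quadratic fields of unitary type act by similarities of the quadratic form. -/
theorem sim_of_unitary [Finite F] {H : Subgroup (GL ι F)} (hHI : H ≤ isometryGroup F Q)
    (hirr : ∀ W : Submodule F (ι → F), (∀ g ∈ H, ∀ v ∈ W, (g : Matrix ι ι F) *ᵥ v ∈ W) → W = ⊥ ∨ W = ⊤)
    (hι : 2 ≤ Fintype.card ι) {K : Subalgebra F (Matrix ι ι F)} (hK : IsFieldSubalgebra 2 K)
    (hadj : IsAdjointClosedFor (pol Q) K) (hns : ¬ IsSelfAdjointFor (pol Q) K) (hle : H ≤ subalgebraNormalizer K) :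
    ∀ k ∈ K, ∃ c : F, ∀ v, Q (k *ᵥ v) = c * Q v := by
  classical
  have hf := hf_polar hQ
  obtain ⟨hAdK, x, hx, hxne, hfixF⟩ := fix_scalar hf hK hadj hns
  set A := Ad (RingEquiv.refl F) (pol Q) with hA
  have hAmul : ∀ a b, A (a * b) = A b * A a := fun a b => ad_mul hf a b
  have hAadd : ∀ a b, A (a + b) = A a + A b := fun a b => ad_add hf a b
  have hAA : ∀ a, A (A a) = a := fun a => ad_ad hf a
  have hspec : ∀ (k : Matrix ι ι F) u v, pol Q (k *ᵥ u) v = pol Q u (A k *ᵥ v) := fun k u v => ad_spec hf k u v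
  have hspec' : ∀ (k : Matrix ι ι F) u v, pol Q u (k *ᵥ v) = pol Q (A k *ᵥ u) v := by
    intro k u v
    have := ad_spec hf (A k) u v
    rw [ad_ad hf] at this
    exact this.symm
  intro k hk
  obtain ⟨c, hc⟩ := hfixF (A k * k) (K.mul_mem (hAdK k hk) hk) (by
    rw [hAmul, hAA])
  have hkk : ∀ u v, pol Q (k *ᵥ u) (k *ᵥ v) = c * pol Q u v := by
    intro u v
    rw [hspec, Matrix.mulVec_mulVec, hc, Matrix.smul_mulVec, Matrix.one_mulVec, pol_smul_right hQ]
  refine ⟨c, ?_⟩
  by_cases h2 : (2 : F) = 0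
  swap
  · intro v
    have h3 := hkk v v
    rw [pol_self hQ, pol_self hQ] at h3
    apply mul_left_cancel₀ h2
    rw [h3]
    ring
  -- characteristic two
  have m2 : ∀ X : Matrix ι ι F, X + X = 0 := fun X => by
    rw [← two_smul F X, h2, zero_smul]
  have hneg : ∀ a : F, -a = a := fun a => by linear_combination (-a) * h2
  have hadd2 : ∀ a : F, a + a = 0 := fun a => by linear_combination a * h2
  obtain ⟨τ, hτ⟩ := hfixF (x + A x) (K.add_mem hx (hAdK x hx)) (by
    rw [hAadd, hAA, add_comm])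
  have hτ0 : τ ≠ 0 := by
    rintro rfl
    rw [zero_smul] at hτ
    apply hxne
    have h3 := m2 x
    have h4 : x + A x = x + x := by rw [hτ, h3]
    exact add_left_cancel h4
  let θ : Matrix ι ι F := τ⁻¹ • x
  have hθK : θ ∈ K := K.smul_mem hx _
  have hθ1 : θ + A θ = 1 := by
    simp only [θ]
    rw [hA, ad_smul hf, ← hA]
    change τ⁻¹ • x + τ⁻¹ • A x = 1
    rw [← smul_add, hτ, smul_smul, inv_mul_cancel₀ hτ0, one_smul]
  have hsw : ∀ x y, pol Q y x = pol Q x y := fun x y => pol_symm hQ y x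
  have halt : ∀ v, pol Q v v = 0 := fun v => by rw [pol_self hQ, h2, zero_mul]
  let Qθ : (ι → F) → F := fun v => pol Q (θ *ᵥ v) v
  have hQθsm : ∀ (c : F) v, Qθ (c • v) = c ^ 2 * Qθ v := by
    intro c v
    simp only [Qθ]
    rw [Matrix.mulVec_smul, pol_smul_left hQ, pol_smul_right hQ]
    ring
  have hQθadd : ∀ u v, Qθ (u + v) = Qθ u + Qθ v + pol Q u v := by
    intro u v
    simp only [Qθ]
    rw [Matrix.mulVec_add, pol_add_left hQ, pol_add_right hQ, pol_add_right hQ]
    have h3 : pol Q u v = pol Q (θ *ᵥ u) v + pol Q u (θ *ᵥ v) := by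
      rw [hspec' θ u v, ← pol_add_left hQ, ← Matrix.add_mulVec, hθ1, Matrix.one_mulVec]
    rw [h3, hsw (θ *ᵥ v) u]
    ring
  -- invariance
  have hinvθ : ∀ h ∈ H, ∀ v, Qθ ((h : Matrix ι ι F) *ᵥ v) = Qθ v := by
    intro h hh v
    have hhi : ∀ u v, pol Q (((h⁻¹ : GL ι F) : Matrix ι ι F) *ᵥ u) (((h⁻¹ : GL ι F) : Matrix ι ι F) *ᵥ v) = pol Q u v :=
      polar_isom (hHI (H.inv_mem hh))
    let θ' : Matrix ι ι F := ((h⁻¹ : GL ι F) : Matrix ι ι F) * θ * (h : Matrix ι ι F)
    have hθ'K : θ' ∈ K := by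
      have h3 := hle (H.inv_mem hh) θ
      have h4 : ((h⁻¹ : GL ι F) : Matrix ι ι F) * θ * (((h⁻¹)⁻¹ : GL ι F) : Matrix ι ι F) = θ' := by
        simp only [θ', inv_inv]
      rw [h4] at h3
      exact h3.1 hθK
    have hAdθ' : A θ' = ((h⁻¹ : GL ι F) : Matrix ι ι F) * A θ * (h : Matrix ι ι F) := by
      have h3 := ad_conj hf h⁻¹ hhi θ
      simp only [inv_inv] at h3
      exact h3
    have hih : ((h⁻¹ : GL ι F) : Matrix ι ι F) * (h : Matrix ι ι F) = 1 := by
      rw [← Units.val_mul, inv_mul_cancel, Units.val_one]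
    have hθ'1 : θ' + A θ' = 1 := by
      rw [hAdθ']
      simp only [θ']
      rw [← add_mul, ← mul_add, hθ1, mul_one, hih]
    obtain ⟨d, hd⟩ := hfixF (θ' + θ) (K.add_mem hθ'K hθK) (by
      rw [hAadd]
      have h3 : A θ' = 1 - θ' := eq_sub_of_add_eq' hθ'1
      have h4 : A θ = 1 - θ := eq_sub_of_add_eq' hθ1
      rw [h3, h4]
      have h5 := m2 (1 : Matrix ι ι F)
      have h6 := m2 θ'
      have h7 := m2 θ
      have h8 : 1 - θ' + (1 - θ) = ((1 : Matrix ι ι F) + 1) - (θ' + θ') - (θ + θ) + (θ' + θ) := by abel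
      rw [h8, h5, h6, h7]
      abel)
    simp only [Qθ]
    have h3 : pol Q (θ *ᵥ (h : Matrix ι ι F) *ᵥ v) ((h : Matrix ι ι F) *ᵥ v) = pol Q (θ' *ᵥ v) v := by
      have h4 := hhi (θ *ᵥ (h : Matrix ι ι F) *ᵥ v) ((h : Matrix ι ι F) *ᵥ v)
      rw [← h4]
      simp only [θ', Matrix.mulVec_mulVec]
      rw [hih, Matrix.one_mulVec, mul_assoc]
    have h4 : θ' = d • 1 - θ := eq_sub_of_add_eq hd
    rw [h3, h4, Matrix.sub_mulVec, Cfsg.Agent.Lib.AschF.Adj.Sesq_sub_left hf.sesq, Matrix.smul_mulVec, Matrix.one_mulVec,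
      pol_smul_left hQ, halt, mul_zero, zero_sub, hneg]
  -- the difference is a square of a linear functional
  let g : (ι → F) → F := fun v => Q v + Qθ v
  have hgadd : ∀ u v, g (u + v) = g u + g v := by
    intro u v
    simp only [g]
    rw [Q_add hQ, hQθadd]
    linear_combination (pol Q u v) * h2
  have hgsm : ∀ (c : F) v, g (c • v) = c ^ 2 * g v := by
    intro c v
    simp only [g]
    rw [hQ.smul, hQθsm]
    ring
  obtain ⟨m, hm⟩ := exists_functional h2 g hgadd hgsm
  let l : (ι → F) →ₗ[F] F := dualOfVec m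
  have hl : ∀ v, l v = ∑ i, m i * v i := fun v => rfl
  have hinvg : ∀ h ∈ H, ∀ v, l ((h : Matrix ι ι F) *ᵥ v) = l v := by
    intro h hh v
    apply sq_inj_of_two h2
    rw [hl, hl, ← hm, ← hm]
    simp only [g]
    rw [Q_isom (hHI hh), hinvθ h hh]
  have hker := hirr (LinearMap.ker l) (fun g' hg' v hv => by
    rw [LinearMap.mem_ker] at hv ⊢
    rw [hinvg g' hg', hv])
  have hl0 : l = 0 := by
    rcases hker with h0 | h0
    · exfalso
      have h3 := LinearMap.finrank_range_add_finrank_ker l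
      rw [h0, finrank_bot, Module.finrank_fintype_fun_eq_card] at h3
      have h4 : finrank F (LinearMap.range l) ≤ 1 := by
        have := Submodule.finrank_le (LinearMap.range l)
        simpa using this
      omega
    · exact LinearMap.ker_eq_top.1 h0
  have hQQ : ∀ v, Q v = Qθ v := by
    intro v
    have h3 := hm v
    have h4 : l v = 0 := by rw [hl0]; rfl
    rw [← hl, h4] at h3
    simp only [g] at h3
    rw [zero_pow two_ne_zero] at h3
    linear_combination h3 - (Qθ v) * h2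
  intro v
  rw [hQQ, hQQ]
  simp only [Qθ]
  rw [hspec' k, Matrix.mulVec_mulVec, Matrix.mulVec_mulVec, hK.comm (A k) (hAdK k hk) θ hθK, mul_assoc, hc,
    Matrix.mul_smul, mul_one, Matrix.smul_mulVec, pol_smul_left hQ]

/-- Quadratic fields of unitary type force minus type in dimension twice an odd number. -/
theorem unitary_not_plus {m : ℕ} (hm : Fintype.card ι = 2 * m) (hodd : Odd m) (hplus : IsPlusTypeOn Q ⊤)
    {K : Subalgebra F (Matrix ι ι F)} (hK : IsFieldSubalgebra 2 K) (hadj : IsAdjointClosedFor (pol Q) K)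
    (hsim : ∀ k ∈ K, ∃ c : F, ∀ v, Q (k *ᵥ v) = c * Q v) : False := by
  classical
  have hS := qspace hQ
  have key : ∀ j : ℕ, 2 * j ≤ m + 1 → ∃ B : Submodule F (ι → F), IsTotallySingularQuad Q B ∧
      (∀ k ∈ K, ∀ x ∈ B, k *ᵥ x ∈ B) ∧ finrank F B = 2 * j := by
    intro j
    induction j with
    | zero =>
      intro _
      refine ⟨⊥, ?_, ?_, by simp⟩
      · intro u hu
        rw [(Submodule.mem_bot F).1 hu, Q_zero hQ]
      · intro k _ x hx
        rw [(Submodule.mem_bot F).1 hx, Matrix.mulVec_zero]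
        exact Submodule.zero_mem _
    | succ j ih =>
      intro hj
      obtain ⟨B, hB, hBK, hBd⟩ := ih (by omega)
      obtain ⟨T, hBT, hT, hTd⟩ := ts_extend hQ hm hplus (m - 2 * j) B hB (by omega)
      have hlt : B < T := by
        refine lt_of_le_of_ne hBT ?_
        intro h
        rw [h] at hBd
        omega
      obtain ⟨u, huT, huB⟩ := SetLike.exists_of_lt hlt
      have hQu : Q u = 0 := hT u huT
      have hpolu : ∀ b ∈ B, pol Q b u = 0 := fun b hb => hS.ts_polar hT (hBT hb) huT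
      have hu0 : u ≠ 0 := by
        rintro rfl
        exact huB B.zero_mem
      have hQk : ∀ k ∈ K, Q (k *ᵥ u) = 0 := by
        intro k hk
        obtain ⟨c, hc⟩ := hsim k hk
        rw [hc, hQu, mul_zero]
      have hpolk : ∀ b ∈ B, ∀ k ∈ K, pol Q b (k *ᵥ u) = 0 := by
        intro b hb k hk
        obtain ⟨k', hk', hkk⟩ := hadj k hk
        rw [pol_symm hQ, hkk, pol_symm hQ]
        exact hpolu _ (hBK k' hk' b hb)
      have hpolkk : ∀ k ∈ K, ∀ l ∈ K, pol Q (k *ᵥ u) (l *ᵥ u) = 0 := by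
        intro k hk l hl
        have h1 := hQk _ (K.add_mem hk hl)
        rw [Matrix.add_mulVec, Q_add hQ, hQk k hk, hQk l hl] at h1
        linear_combination h1
      refine ⟨B ⊔ KL K u, ?_, ?_, ?_⟩
      · intro w hw
        obtain ⟨b, hb, z, ⟨k, hk, rfl⟩, rfl⟩ := Submodule.mem_sup.1 hw
        rw [Q_add hQ, hB b hb, hQk k hk, hpolk b hb k hk]
        ring
      · intro k hk x hx
        obtain ⟨b, hb, z, ⟨l, hl, rfl⟩, rfl⟩ := Submodule.mem_sup.1 hx
        rw [Matrix.mulVec_add, Matrix.mulVec_mulVec]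
        exact Submodule.add_mem _ (Submodule.mem_sup_left (hBK k hk b hb))
          (Submodule.mem_sup_right ⟨k * l, K.mul_mem hk hl, rfl⟩)
      · have h1 := Submodule.finrank_sup_add_finrank_inf_eq B (KL K u)
        have h3 : B ⊓ KL K u = ⊥ := by
          rw [eq_bot_iff]
          rintro _ ⟨hb, ⟨k, hk, rfl⟩⟩
          by_cases hk0 : k = 0
          · simp [hk0]
          · exfalso
            obtain ⟨y, hy, hyk, -⟩ := exists_inv hK hk hk0
            apply huB
            have := hBK y hy _ hb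
            rwa [Matrix.mulVec_mulVec, hyk, Matrix.one_mulVec] at this
        rw [h3, finrank_bot, finrank_KL hK hu0] at h1
        omega
  obtain ⟨s, hs⟩ := hodd
  obtain ⟨B, hB, -, hBd⟩ := key (s + 1) (by omega)
  have h1 := two_finrank_le hQ (U := B) hB
  omega

end Cfsg.Agent.Lib.CmaxE.Uni
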