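import Mathlib
import Cfsg.Agent.Lib.CmaxE.Uni

/-!
# Quadratic fields generated by a matrix, and tensor decompositions with an anisotropic binary factor
-/

set_option autoImplicit false

namespace Cfsg.Agent.Lib.CmaxE.QuadF

open Matrix Module Cfsg Cfsg.Geo
open Cfsg.Agent.Lib.Geo.Basic Cfsg.Agent.Lib.Geo.Polar Cfsg.Agent.Lib.Geo.QForm
open Cfsg.Agent.Lib.GeoOmega.Basic Cfsg.Agent.Lib.AschF.OmegaP Cfsg.Agent.Lib.QuadFn
open Cfsg.Agent.Lib.GeoOmega.Nondeg Cfsg.Agent.Lib.GeoOmega.NondegW Cfsg.Agent.Lib.GeoOmega.Singular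
open Cfsg.Agent.Lib.NotMax.Tensor (TT TT_add_left TT_add_right TT_smul_left TT_smul_right TT_unique TT_ne_zero span_TT ext_TT mem_tensor pureT)
open Cfsg.Agent.Lib.Asch.Kr (kr kr_mulVec)
open Cfsg.Agent.Lib.AschF.Adj
open Cfsg.Agent.Lib.AschF.OddA (polar_isom Q_isom card_eq_of_decomp hf_polar)
open Cfsg.Agent.Lib.CmaxE.Core Cfsg.Agent.Lib.CmaxE.Proper Cfsg.Agent.Lib.CmaxE.Plus Cfsg.Agent.Lib.CmaxE.Common
open Cfsg.Agent.Lib.CmaxE.Ten (conj_kr_TT)

universe u

variable {ι : Type} [Fintype ι] [DecidableEq ι] {F : Type u} [Field F] {Q : (ι → F) → F}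

/-- A matrix with an irreducible quadratic equation generates a quadratic field. -/
theorem exists_quad_field [Nonempty ι] {M : Matrix ι ι F} {τ d : F} (hM : M * M = τ • M - d • 1)
    (hirr : ∀ s : F, s ^ 2 - τ * s + d ≠ 0) :
    ∃ K : Subalgebra F (Matrix ι ι F), (∀ X, X ∈ K ↔ ∃ a b : F, X = a • 1 + b • M) ∧ IsFieldSubalgebra 2 K := by
  classical
  have hmul : ∀ a b a' b' : F, (a • (1 : Matrix ι ι F) + b • M) * (a' • 1 + b' • M) =
      (a * a' - b * b' * d) • 1 + (a * b' + b * a' + b * b' * τ) • M := by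
    intro a b a' b'
    have h1 : (a • (1 : Matrix ι ι F) + b • M) * (a' • 1 + b' • M) =
        (a * a') • (1 : Matrix ι ι F) + (a * b' + b * a') • M + (b * b') • (M * M) := by
      simp only [add_mul, mul_add, smul_mul_assoc, mul_smul_comm, one_mul, mul_one, smul_add]
      module
    rw [h1, hM]
    module
  have h1ne : (1 : Matrix ι ι F) ≠ 0 := one_ne_zero
  have hMns : ∀ c : F, M ≠ c • 1 := by
    intro c hc
    have h3 := hM
    rw [hc] at h3
    simp only [smul_mul_assoc, mul_smul_comm, one_mul, smul_smul] at h3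
    have h4 : (c ^ 2 - τ * c + d) • (1 : Matrix ι ι F) = 0 := by
      have h5 : (c ^ 2 - τ * c + d) • (1 : Matrix ι ι F) = (c * c) • 1 - ((τ * c) • 1 - d • 1) := by module
      rw [h5, h3, sub_self]
    exact hirr c ((smul_eq_zero.1 h4).resolve_right h1ne)
  let K : Subalgebra F (Matrix ι ι F) :=
    { carrier := {X | ∃ a b : F, X = a • 1 + b • M}
      mul_mem' := by
        rintro _ _ ⟨a, b, rfl⟩ ⟨a', b', rfl⟩
        exact ⟨_, _, hmul a b a' b'⟩
      add_mem' := by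
        rintro _ _ ⟨a, b, rfl⟩ ⟨a', b', rfl⟩
        exact ⟨a + a', b + b', by module⟩
      algebraMap_mem' := fun c => ⟨c, 0, by
        rw [Algebra.algebraMap_eq_smul_one, zero_smul, add_zero]⟩ }
  have hmem : ∀ X, X ∈ K ↔ ∃ a b : F, X = a • 1 + b • M := fun X => Iff.rfl
  have hMK : M ∈ K := ⟨0, 1, by simp⟩
  refine ⟨K, hmem, ?_, ?_, ?_⟩
  · rintro _ ⟨a, b, rfl⟩ _ ⟨a', b', rfl⟩
    rw [hmul, hmul]
    congr 2 <;> ring
  · rintro _ ⟨a, b, rfl⟩ hne
    have hN : a ^ 2 + a * b * τ + b ^ 2 * d ≠ 0 := by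
      by_cases hb : b = 0
      · subst hb
        have ha : a ≠ 0 := by
          rintro rfl
          apply hne
          simp
        simpa using ha
      · intro h0
        apply hirr (-a / b)
        field_simp
        linear_combination h0
    set N := a ^ 2 + a * b * τ + b ^ 2 * d with hNdef
    refine ⟨(N⁻¹ * (a + b * τ)) • 1 + (-(N⁻¹ * b)) • M, ⟨_, _, rfl⟩, ?_⟩
    rw [hmul]
    have h3 : a * (N⁻¹ * (a + b * τ)) - b * -(N⁻¹ * b) * d = 1 := by
      have : a * (N⁻¹ * (a + b * τ)) - b * -(N⁻¹ * b) * d = N⁻¹ * N := by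
        rw [hNdef]
        ring
      rw [this, inv_mul_cancel₀ hN]
    have h4 : a * -(N⁻¹ * b) + b * (N⁻¹ * (a + b * τ)) + b * -(N⁻¹ * b) * τ = 0 := by ring
    rw [h3, h4]
    simp
  · let T : (F × F) →ₗ[F] K :=
      { toFun := fun a => a.1 • (1 : K) + a.2 • (⟨M, hMK⟩ : K)
        map_add' := fun a b => by simp only [Prod.fst_add, Prod.snd_add, add_smul]; abel
        map_smul' := fun c a => by simp only [Prod.smul_fst, Prod.smul_snd, smul_eq_mul, mul_smul, smul_add, RingHom.id_apply] }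
    have hTv : ∀ a : F × F, ((T a : K) : Matrix ι ι F) = a.1 • 1 + a.2 • M := fun _ => rfl
    have hTinj : Function.Injective T := by
      rw [← LinearMap.ker_eq_bot, LinearMap.ker_eq_bot']
      rintro ⟨a, b⟩ hT
      have hT' : a • (1 : Matrix ι ι F) + b • M = 0 := by
        have := congrArg Subtype.val hT
        simpa [hTv] using this
      have hb : b = 0 := by
        by_contra hb
        apply hMns (-(a / b))
        have h3 : b • M = (-a) • (1 : Matrix ι ι F) := by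
          rw [neg_smul]
          exact eq_neg_of_add_eq_zero_right hT'
        have h4 : M = b⁻¹ • (b • M) := by rw [smul_smul, inv_mul_cancel₀ hb, one_smul]
        rw [h4, h3, smul_smul]
        congr 1
        field_simp
      subst hb
      rw [zero_smul, add_zero] at hT'
      have ha : a = 0 := (smul_eq_zero.1 hT').resolve_right h1ne
      rw [ha]
      rfl
    have hTsurj : Function.Surjective T := by
      rintro ⟨X, a, b, rfl⟩
      exact ⟨(a, b), rfl⟩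
    have := (LinearEquiv.ofBijective T ⟨hTinj, hTsurj⟩).finrank_eq
    rw [← this, Module.finrank_prod, Module.finrank_self]

/-- Normalising a field generated by one element. -/
theorem mem_normalizer_of_gen {K : Subalgebra F (Matrix ι ι F)} {M : Matrix ι ι F}
    (hmem : ∀ X, X ∈ K ↔ ∃ a b : F, X = a • 1 + b • M) {H : Subgroup (GL ι F)}
    (hgen : ∀ h ∈ H, (h : Matrix ι ι F) * M * ((h⁻¹ : GL ι F) : Matrix ι ι F) ∈ K) : H ≤ subalgebraNormalizer K := by
  have hfwd : ∀ h ∈ H, ∀ k ∈ K, (h : Matrix ι ι F) * k * ((h⁻¹ : GL ι F) : Matrix ι ι F) ∈ K := by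
    intro h hh k hk
    obtain ⟨a, b, rfl⟩ := (hmem k).1 hk
    have h1 : (h : Matrix ι ι F) * (a • 1 + b • M) * ((h⁻¹ : GL ι F) : Matrix ι ι F) =
        a • 1 + b • ((h : Matrix ι ι F) * M * ((h⁻¹ : GL ι F) : Matrix ι ι F)) := by
      have h3 : (h : Matrix ι ι F) * ((h⁻¹ : GL ι F) : Matrix ι ι F) = 1 := by
        rw [← Units.val_mul, mul_inv_cancel, Units.val_one]
      simp only [mul_add, add_mul, mul_smul_comm, smul_mul_assoc, mul_one, h3]
    rw [h1]
    exact K.add_mem (K.smul_mem K.one_mem _) (K.smul_mem (hgen h hh) _)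
  intro h hh k
  refine ⟨hfwd h hh k, fun hk => ?_⟩
  have h1 := hfwd h⁻¹ (H.inv_mem hh) _ hk
  have h3 : ((h⁻¹ : GL ι F) : Matrix ι ι F) * ((h : Matrix ι ι F) * k * ((h⁻¹ : GL ι F) : Matrix ι ι F)) * (((h⁻¹)⁻¹ : GL ι F) : Matrix ι ι F) = k := by
    simp [mul_assoc, ← Units.val_mul]
  rwa [h3] at h1

variable (hQ : IsNondegenerateQuadraticForm Q)
include hQ

/-- Tensor decompositions with an anisotropic binary factor lie in the normaliser of a quadratic field of unitary type. -/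
theorem field_of_ten2 [Fintype F] (h2 : (2 : F) ≠ 0) {b : ℕ} (hb : 1 ≤ b) (e : ι ≃ Fin 2 × Fin b) (P : GL ι F)
    {f₁ : (Fin 2 → F) → (Fin 2 → F) → F} {f₂ : (Fin b → F) → (Fin b → F) → F} {ε₁ ε₂ : F} (hf₁ : HF (RingEquiv.refl F) ε₁ f₁)
    (hf₂ : HF (RingEquiv.refl F) ε₂ f₂)
    (hlaw : ∀ x x' y y', pol Q (TT e P x y) (TT e P x' y') = f₁ x x' * f₂ y y')
    (hiso : ∀ x₀ : Fin 2 → F, x₀ ≠ 0 → f₁ x₀ x₀ ≠ 0) {H : Subgroup (GL ι F)} (hHI : H ≤ isometryGroup F Q)
    (hact : ∀ h ∈ H, ∃ (α : GL (Fin 2) F) (β : GL (Fin b) F), ∀ x y, (h : Matrix ι ι F) *ᵥ TT e P x y =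
      TT e P ((α : Matrix (Fin 2) (Fin 2) F) *ᵥ x) ((β : Matrix (Fin b) (Fin b) F) *ᵥ y)) :
    ∃ K : Subalgebra F (Matrix ι ι F), IsFieldSubalgebra 2 K ∧ IsAdjointClosedFor (pol Q) K ∧
      ¬ IsSelfAdjointFor (pol Q) K ∧ (∀ k ∈ K, ∃ c : F, ∀ v, Q (k *ᵥ v) = c * Q v) ∧ H ≤ subalgebraNormalizer K := by
  classical
  haveI : Nonempty ι := by
    haveI : Nonempty (Fin 2 × Fin b) := ⟨(0, ⟨0, hb⟩)⟩
    exact e.nonempty
  let e₀ : Fin 2 → F := ![1, 0]
  let e₁ : Fin 2 → F := ![0, 1]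
  have he₀ : e₀ ≠ 0 := by
    intro h
    have := congrFun h 0
    simp [e₀] at this
  have hε : ε₁ = 1 := by
    have h1 := hf₁.herm e₀ e₀
    simp only [RingEquiv.refl_apply] at h1
    have h3 := hiso e₀ he₀
    have h4 : (ε₁ - 1) * f₁ e₀ e₀ = 0 := by linear_combination -h1
    exact sub_eq_zero.1 ((mul_eq_zero.1 h4).resolve_right h3)
  subst hε
  have hsymm : ∀ x y, f₁ x y = f₁ y x := by
    intro x y
    have := hf₁.herm y x
    simpa using this
  set A := f₁ e₀ e₀ with hA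
  set B := f₁ e₀ e₁ with hB
  set C := f₁ e₁ e₁ with hC
  have hA0 : A ≠ 0 := hiso e₀ he₀
  have hexp : ∀ x : Fin 2 → F, x = x 0 • e₀ + x 1 • e₁ := by
    intro x
    funext i
    fin_cases i <;> simp [e₀, e₁]
  have hS := hf₁.sesq
  have hform : ∀ x y : Fin 2 → F, f₁ x y = A * x 0 * y 0 + B * (x 0 * y 1 + x 1 * y 0) + C * x 1 * y 1 := by
    intro x y
    conv_lhs => rw [hexp x, hexp y]
    simp only [hS.add_left, hS.add_right, hS.smul_left, hS.smul_right, RingEquiv.refl_apply]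
    rw [hsymm e₁ e₀]
    ring
  let J₀ : Matrix (Fin 2) (Fin 2) F := !![-B, -C; A, B]
  have hJ₀ : ∀ x, J₀ *ᵥ x = ![-B * x 0 - C * x 1, A * x 0 + B * x 1] := by
    intro x
    funext i
    fin_cases i <;> simp [J₀, Matrix.mulVec, dotProduct, Fin.sum_univ_two] <;> ring
  let δ : F := B ^ 2 - A * C
  have hδdef : δ = B ^ 2 - A * C := rfl
  have hJ₀2 : ∀ x, J₀ *ᵥ (J₀ *ᵥ x) = δ • x := by
    intro x
    simp only [hJ₀]
    funext i
    fin_cases i <;> simp [δ] <;> ring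
  have hskew : ∀ x y, f₁ (J₀ *ᵥ x) y = - f₁ x (J₀ *ᵥ y) := by
    intro x y
    rw [hform, hform, hJ₀, hJ₀]
    simp only [Matrix.cons_val_zero, Matrix.cons_val_one]
    ring
  have hδ : ∀ s : F, s ^ 2 ≠ δ := by
    intro s hs
    let x : Fin 2 → F := ![s - B, A]
    have hx : x ≠ 0 := by
      intro h
      have := congrFun h 1
      simp [x] at this
      exact hA0 this
    apply hiso x hx
    rw [hform]
    simp only [x, Matrix.cons_val_zero, Matrix.cons_val_one]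
    rw [hδdef] at hs
    linear_combination A * hs
  have hδ0 : δ ≠ 0 := by
    intro h0
    apply hδ 0
    rw [h0]
    ring
  obtain ⟨M, hMT⟩ : ∃ M : Matrix ι ι F, ∀ x y, M *ᵥ TT e P x y = TT e P (J₀ *ᵥ x) y := by
    refine ⟨(P : Matrix ι ι F) * kr e J₀ 1 * ((P⁻¹ : GL ι F) : Matrix ι ι F), fun x y => ?_⟩
    rw [conj_kr_TT, Matrix.one_mulVec]
  have hMM : M * M = (0 : F) • M - (-δ) • 1 := by
    apply ext_TT e P
    intro x y
    rw [← Matrix.mulVec_mulVec, hMT, hMT, hJ₀2, TT_smul_left]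
    simp [Matrix.sub_mulVec, Matrix.smul_mulVec]
  obtain ⟨K, hKmem, hK⟩ := exists_quad_field (τ := 0) (d := -δ) hMM (fun s => by
    intro h0
    apply hδ s
    linear_combination h0)
  have hMsk : ∀ u v, pol Q (M *ᵥ u) v = - pol Q u (M *ᵥ v) := by
    intro u v
    revert v
    refine span_TT e P (fun u => ∀ v, pol Q (M *ᵥ u) v = - pol Q u (M *ᵥ v)) ?_ ?_ ?_ u
    · intro v
      simp [pol_zero_left hQ]
    · intro u u' hu hu' v
      rw [Matrix.mulVec_add, pol_add_left hQ, pol_add_left hQ, hu, hu']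
      ring
    · intro x y v
      revert v
      refine span_TT e P (fun v => pol Q (M *ᵥ TT e P x y) v = - pol Q (TT e P x y) (M *ᵥ v)) ?_ ?_ ?_
      · simp [pol_zero_right hQ]
      · intro v v' hv hv'
        rw [Matrix.mulVec_add, pol_add_right hQ, pol_add_right hQ, hv, hv']
        ring
      · intro x' y'
        rw [hMT, hMT, hlaw, hlaw, hskew]
        ring
  have hMMv : ∀ v, M *ᵥ (M *ᵥ v) = δ • v := by
    intro v
    rw [Matrix.mulVec_mulVec, hMM]
    simp [Matrix.sub_mulVec, Matrix.smul_mulVec]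
  have hpolM : ∀ v, pol Q v (M *ᵥ v) = 0 := by
    intro v
    have h1 := hMsk v v
    rw [pol_symm hQ] at h1
    have h3 : (2 : F) * pol Q v (M *ᵥ v) = 0 := by linear_combination h1
    exact (mul_eq_zero.1 h3).resolve_left h2
  have hQM : ∀ v, Q (M *ᵥ v) = (-δ) * Q v := by
    intro v
    have h1 := hMsk (M *ᵥ v) v
    rw [hMMv, pol_smul_left hQ, pol_self hQ, pol_self hQ] at h1
    apply mul_left_cancel₀ h2
    linear_combination h1
  have hM0 : M ≠ 0 := by
    intro h0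
    obtain ⟨i₀⟩ := ‹Nonempty ι›
    have h3 := hMMv (Pi.single i₀ 1)
    rw [h0, Matrix.zero_mulVec] at h3
    have h4 := congrFun h3 i₀
    simp at h4
    exact hδ0 h4.symm
  refine ⟨K, hK, ?_, ?_, ?_, ?_⟩
  · intro k hk
    obtain ⟨a, c, rfl⟩ := (hKmem k).1 hk
    refine ⟨a • 1 + (-c) • M, (hKmem _).2 ⟨_, _, rfl⟩, fun u v => ?_⟩
    simp only [Matrix.add_mulVec, Matrix.smul_mulVec, Matrix.one_mulVec, pol_add_left hQ, pol_add_right hQ, pol_smul_left hQ, pol_smul_right hQ, hMsk]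
    ring
  · intro hsa
    have hMK : M ∈ K := (hKmem M).2 ⟨0, 1, by simp⟩
    apply hM0
    apply Matrix.ext_of_mulVec_single
    intro j
    rw [Matrix.zero_mulVec]
    by_contra hne
    obtain ⟨u, hu⟩ := (hQ.nondegenerate _ hne).1
    apply hu
    have h1 := hsa M hMK u (Pi.single j 1)
    have h3 := hMsk u (Pi.single j 1)
    change pol Q (M *ᵥ u) (Pi.single j 1) = pol Q u (M *ᵥ Pi.single j 1) at h1
    rw [h1] at h3
    have h4 : (2 : F) * pol Q u (M *ᵥ Pi.single j 1) = 0 := by linear_combination h3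
    exact (mul_eq_zero.1 h4).resolve_left h2
  · intro k hk
    obtain ⟨a, c, rfl⟩ := (hKmem k).1 hk
    refine ⟨a ^ 2 + c ^ 2 * (-δ), fun v => ?_⟩
    simp only [Matrix.add_mulVec, Matrix.smul_mulVec, Matrix.one_mulVec]
    rw [Q_add hQ, hQ.smul, hQ.smul, hQM, pol_smul_left hQ, pol_smul_right hQ, hpolM]
    ring
  · apply mem_normalizer_of_gen hKmem
    intro h hh
    obtain ⟨α, β, hαβ⟩ := hact h hh
    -- the similarity
    obtain ⟨y₀, y₁, hy⟩ : ∃ y₀ y₁ : Fin b → F, f₂ y₀ y₁ ≠ 0 := by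
      have hsing : (Pi.single (⟨0, hb⟩ : Fin b) 1 : Fin b → F) ≠ 0 := by
        intro h0
        have := congrFun h0 ⟨0, hb⟩
        simp at this
      obtain ⟨-, y', hy'⟩ := hf₂.nd _ hsing
      exact ⟨_, _, hy'⟩
    have hrel : ∀ x x', f₁ ((α : Matrix (Fin 2) (Fin 2) F) *ᵥ x) ((α : Matrix (Fin 2) (Fin 2) F) *ᵥ x') *
        f₂ ((β : Matrix (Fin b) (Fin b) F) *ᵥ y₀) ((β : Matrix (Fin b) (Fin b) F) *ᵥ y₁) = f₁ x x' * f₂ y₀ y₁ := by
      intro x x'
      rw [← hlaw, ← hlaw, ← hαβ, ← hαβ, polar_isom (hHI hh)]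
    have hβne : f₂ ((β : Matrix (Fin b) (Fin b) F) *ᵥ y₀) ((β : Matrix (Fin b) (Fin b) F) *ᵥ y₁) ≠ 0 := by
      intro h0
      have h1 := hrel e₀ e₀
      rw [h0, mul_zero] at h1
      exact mul_ne_zero hA0 hy h1.symm
    set μ := f₂ y₀ y₁ / f₂ ((β : Matrix (Fin b) (Fin b) F) *ᵥ y₀) ((β : Matrix (Fin b) (Fin b) F) *ᵥ y₁) with hμ
    have hsim : ∀ x x', f₁ ((α : Matrix (Fin 2) (Fin 2) F) *ᵥ x) ((α : Matrix (Fin 2) (Fin 2) F) *ᵥ x') = μ * f₁ x x' := by
      intro x x'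
      have h1 := hrel x x'
      rw [hμ]
      field_simp
      linear_combination h1
    -- the conjugate of `J₀` is skew
    let X : Matrix (Fin 2) (Fin 2) F := (α : Matrix (Fin 2) (Fin 2) F) * J₀ * ((α⁻¹ : GL (Fin 2) F) : Matrix (Fin 2) (Fin 2) F)
    have hXv : ∀ x, X *ᵥ ((α : Matrix (Fin 2) (Fin 2) F) *ᵥ x) = (α : Matrix (Fin 2) (Fin 2) F) *ᵥ (J₀ *ᵥ x) := by
      intro x
      simp only [X]
      rw [← Matrix.mulVec_mulVec, ← Matrix.mulVec_mulVec, inv_mulVec_mulVec]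
    have hXsk : ∀ u v, f₁ (X *ᵥ u) v = - f₁ u (X *ᵥ v) := by
      intro u v
      obtain ⟨x, rfl⟩ : ∃ x, u = (α : Matrix (Fin 2) (Fin 2) F) *ᵥ x := ⟨((α⁻¹ : GL (Fin 2) F) : Matrix (Fin 2) (Fin 2) F) *ᵥ u, (mulVec_inv_mulVec α u).symm⟩
      obtain ⟨x', rfl⟩ : ∃ x, v = (α : Matrix (Fin 2) (Fin 2) F) *ᵥ x := ⟨((α⁻¹ : GL (Fin 2) F) : Matrix (Fin 2) (Fin 2) F) *ᵥ v, (mulVec_inv_mulVec α v).symm⟩
      rw [hXv, hXv, hsim, hsim, hskew]
      ring
    -- so it is a multiple of `J₀`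
    have hXe₀ : X *ᵥ e₀ = ![X 0 0, X 1 0] := by
      funext i
      fin_cases i <;> simp [Matrix.mulVec, dotProduct, Fin.sum_univ_two, e₀]
    have hXe₁ : X *ᵥ e₁ = ![X 0 1, X 1 1] := by
      funext i
      fin_cases i <;> simp [Matrix.mulVec, dotProduct, Fin.sum_univ_two, e₁]
    have hv0 : e₀ 0 = 1 ∧ e₀ 1 = 0 ∧ e₁ 0 = 0 ∧ e₁ 1 = 1 := by
      simp [e₀, e₁]
    obtain ⟨h00, h01, h10, h11⟩ := hv0
    have eq₁ : A * X 0 0 + B * X 1 0 = 0 := by
      have h1 := hXsk e₀ e₀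
      rw [hsymm e₀ (X *ᵥ e₀)] at h1
      have h3 : (2 : F) * f₁ (X *ᵥ e₀) e₀ = 0 := by
        rw [hsymm (X *ᵥ e₀) e₀] at *
        linear_combination h1
      have h4 := (mul_eq_zero.1 h3).resolve_left h2
      rw [hform, hXe₀, h00, h01] at h4
      simpa using h4
    have eq₂ : B * X 0 1 + C * X 1 1 = 0 := by
      have h1 := hXsk e₁ e₁
      rw [hsymm e₁ (X *ᵥ e₁)] at h1
      have h3 : (2 : F) * f₁ (X *ᵥ e₁) e₁ = 0 := by
        rw [hsymm (X *ᵥ e₁) e₁] at *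
        linear_combination h1
      have h4 := (mul_eq_zero.1 h3).resolve_left h2
      rw [hform, hXe₁, h10, h11] at h4
      simpa using h4
    have eq₃ : B * X 0 0 + C * X 1 0 + A * X 0 1 + B * X 1 1 = 0 := by
      have h1 := hXsk e₀ e₁
      rw [hform, hform, hXe₀, hXe₁, h00, h01, h10, h11] at h1
      simp only [Matrix.cons_val_zero, Matrix.cons_val_one] at h1
      linear_combination h1
    set ρ := X 1 0 / A with hρ
    have hp : X 0 0 = -ρ * B := by
      rw [hρ]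
      field_simp
      linear_combination eq₁
    have hr : X 1 0 = ρ * A := by
      rw [hρ]
      field_simp
    have hq : X 0 1 = -ρ * C := by
      apply mul_left_cancel₀ hδ0
      rw [hδdef]
      rw [hp, hr] at eq₃
      linear_combination B * eq₂ - C * eq₃
    have hs : X 1 1 = ρ * B := by
      apply mul_left_cancel₀ hδ0
      rw [hδdef]
      rw [hp, hr] at eq₃
      linear_combination (-A) * eq₂ + B * eq₃
    have hXJ : ∀ x, X *ᵥ x = ρ • (J₀ *ᵥ x) := by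
      intro x
      rw [hJ₀]
      funext i
      fin_cases i
      · simp [Matrix.mulVec, dotProduct, Fin.sum_univ_two, hp, hq]
        ring
      · simp [Matrix.mulVec, dotProduct, Fin.sum_univ_two, hr, hs]
        ring
    refine (hKmem _).2 ⟨0, ρ, ?_⟩
    have hih : ((h⁻¹ : GL ι F) : Matrix ι ι F) * (h : Matrix ι ι F) = 1 := by
      rw [← Units.val_mul, inv_mul_cancel, Units.val_one]
    have key : (h : Matrix ι ι F) * M = (ρ • M) * (h : Matrix ι ι F) := by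
      apply ext_TT e P
      intro x y
      rw [← Matrix.mulVec_mulVec, ← Matrix.mulVec_mulVec, hMT, hαβ, hαβ, Matrix.smul_mulVec, hMT, ← hXv, hXJ, TT_smul_left]
    rw [key, zero_smul, zero_add, mul_assoc, ← Units.val_mul, mul_inv_cancel, Units.val_one, mul_one]

end Cfsg.Agent.Lib.CmaxE.QuadF
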