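import Mathlib
import Cfsg.Agent.Lib.CmaxE.QuadF

/-!
# Binary forms over a field of odd degree

A self-adjoint field `E` of odd degree `r` acting on a space of dimension `2 r` with a quadratic form.  The form comes from
a binary form over `E`.  So either there are exactly two totally singular `E`-lines, or the quadratic extension of `E`
defined by the binary form contains a quadratic field of unitary type.
-/

set_option autoImplicit false

namespace Cfsg.Agent.Lib.CmaxE.BinK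

open Matrix Module Cfsg Cfsg.Geo
open Cfsg.Agent.Lib.Geo.Basic Cfsg.Agent.Lib.Geo.Polar Cfsg.Agent.Lib.Geo.QForm
open Cfsg.Agent.Lib.GeoOmega.Basic Cfsg.Agent.Lib.AschF.OmegaP Cfsg.Agent.Lib.QuadFn
open Cfsg.Agent.Lib.GeoOmega.Nondeg Cfsg.Agent.Lib.GeoOmega.NondegW Cfsg.Agent.Lib.GeoOmega.Singular
open Cfsg.Agent.Lib.AschF.OddA (polar_isom Q_isom card_eq_of_decomp hf_polar)
open Cfsg.Agent.Lib.CmaxE.Core Cfsg.Agent.Lib.CmaxE.Plus Cfsg.Agent.Lib.CmaxE.Common
open Cfsg.Agent.Lib.CmaxE.Sub2 (exists_root_quadratic)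
open Polynomial

universe u v

section Algebra

variable {F : Type u} [Field F] {E : Type v} [Field E] [Algebra F E]

/-- A non-zero functional on a field of finite degree. -/
theorem exists_lam : ∃ l : E →ₗ[F] F, l 1 ≠ 0 := by
  by_contra hc
  push Not at hc
  have h1 := (Module.forall_dual_apply_eq_zero_iff F (1 : E)).1 (fun f => hc f)
  exact one_ne_zero h1

variable [FiniteDimensional F E]

/-- The trace-like pairing is perfect. -/
theorem lam_zero {l : E →ₗ[F] F} (hl : l 1 ≠ 0) {w : E} (h : ∀ k, l (k * w) = 0) : w = 0 := by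
  by_contra hw
  apply hl
  have := h w⁻¹
  rwa [inv_mul_cancel₀ hw] at this

theorem lam_rep {l : E →ₗ[F] F} (hl : l 1 ≠ 0) (T : E →ₗ[F] F) : ∃ w : E, ∀ k, T k = l (k * w) := by
  let Ψ : E →ₗ[F] (E →ₗ[F] F) :=
    { toFun := fun w =>
        { toFun := fun k => l (k * w)
          map_add' := fun a b => by rw [add_mul, map_add]
          map_smul' := fun c a => by rw [smul_mul_assoc, map_smul]; rfl }
      map_add' := fun a b => by
        ext k
        simp [mul_add]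
      map_smul' := fun c a => by
        ext k
        simp [mul_smul_comm] }
  have hinj : Function.Injective Ψ := by
    rw [← LinearMap.ker_eq_bot, LinearMap.ker_eq_bot']
    intro w hw
    apply lam_zero hl
    intro k
    exact congrArg (fun g : E →ₗ[F] F => g k) hw
  have hsurj : Function.Surjective Ψ := by
    refine (LinearMap.injective_iff_surjective_of_finrank_eq_finrank ?_).1 hinj
    exact (Subspace.dual_finrank_eq (K := F) (V := E)).symm
  obtain ⟨w, hw⟩ := hsurj T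
  refine ⟨w, fun k => ?_⟩
  rw [← hw]
  rfl

/-- Squares span. -/
theorem lam_sq [Fintype E] {l : E →ₗ[F] F} (hl : l 1 ≠ 0) {w : E} (h : ∀ k, l (k * k * w) = 0) : w = 0 := by
  by_cases h2 : (2 : E) = 0
  · apply lam_zero hl
    intro k
    obtain ⟨c, rfl⟩ := exists_sqrt h2 k
    rw [pow_two]
    exact h c
  · apply lam_zero hl
    intro k
    have h1 := h (k + 1)
    have h3 := h k
    have h4 := h 1
    have h5 : (k + 1) * (k + 1) * w = k * k * w + 1 * 1 * w + (2 : E) * (k * w) := by ring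
    rw [h5, map_add, map_add, h3, h4, zero_add, zero_add] at h1
    have h6 : (2 : E) * (k * w) = (2 : F) • (k * w) := by
      rw [← map_ofNat (algebraMap F E) 2, ← Algebra.smul_def]
    rw [h6, map_smul, smul_eq_mul] at h1
    refine (mul_eq_zero.1 h1).resolve_left ?_
    intro h7
    apply h2
    have : (2 : E) = algebraMap F E 2 := (map_ofNat (algebraMap F E) 2).symm
    rw [this, h7, map_zero]

/-- Roots of quadratics with coefficients in the base, in an extension of odd degree. -/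
theorem root_of_odd (hodd : Odd (finrank F E)) {τ d : F} {x : E} (hx : x ^ 2 - algebraMap F E τ * x + algebraMap F E d = 0) :
    ∃ y : F, algebraMap F E y = x := by
  classical
  let p : F[X] := X ^ 2 - C τ * X + C d
  have hpdeg : p.natDegree = 2 := by
    simp only [p]
    compute_degree!
  have hpmon : p.Monic := by
    simp only [p]
    monicity!
  have hp : aeval x p = 0 := by
    simp only [p, map_add, map_sub, map_mul, map_pow, aeval_X, aeval_C]
    exact hx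
  have hint : IsIntegral F x := Algebra.IsIntegral.isIntegral x
  have h1 := minpoly.dvd F x hp
  have h3 : (minpoly F x).natDegree ≤ 2 := hpdeg ▸ natDegree_le_of_dvd h1 hpmon.ne_zero
  have h4 := minpoly.degree_dvd hint
  have h5 : (minpoly F x).natDegree ≠ 2 := by
    intro h
    rw [h] at h4
    obtain ⟨t, ht⟩ := hodd
    omega
  have h6 : 0 < (minpoly F x).natDegree := minpoly.natDegree_pos hint
  have h7 : (minpoly F x).natDegree = 1 := by omega
  have h8 := minpoly.natDegree_eq_one_iff.1 h7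
  exact h8

/-- The quadratic extension contains a root of any quadratic polynomial. -/
theorem root_lemma [Fintype E] {c n : E} (hno : ∀ s : E, s ^ 2 - c * s + n ≠ 0) (τ d : E) :
    ∃ s₁ s₂ : E, s₁ ^ 2 - n * s₂ ^ 2 = τ * s₁ - d ∧ 2 * s₁ * s₂ + c * s₂ ^ 2 = τ * s₂ := by
  classical
  let g : E[X] := X ^ 2 - C c * X + C n
  have hdeg : g.natDegree = 2 := by
    simp only [g]
    compute_degree!
  have hmon : g.Monic := by
    simp only [g]
    monicity!
  have hg0 : g ≠ 0 := hmon.ne_zero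
  have hev : ∀ s : E, g.eval s = s ^ 2 - c * s + n := by
    intro s
    simp [g]
  have hirr : Irreducible g := by
    rw [hmon.irreducible_iff_roots_eq_zero_of_degree_le_three (by omega) (by omega)]
    rw [Multiset.eq_zero_iff_forall_notMem]
    intro r hr
    have hr' : g.eval r = 0 := isRoot_of_mem_roots hr
    rw [hev] at hr'
    exact hno r hr'
  haveI : Fact (Irreducible g) := ⟨hirr⟩
  let L := AdjoinRoot g
  let pb := AdjoinRoot.powerBasis hg0
  haveI : Module.Finite E L := pb.finite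
  haveI : Finite L := Module.finite_of_finite E
  haveI : Fintype L := Fintype.ofFinite L
  have hfin : Module.finrank E L = 2 := by
    rw [pb.finrank]
    simpa [pb] using hdeg
  let θ : L := AdjoinRoot.root g
  let ι' : E →+* L := algebraMap E L
  have hθ : θ ^ 2 = ι' c * θ - ι' n := by
    have h1 : AdjoinRoot.mk g g = 0 := AdjoinRoot.mk_self
    have h3 : AdjoinRoot.mk g g = θ ^ 2 - ι' c * θ + ι' n := by
      simp only [g, map_add, map_sub, map_mul, map_pow, AdjoinRoot.mk_X, AdjoinRoot.mk_C]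
      rfl
    rw [h3] at h1
    linear_combination h1
  have hθE : ∀ a b : E, ι' a + ι' b * θ = 0 → a = 0 ∧ b = 0 := by
    intro a b hab
    have hb : b = 0 := by
      by_contra hb
      have h3 : θ = ι' (-a / b) := by
        rw [map_div₀, map_neg]
        have hb' : ι' b ≠ 0 := fun h => hb (by simpa using (map_eq_zero ι').1 h)
        rw [eq_div_iff hb']
        linear_combination hab
      apply hno (-a / b)
      apply ι'.injective
      rw [map_zero, map_add, map_sub, map_mul, map_pow, ← h3]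
      linear_combination hθ
    subst hb
    rw [map_zero, zero_mul, add_zero] at hab
    exact ⟨by simpa using (map_eq_zero ι').1 hab, rfl⟩
  -- coordinates
  let T : (E × E) →ₗ[E] L :=
    { toFun := fun a => a.1 • (1 : L) + a.2 • θ
      map_add' := fun a b => by simp only [Prod.fst_add, Prod.snd_add, add_smul]; abel
      map_smul' := fun c a => by simp only [Prod.smul_fst, Prod.smul_snd, smul_eq_mul, mul_smul, smul_add, RingHom.id_apply] }
  have hT : ∀ a : E × E, T a = ι' a.1 + ι' a.2 * θ := by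
    intro a
    change a.1 • (1 : L) + a.2 • θ = _
    rw [Algebra.smul_def, Algebra.smul_def, mul_one]
  have hTinj : Function.Injective T := by
    rw [← LinearMap.ker_eq_bot, LinearMap.ker_eq_bot']
    rintro ⟨a, b⟩ hab
    rw [hT] at hab
    obtain ⟨h3, h4⟩ := hθE a b hab
    rw [h3, h4]
    rfl
  have hTsurj : Function.Surjective T := by
    refine (LinearMap.injective_iff_surjective_of_finrank_eq_finrank ?_).1 hTinj
    rw [hfin, Module.finrank_prod, Module.finrank_self]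
  let F₁ : Subfield L := ι'.fieldRange
  have hcF₁ : Nat.card F₁ = Nat.card E := by
    refine (Nat.card_congr (Equiv.ofBijective (fun a : E => (⟨ι' a, RingHom.mem_fieldRange_self ι' a⟩ : F₁)) ⟨?_, ?_⟩)).symm
    · intro a b hab
      exact ι'.injective (congrArg Subtype.val hab)
    · rintro ⟨y, a, rfl⟩
      exact ⟨a, rfl⟩
  have hcL : Fintype.card L = Nat.card F₁ ^ 2 := by
    rw [← Nat.card_eq_fintype_card, Module.natCard_eq_pow_finrank (K := E), hfin, hcF₁]
  obtain ⟨s, hs⟩ := exists_root_quadratic F₁ hcL ⟨ι' (-τ), RingHom.mem_fieldRange_self ι' _⟩ ⟨ι' d, RingHom.mem_fieldRange_self ι' _⟩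
  obtain ⟨⟨s₁, s₂⟩, hs₁₂⟩ := hTsurj s
  rw [hT] at hs₁₂
  simp only at hs₁₂
  simp only [map_neg] at hs
  rw [← hs₁₂] at hs
  have h3 : ι' (s₁ ^ 2 - n * s₂ ^ 2 - τ * s₁ + d) + ι' (2 * s₁ * s₂ + c * s₂ ^ 2 - τ * s₂) * θ = 0 := by
    simp only [map_add, map_sub, map_mul, map_pow, map_ofNat]
    linear_combination hs - (ι' s₂) ^ 2 * hθ
  obtain ⟨h4, h5⟩ := hθE _ _ h3
  exact ⟨s₁, s₂, by linear_combination h4, by linear_combination h5⟩

omit [Algebra F E] [FiniteDimensional F E] in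
/-- Norms on the quadratic algebra. -/
theorem pair_cancel {c n : E} (hno : ∀ s : E, s ^ 2 - c * s + n ≠ 0) {x₁ x₂ w₁ w₂ : E} (h₁ : x₁ * w₁ - x₂ * w₂ * n = 0)
    (h₂ : x₁ * w₂ + x₂ * w₁ + x₂ * w₂ * c = 0) : (x₁ = 0 ∧ x₂ = 0) ∨ (w₁ = 0 ∧ w₂ = 0) := by
  have hN : ∀ y₁ y₂ : E, y₁ ^ 2 + c * y₁ * y₂ + n * y₂ ^ 2 = 0 → y₁ = 0 ∧ y₂ = 0 := by
    intro y₁ y₂ h
    have hy₂ : y₂ = 0 := by
      by_contra hy
      apply hno (-y₁ / y₂)
      field_simp
      linear_combination h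
    subst hy₂
    simpa using h
  have h3 : (x₁ ^ 2 + c * x₁ * x₂ + n * x₂ ^ 2) * (w₁ ^ 2 + c * w₁ * w₂ + n * w₂ ^ 2) = 0 := by
    have : (x₁ ^ 2 + c * x₁ * x₂ + n * x₂ ^ 2) * (w₁ ^ 2 + c * w₁ * w₂ + n * w₂ ^ 2) =
        (x₁ * w₁ - x₂ * w₂ * n) ^ 2 + c * (x₁ * w₁ - x₂ * w₂ * n) * (x₁ * w₂ + x₂ * w₁ + x₂ * w₂ * c) +
          n * (x₁ * w₂ + x₂ * w₁ + x₂ * w₂ * c) ^ 2 := by ring
    rw [this, h₁, h₂]
    ring
  rcases mul_eq_zero.1 h3 with h | h
  · exact Or.inl (hN _ _ h)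
  · exact Or.inr (hN _ _ h)

omit [Algebra F E] [FiniteDimensional F E] in
/-- A quadratic polynomial has at most two roots in the quadratic algebra. -/
theorem root_cases {c n τ d : E} (hno : ∀ s : E, s ^ 2 - c * s + n ≠ 0) {y₁ y₂ z₁ z₂ : E}
    (hy₁ : y₁ ^ 2 - n * y₂ ^ 2 = τ * y₁ - d) (hy₂ : 2 * y₁ * y₂ + c * y₂ ^ 2 = τ * y₂)
    (hz₁ : z₁ ^ 2 - n * z₂ ^ 2 = τ * z₁ - d) (hz₂ : 2 * z₁ * z₂ + c * z₂ ^ 2 = τ * z₂) :
    (y₁ = z₁ ∧ y₂ = z₂) ∨ (y₁ = τ - z₁ ∧ y₂ = - z₂) := by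
  rcases pair_cancel hno (x₁ := y₁ - z₁) (x₂ := y₂ - z₂) (w₁ := y₁ + z₁ - τ) (w₂ := y₂ + z₂)
    (by linear_combination hy₁ - hz₁) (by linear_combination hy₂ - hz₂) with ⟨h1, h3⟩ | ⟨h1, h3⟩
  · exact Or.inl ⟨sub_eq_zero.1 h1, sub_eq_zero.1 h3⟩
  · exact Or.inr ⟨by linear_combination h1, by linear_combination h3⟩

end Algebra


section Geo

variable {ι : Type} [Fintype ι] [DecidableEq ι] {F : Type u} [Field F] [Fintype F] {Q : (ι → F) → F}
variable {E : Type v} [Field E] [Fintype E] [Algebra F E] (ρ : E →ₐ[F] Matrix ι ι F)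

omit [Fintype F] [Fintype E] in
theorem act_add (k k' : E) (v : ι → F) : ρ (k + k') *ᵥ v = ρ k *ᵥ v + ρ k' *ᵥ v := by
  rw [map_add, Matrix.add_mulVec]

omit [Fintype F] [Fintype E] in
theorem act_mul (k k' : E) (v : ι → F) : ρ (k * k') *ᵥ v = ρ k *ᵥ (ρ k' *ᵥ v) := by
  rw [map_mul, Matrix.mulVec_mulVec]

omit [Fintype F] [Fintype E] in
theorem act_one (v : ι → F) : ρ 1 *ᵥ v = v := by
  rw [map_one, Matrix.one_mulVec]

omit [Fintype F] [Fintype E] in
theorem act_zero (v : ι → F) : ρ 0 *ᵥ v = 0 := by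
  rw [map_zero, Matrix.zero_mulVec]

omit [Fintype F] [Fintype E] in
theorem act_smul (c : F) (k : E) (v : ι → F) : ρ (c • k) *ᵥ v = c • (ρ k *ᵥ v) := by
  rw [map_smul, Matrix.smul_mulVec]

omit [Fintype F] [Fintype E] in
theorem act_neg (k : E) (v : ι → F) : ρ (-k) *ᵥ v = - (ρ k *ᵥ v) := by
  rw [map_neg, Matrix.neg_mulVec]

omit [Fintype F] [Fintype E] in
theorem act_inj {k : E} {v : ι → F} (hk : k ≠ 0) (h : ρ k *ᵥ v = 0) : v = 0 := by
  have h1 : ρ (k⁻¹ * k) *ᵥ v = 0 := by rw [act_mul, h, Matrix.mulVec_zero]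
  rwa [inv_mul_cancel₀ hk, act_one] at h1

/-- Coordinates with respect to a pair of vectors. -/
def Phi (e₁ e₂ : ι → F) (α β : E) : ι → F := ρ α *ᵥ e₁ + ρ β *ᵥ e₂

omit [Fintype F] [Fintype E] in
theorem Phi_add (e₁ e₂ : ι → F) (α β α' β' : E) :
    Phi ρ e₁ e₂ (α + α') (β + β') = Phi ρ e₁ e₂ α β + Phi ρ e₁ e₂ α' β' := by
  simp only [Phi, act_add]
  abel

omit [Fintype F] [Fintype E] in
theorem Phi_act (e₁ e₂ : ι → F) (k α β : E) : ρ k *ᵥ Phi ρ e₁ e₂ α β = Phi ρ e₁ e₂ (k * α) (k * β) := by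
  simp only [Phi, act_mul, Matrix.mulVec_add]

omit [Fintype F] [Fintype E] in
theorem Phi_smul (e₁ e₂ : ι → F) (c : F) (α β : E) : Phi ρ e₁ e₂ (c • α) (c • β) = c • Phi ρ e₁ e₂ α β := by
  simp only [Phi, act_smul, smul_add]

omit [Fintype F] [Fintype E] in
theorem Phi_e₁ (e₁ e₂ : ι → F) : Phi ρ e₁ e₂ 1 0 = e₁ := by
  simp only [Phi, act_one, act_zero, add_zero]

omit [Fintype F] [Fintype E] in
theorem Phi_e₂ (e₁ e₂ : ι → F) : Phi ρ e₁ e₂ 0 1 = e₂ := by
  simp only [Phi, act_one, act_zero, zero_add]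

/-- The binary form in coordinates. -/
structure BF (Q : (ι → F) → F) (l : E →ₗ[F] F) (e₁ e₂ : ι → F) (a b c : E) : Prop where
  span : ∀ v, ∃ α β, v = Phi ρ e₁ e₂ α β
  uniq : ∀ α β, Phi ρ e₁ e₂ α β = 0 → α = 0 ∧ β = 0
  form : ∀ α β, Q (Phi ρ e₁ e₂ α β) = l (a * α ^ 2 + c * α * β + b * β ^ 2)

variable (hQ : IsNondegenerateQuadraticForm Q) (hsa : ∀ k u v, pol Q (ρ k *ᵥ u) v = pol Q u (ρ k *ᵥ v))
include hQ hsa

theorem alt_two (h2 : (2 : F) = 0) (k : E) (v : ι → F) : pol Q (ρ k *ᵥ v) v = 0 := by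
  have h2E : (2 : E) = 0 := by
    have : (2 : E) = algebraMap F E 2 := (map_ofNat (algebraMap F E) 2).symm
    rw [this, h2, map_zero]
  obtain ⟨c, rfl⟩ := exists_sqrt h2E k
  rw [pow_two, act_mul, hsa, pol_self hQ, h2, zero_mul]

theorem exists_c [FiniteDimensional F E] {l : E →ₗ[F] F} (hl : l 1 ≠ 0) (u v : ι → F) :
    ∃ c : E, ∀ k, pol Q (ρ k *ᵥ u) v = l (k * c) := by
  let T : E →ₗ[F] F :=
    { toFun := fun k => pol Q (ρ k *ᵥ u) v
      map_add' := fun a b => by rw [act_add, pol_add_left hQ]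
      map_smul' := fun c a => by rw [act_smul, pol_smul_left hQ]; rfl }
  exact lam_rep hl T

theorem exists_a [FiniteDimensional F E] {l : E →ₗ[F] F} (hl : l 1 ≠ 0) (v : ι → F) :
    ∃ a : E, ∀ k, Q (ρ k *ᵥ v) = l (k * k * a) := by
  classical
  by_cases h2 : (2 : F) = 0
  · have h2E : (2 : E) = 0 := by
      have : (2 : E) = algebraMap F E 2 := (map_ofNat (algebraMap F E) 2).symm
      rw [this, h2, map_zero]
    have hs := fun k : E => exists_sqrt h2E k
    choose s hs using hs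
    have hsadd : ∀ k k', s (k + k') = s k + s k' := by
      intro k k'
      apply sq_inj_of_two h2E
      rw [hs, add_sq, hs, hs, h2E]
      ring
    have hs2 : ∀ k, s (k * k) = k := by
      intro k
      apply sq_inj_of_two h2E
      rw [hs, pow_two]
    let T : E →ₗ[F] F :=
      { toFun := fun k => Q (ρ (s k) *ᵥ v)
        map_add' := fun a b => by
          rw [hsadd, act_add, Q_add hQ]
          have h3 : pol Q (ρ (s a) *ᵥ v) (ρ (s b) *ᵥ v) = 0 := by
            rw [← hsa (s b), ← act_mul]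
            exact alt_two ρ hQ hsa h2 _ _
          rw [h3, add_zero]
        map_smul' := fun c a => by
          obtain ⟨d, hd⟩ := exists_sqrt h2 c
          have h3 : s (c • a) = d • s a := by
            apply sq_inj_of_two h2E
            rw [hs, _root_.smul_pow, hs, hd]
          rw [h3, act_smul, hQ.smul, ← hd]
          simp only [RingHom.id_apply]
          rw [pow_two, smul_eq_mul] }
    obtain ⟨a, ha⟩ := lam_rep hl T
    refine ⟨a, fun k => ?_⟩
    have h3 := ha (k * k)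
    change Q (ρ (s (k * k)) *ᵥ v) = _ at h3
    rw [hs2] at h3
    exact h3
  · obtain ⟨c, hc⟩ := exists_c ρ hQ hsa hl v v
    refine ⟨(2 : F)⁻¹ • c, fun k => ?_⟩
    have h3 := hc (k * k)
    rw [act_mul, hsa, pol_self hQ] at h3
    rw [mul_smul_comm, map_smul, ← h3, smul_eq_mul]
    field_simp

/-- Pairs of vectors are coordinate systems. -/
theorem exists_BF {r : ℕ} (hr : finrank F E = r) (hcard : Fintype.card ι = 2 * r) (hr0 : 0 < r) {l : E →ₗ[F] F} (hl : l 1 ≠ 0)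
    {e₁ : ι → F} (he₁ : e₁ ≠ 0) : ∃ (e₂ : ι → F) (a b c : E), BF ρ Q l e₁ e₂ a b c := by
  classical
  haveI : FiniteDimensional F E := Module.Finite.of_finite
  let L₁ : E →ₗ[F] (ι → F) :=
    { toFun := fun k => ρ k *ᵥ e₁
      map_add' := fun a b => act_add ρ a b e₁
      map_smul' := fun c a => act_smul ρ c a e₁ }
  have hL₁ : Function.Injective L₁ := by
    rw [← LinearMap.ker_eq_bot, LinearMap.ker_eq_bot']
    intro k hk
    by_contra hk0
    exact he₁ (act_inj ρ hk0 hk)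
  obtain ⟨e₂, he₂⟩ : ∃ e₂, e₂ ∉ LinearMap.range L₁ := by
    by_contra hc
    push Not at hc
    have h1 : LinearMap.range L₁ = ⊤ := Submodule.eq_top_iff'.2 hc
    have h3 := LinearMap.finrank_range_of_inj hL₁
    rw [h1, finrank_top, finrank_total, hr] at h3
    omega
  have huniq : ∀ α β, Phi ρ e₁ e₂ α β = 0 → α = 0 ∧ β = 0 := by
    intro α β h
    have hβ : β = 0 := by
      by_contra hβ
      apply he₂
      refine ⟨-(β⁻¹ * α), ?_⟩
      change ρ (-(β⁻¹ * α)) *ᵥ e₁ = e₂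
      have h3 : ρ β *ᵥ e₂ = - (ρ α *ᵥ e₁) := eq_neg_of_add_eq_zero_right h
      have h4 : e₂ = ρ β⁻¹ *ᵥ (ρ β *ᵥ e₂) := by
        rw [← act_mul, inv_mul_cancel₀ hβ, act_one]
      rw [h4, h3, act_neg, act_mul, Matrix.mulVec_neg]
    subst hβ
    simp only [Phi, act_zero, add_zero] at h
    refine ⟨?_, rfl⟩
    by_contra hα
    exact he₁ (act_inj ρ hα h)
  let Φ : (E × E) →ₗ[F] (ι → F) :=
    { toFun := fun x => Phi ρ e₁ e₂ x.1 x.2
      map_add' := fun x y => Phi_add ρ e₁ e₂ _ _ _ _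
      map_smul' := fun c x => Phi_smul ρ e₁ e₂ c x.1 x.2 }
  have hΦinj : Function.Injective Φ := by
    rw [← LinearMap.ker_eq_bot, LinearMap.ker_eq_bot']
    rintro ⟨α, β⟩ h
    obtain ⟨h3, h4⟩ := huniq α β h
    rw [h3, h4]
    rfl
  have hΦsurj : Function.Surjective Φ := by
    refine (LinearMap.injective_iff_surjective_of_finrank_eq_finrank ?_).1 hΦinj
    rw [Module.finrank_prod, hr, finrank_total, hcard]
    ring
  obtain ⟨a, ha⟩ := exists_a ρ hQ hsa hl e₁
  obtain ⟨b, hb⟩ := exists_a ρ hQ hsa hl e₂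
  obtain ⟨c, hc⟩ := exists_c ρ hQ hsa hl e₁ e₂
  refine ⟨e₂, a, b, c, ?_, huniq, ?_⟩
  · intro v
    obtain ⟨⟨α, β⟩, h⟩ := hΦsurj v
    exact ⟨α, β, h.symm⟩
  · intro α β
    simp only [Phi]
    rw [Q_add hQ, ha, hb, ← hsa β, ← act_mul, hc, ← map_add, ← map_add]
    congr 1
    ring

namespace BF

variable {l : E →ₗ[F] F} {e₁ e₂ : ι → F} {a b c : E}

omit hsa in
theorem Qk (P : BF ρ Q l e₁ e₂ a b c) (k α β : E) :
    Q (ρ k *ᵥ Phi ρ e₁ e₂ α β) = l (k * k * (a * α ^ 2 + c * α * β + b * β ^ 2)) := by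
  rw [Phi_act, P.form]
  congr 1
  ring

omit hsa in
theorem polf (P : BF ρ Q l e₁ e₂ a b c) (α β α' β' : E) :
    pol Q (Phi ρ e₁ e₂ α β) (Phi ρ e₁ e₂ α' β') = l (2 * a * α * α' + c * (α * β' + β * α') + 2 * b * β * β') := by
  have h1 := Q_add hQ (Phi ρ e₁ e₂ α β) (Phi ρ e₁ e₂ α' β')
  rw [← Phi_add, P.form, P.form, P.form] at h1
  have h3 : l (a * (α + α') ^ 2 + c * (α + α') * (β + β') + b * (β + β') ^ 2) =
      l (a * α ^ 2 + c * α * β + b * β ^ 2) + l (a * α' ^ 2 + c * α' * β' + b * β' ^ 2) +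
        l (2 * a * α * α' + c * (α * β' + β * α') + 2 * b * β * β') := by
    rw [← map_add, ← map_add]
    congr 1
    ring
  rw [h3] at h1
  linear_combination -h1

omit hsa in
theorem ext_Phi (P : BF ρ Q l e₁ e₂ a b c) {X Y : Matrix ι ι F}
    (h : ∀ α β, X *ᵥ Phi ρ e₁ e₂ α β = Y *ᵥ Phi ρ e₁ e₂ α β) : X = Y := by
  apply Matrix.ext_of_mulVec_single
  intro j
  obtain ⟨α, β, hv⟩ := P.span (Pi.single j 1)
  rw [hv]
  exact h α β

omit hsa in
/-- Totally singular lines in coordinates. -/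
theorem ts_iff [FiniteDimensional F E] (hl : l 1 ≠ 0) (P : BF ρ Q l e₁ e₂ a b c) (α β : E) :
    (∀ k, Q (ρ k *ᵥ Phi ρ e₁ e₂ α β) = 0) ↔ a * α ^ 2 + c * α * β + b * β ^ 2 = 0 := by
  constructor
  · intro h
    apply lam_sq hl
    intro k
    rw [← P.Qk ρ hQ]
    exact h k
  · intro h k
    rw [P.Qk ρ hQ, h, mul_zero, map_zero]


omit hsa in
theorem inj (P : BF ρ Q l e₁ e₂ a b c) {α β α' β' : E} (h : Phi ρ e₁ e₂ α β = Phi ρ e₁ e₂ α' β') : α = α' ∧ β = β' := by
  have h1 : Phi ρ e₁ e₂ (α - α') (β - β') = 0 := by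
    have h3 := Phi_add ρ e₁ e₂ (α - α') (β - β') α' β'
    rw [sub_add_cancel, sub_add_cancel, h] at h3
    exact add_eq_right.1 h3.symm
  obtain ⟨h3, h4⟩ := P.uniq _ _ h1
  exact ⟨sub_eq_zero.1 h3, sub_eq_zero.1 h4⟩


end BF

omit hQ hsa in
/-- Pairs of complementary subspaces. -/
theorem mdec_pair {D₀ D₁ : Submodule F (ι → F)} {k : ℕ} (hk : 0 < k) (h0 : finrank F D₀ = k) (h1 : finrank F D₁ = k)
    (hinf : D₀ ⊓ D₁ = ⊥) (hsup : D₀ ⊔ D₁ = ⊤) : IsMDecomposition k ![D₀, D₁] := by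
  refine ⟨le_rfl, hk, ?_, ?_, ?_⟩
  · intro i
    fin_cases i
    · exact h0
    · exact h1
  · intro i
    fin_cases i
    · refine Disjoint.mono_right ?_ (disjoint_iff.2 hinf)
      refine iSup₂_le fun j hj => ?_
      fin_cases j
      · exact absurd rfl hj
      · exact le_rfl
    · refine Disjoint.mono_right ?_ (disjoint_iff.2 (by rw [inf_comm]; exact hinf))
      refine iSup₂_le fun j hj => ?_
      fin_cases j
      · exact le_rfl
      · exact absurd rfl hj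
  · rw [eq_top_iff, ← hsup]
    refine sup_le ?_ ?_
    · exact le_iSup (fun i => ![D₀, D₁] i) 0
    · exact le_iSup (fun i => ![D₀, D₁] i) 1

omit hQ hsa in
/-- The line through a vector. -/
def LE (v : ι → F) : Submodule F (ι → F) where
  carrier := {x | ∃ k, ρ k *ᵥ v = x}
  add_mem' := by
    rintro _ _ ⟨k, rfl⟩ ⟨k', rfl⟩
    exact ⟨k + k', act_add ρ k k' v⟩
  zero_mem' := ⟨0, act_zero ρ v⟩
  smul_mem' := by
    rintro c _ ⟨k, rfl⟩
    exact ⟨c • k, act_smul ρ c k v⟩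

omit hQ hsa [Fintype F] [Fintype E] in
theorem finrank_LE {v : ι → F} (hv : v ≠ 0) : finrank F (LE ρ v) = finrank F E := by
  let L : E →ₗ[F] (ι → F) :=
    { toFun := fun k => ρ k *ᵥ v
      map_add' := fun a b => act_add ρ a b v
      map_smul' := fun c a => act_smul ρ c a v }
  have hL : Function.Injective L := by
    rw [← LinearMap.ker_eq_bot, LinearMap.ker_eq_bot']
    intro k hk
    by_contra hk0
    exact hv (act_inj ρ hk0 hk)
  have h1 : LinearMap.range L = LE ρ v := by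
    ext x
    constructor
    · rintro ⟨k, rfl⟩
      exact ⟨k, rfl⟩
    · rintro ⟨k, rfl⟩
      exact ⟨k, rfl⟩
  rw [← h1, LinearMap.finrank_range_of_inj hL]

/-- A totally singular line: the two lines are permuted. -/
theorem caseA {r : ℕ} (hr : finrank F E = r) (hcard : Fintype.card ι = 2 * r) (hr0 : 0 < r) {l : E →ₗ[F] F} (hl : l 1 ≠ 0)
    {e₁ : ι → F} (he₁ : e₁ ≠ 0) (hts : ∀ k, Q (ρ k *ᵥ e₁) = 0) {H : Subgroup (GL ι F)} (hHI : H ≤ isometryGroup F Q)
    (hσ : ∀ h ∈ H, ∃ σ : E ≃ₐ[F] E, ∀ k, (h : Matrix ι ι F) * ρ k = ρ (σ k) * (h : Matrix ι ι F)) :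
    ∃ D : Fin 2 → Submodule F (ι → F), IsMDecomposition r D ∧ (∀ i, IsTotallySingularQuad Q (D i)) ∧ H ≤ decompositionStabilizer D := by
  classical
  haveI : FiniteDimensional F E := Module.Finite.of_finite
  obtain ⟨e₂, a, b, c, P⟩ := exists_BF ρ hQ hsa hr hcard hr0 hl he₁
  have hPe₁ := Phi_e₁ ρ e₁ e₂
  have ha : a = 0 := by
    have h1 := (P.ts_iff ρ hQ hl 1 0).1 (by rw [hPe₁]; exact hts)
    simpa using h1
  subst ha
  have hc : c ≠ 0 := by
    rintro rfl
    obtain ⟨w, hw⟩ := (hQ.nondegenerate e₁ he₁).2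
    apply hw
    obtain ⟨α, β, rfl⟩ := P.span w
    have h1 := P.polf ρ hQ 1 0 α β
    rw [hPe₁] at h1
    change pol Q e₁ _ = 0
    rw [h1]
    simp
  set e₂' := Phi ρ e₁ e₂ (-b) c with he₂'
  have he₂'0 : e₂' ≠ 0 := by
    intro h0
    exact hc (P.uniq _ _ h0).2
  have hts' : ∀ k, Q (ρ k *ᵥ e₂') = 0 := (P.ts_iff ρ hQ hl (-b) c).2 (by ring)
  have hfin₀ : finrank F (LE ρ e₁) = r := by rw [finrank_LE ρ he₁, hr]
  have hfin₁ : finrank F (LE ρ e₂') = r := by rw [finrank_LE ρ he₂'0, hr]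
  have hmem₀ : ∀ α, Phi ρ e₁ e₂ α 0 ∈ LE ρ e₁ := by
    intro α
    refine ⟨α, ?_⟩
    simp [Phi, act_zero]
  have hinf : LE ρ e₁ ⊓ LE ρ e₂' = ⊥ := by
    rw [eq_bot_iff]
    rintro x ⟨⟨k, rfl⟩, ⟨k', hk'⟩⟩
    have h1 : ρ k' *ᵥ e₂' = Phi ρ e₁ e₂ (k' * -b) (k' * c) := Phi_act ρ e₁ e₂ k' _ _
    have h3 : ρ k *ᵥ e₁ = Phi ρ e₁ e₂ k 0 := by simp [Phi, act_zero]
    rw [h1, h3] at hk'
    obtain ⟨h4, h5⟩ := P.inj ρ hQ hk'
    have hk'0 : k' = 0 := (mul_eq_zero.1 h5).resolve_right hc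
    subst hk'0
    have hk0 : k = 0 := by simpa using h4.symm
    subst hk0
    simp [act_zero]
  have hsup : LE ρ e₁ ⊔ LE ρ e₂' = ⊤ := by
    rw [eq_top_iff]
    intro v _
    obtain ⟨α, β, rfl⟩ := P.span v
    have h1 : Phi ρ e₁ e₂ α β = Phi ρ e₁ e₂ (α + β / c * b) 0 + ρ (β / c) *ᵥ e₂' := by
      rw [he₂', Phi_act, ← Phi_add]
      congr 1
      · field_simp
        ring
      · field_simp
        ring
    rw [h1]
    exact Submodule.add_mem _ (Submodule.mem_sup_left (hmem₀ _)) (Submodule.mem_sup_right ⟨_, rfl⟩)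
  have hcl : ∀ v, v ≠ 0 → (∀ k, Q (ρ k *ᵥ v) = 0) → v ∈ LE ρ e₁ ∨ v ∈ LE ρ e₂' := by
    intro v hv0 hv
    obtain ⟨α, β, rfl⟩ := P.span v
    have h1 := (P.ts_iff ρ hQ hl α β).1 hv
    have h3 : β * (c * α + b * β) = 0 := by linear_combination h1
    rcases mul_eq_zero.1 h3 with h4 | h4
    · subst h4
      exact Or.inl (hmem₀ α)
    · right
      refine ⟨β / c, ?_⟩
      rw [he₂', Phi_act]
      congr 1
      · field_simp
        linear_combination -h4
      · field_simp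
  have hinvE : ∀ v k', ρ k' *ᵥ v ∈ LE ρ v := fun v k' => ⟨k', rfl⟩
  have hEinv : ∀ v k' x, x ∈ LE ρ v → ρ k' *ᵥ x ∈ LE ρ v := by
    rintro v k' _ ⟨k, rfl⟩
    exact ⟨k' * k, act_mul ρ k' k v⟩
  refine ⟨![LE ρ e₁, LE ρ e₂'], mdec_pair hr0 hfin₀ hfin₁ hinf hsup, ?_, ?_⟩
  · intro i
    fin_cases i
    · rintro _ ⟨k, rfl⟩
      exact hts k
    · rintro _ ⟨k, rfl⟩
      exact hts' k
  · intro h hh
    obtain ⟨σ, hσk⟩ := hσ h hh
    have hact : ∀ k v, (h : Matrix ι ι F) *ᵥ (ρ k *ᵥ v) = ρ (σ k) *ᵥ ((h : Matrix ι ι F) *ᵥ v) := by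
      intro k v
      rw [Matrix.mulVec_mulVec, Matrix.mulVec_mulVec, hσk]
    have hQact : ∀ k v, Q (ρ k *ᵥ ((h : Matrix ι ι F) *ᵥ v)) = Q (ρ (σ.symm k) *ᵥ v) := by
      intro k v
      have h1 := hact (σ.symm k) v
      rw [AlgEquiv.apply_symm_apply] at h1
      rw [← h1, Q_isom (hHI hh)]
    have hne : ∀ {v : ι → F}, v ≠ 0 → (h : Matrix ι ι F) *ᵥ v ≠ 0 := by
      intro v hv h0
      apply hv
      rw [← inv_mulVec_mulVec h v, h0, Matrix.mulVec_zero]
    have hc₀ := hcl _ (hne he₁) (fun k => by rw [hQact]; exact hts _)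
    have hc₁ := hcl _ (hne he₂'0) (fun k => by rw [hQact]; exact hts' _)
    have hto : ∀ {v : ι → F} {T : Submodule F (ι → F)}, (∀ k' x, x ∈ T → ρ k' *ᵥ x ∈ T) → (h : Matrix ι ι F) *ᵥ v ∈ T →
        ∀ x ∈ LE ρ v, (h : Matrix ι ι F) *ᵥ x ∈ T := by
      rintro v T hT hv _ ⟨k, rfl⟩
      rw [hact]
      exact hT _ _ hv
    have hfalse : ∀ {T : Submodule F (ι → F)}, (∀ k' x, x ∈ T → ρ k' *ᵥ x ∈ T) → finrank F T = r →
        (h : Matrix ι ι F) *ᵥ e₁ ∈ T → (h : Matrix ι ι F) *ᵥ e₂' ∈ T → False := by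
      intro T hT hTr h1 h3
      have hle : (⊤ : Submodule F (ι → F)) ≤ T := by
        intro v _
        have hv : ((h⁻¹ : GL ι F) : Matrix ι ι F) *ᵥ v ∈ LE ρ e₁ ⊔ LE ρ e₂' := by
          rw [hsup]
          trivial
        obtain ⟨x, hx, y, hy, hxy⟩ := Submodule.mem_sup.1 hv
        have h4 : v = (h : Matrix ι ι F) *ᵥ (x + y) := by
          rw [hxy, mulVec_inv_mulVec]
        rw [h4, Matrix.mulVec_add]
        exact T.add_mem (hto hT h1 x hx) (hto hT h3 y hy)
      have h5 := Submodule.finrank_mono hle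
      rw [finrank_top, finrank_total, hcard, hTr] at h5
      omega
    have hT₀ := hEinv e₁
    have hT₁ := hEinv e₂'
    rcases hc₀ with h0 | h0 <;> rcases hc₁ with h1 | h1
    · exact (hfalse hT₀ hfin₀ h0 h1).elim
    · refine Cfsg.Agent.Lib.Geo.SpDecomp.mem_decompositionStabilizer_of_forall (k := r) ?_ 1 h ?_
      · intro i
        fin_cases i
        · exact hfin₀
        · exact hfin₁
      · intro i x hx
        fin_cases i
        · exact hto hT₀ h0 x hx
        · exact hto hT₁ h1 x hx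
    · refine Cfsg.Agent.Lib.Geo.SpDecomp.mem_decompositionStabilizer_of_forall (k := r) ?_ (Equiv.swap 0 1) h ?_
      · intro i
        fin_cases i
        · exact hfin₀
        · exact hfin₁
      · intro i x hx
        fin_cases i
        · exact hto hT₁ h0 x hx
        · exact hto hT₀ h1 x hx
    · exact (hfalse hT₁ hfin₁ h0 h1).elim


/-- No totally singular line: the quadratic field of unitary type. -/
theorem caseB {r : ℕ} (hr : finrank F E = r) (hcard : Fintype.card ι = 2 * r) (hr0 : 0 < r) (hodd : Odd r) {l : E →ₗ[F] F} (hl : l 1 ≠ 0)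
    (haniso : ∀ v : ι → F, v ≠ 0 → ∃ k, Q (ρ k *ᵥ v) ≠ 0) {H : Subgroup (GL ι F)} (hHI : H ≤ isometryGroup F Q)
    (hσ : ∀ h ∈ H, ∃ σ : E ≃ₐ[F] E, ∀ k, (h : Matrix ι ι F) * ρ k = ρ (σ k) * (h : Matrix ι ι F)) :
    ∃ K₂ : Subalgebra F (Matrix ι ι F), IsFieldSubalgebra 2 K₂ ∧ IsAdjointClosedFor (pol Q) K₂ ∧
      ¬ IsSelfAdjointFor (pol Q) K₂ ∧ H ≤ subalgebraNormalizer K₂ := by
  classical
  haveI : FiniteDimensional F E := Module.Finite.of_finite
  haveI : Nonempty ι := Fintype.card_pos_iff.1 (by omega)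
  obtain ⟨i₀⟩ := ‹Nonempty ι›
  have he₁ : (Pi.single i₀ 1 : ι → F) ≠ 0 := by
    intro h
    have := congrFun h i₀
    simp at this
  obtain ⟨e₂, a, b, c, P⟩ := exists_BF ρ hQ hsa hr hcard hr0 hl he₁
  obtain ⟨e₁, he₁def⟩ : ∃ e₁ : ι → F, e₁ = Pi.single i₀ 1 := ⟨_, rfl⟩
  rw [← he₁def] at he₁ P
  have hPe₁ := Phi_e₁ ρ e₁ e₂
  have hPe₂ := Phi_e₂ ρ e₁ e₂
  have hQ'0 : ∀ α β : E, (α ≠ 0 ∨ β ≠ 0) → a * α ^ 2 + c * α * β + b * β ^ 2 ≠ 0 := by
    intro α β hαβ h0
    have hne : Phi ρ e₁ e₂ α β ≠ 0 := by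
      intro h
      obtain ⟨h3, h4⟩ := P.uniq _ _ h
      rcases hαβ with h5 | h5
      · exact h5 h3
      · exact h5 h4
    obtain ⟨k, hk⟩ := haniso _ hne
    exact hk ((P.ts_iff ρ hQ hl α β).2 h0 k)
  have ha : a ≠ 0 := by
    have := hQ'0 1 0 (Or.inl one_ne_zero)
    simpa using this
  set n := a * b with hn
  have hno : ∀ s : E, s ^ 2 - c * s + n ≠ 0 := by
    intro s h0
    apply hQ'0 s (-a) (Or.inr (neg_ne_zero.2 ha))
    rw [hn] at h0
    linear_combination a * h0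
  -- the generator
  obtain ⟨M, hM⟩ : ∃ M : Matrix ι ι F, ∀ α β, M *ᵥ Phi ρ e₁ e₂ α β = Phi ρ e₁ e₂ (-b * β) (a * α + c * β) := by
    let Φ : (E × E) →ₗ[F] (ι → F) :=
      { toFun := fun x => Phi ρ e₁ e₂ x.1 x.2
        map_add' := fun x y => Phi_add ρ e₁ e₂ _ _ _ _
        map_smul' := fun c x => Phi_smul ρ e₁ e₂ c x.1 x.2 }
    have hΦ : Function.Bijective Φ := by
      refine ⟨?_, ?_⟩
      · rw [← LinearMap.ker_eq_bot, LinearMap.ker_eq_bot']
        rintro ⟨α, β⟩ h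
        obtain ⟨h3, h4⟩ := P.uniq α β h
        rw [h3, h4]
        rfl
      · intro v
        obtain ⟨α, β, hv⟩ := P.span v
        exact ⟨(α, β), hv.symm⟩
    let Φe := LinearEquiv.ofBijective Φ hΦ
    let D : (E × E) →ₗ[F] (E × E) :=
      { toFun := fun x => (-b * x.2, a * x.1 + c * x.2)
        map_add' := fun x y => by
          ext
          · simp only [Prod.snd_add, Prod.fst_add]
            ring
          · simp only [Prod.snd_add, Prod.fst_add]
            ring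
        map_smul' := fun r x => by
          ext
          · simp only [Prod.smul_snd, RingHom.id_apply, Prod.smul_fst, mul_smul_comm]
          · simp only [Prod.smul_snd, RingHom.id_apply, Prod.smul_fst, mul_smul_comm, smul_add] }
    let L : (ι → F) →ₗ[F] (ι → F) := Φ ∘ₗ D ∘ₗ Φe.symm.toLinearMap
    refine ⟨LinearMap.toMatrix' L, fun α β => ?_⟩
    rw [LinearMap.toMatrix'_mulVec]
    have h1 : Φe.symm (Phi ρ e₁ e₂ α β) = (α, β) := by
      rw [LinearEquiv.symm_apply_eq]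
      rfl
    change Φ (D (Φe.symm (Phi ρ e₁ e₂ α β))) = _
    rw [h1]
    rfl
  let ell : E → E → Matrix ι ι F := fun x y => ρ x + ρ y * M
  have hellv : ∀ x y, ell x y = ρ x + ρ y * M := fun _ _ => rfl
  have hell : ∀ x y α β, ell x y *ᵥ Phi ρ e₁ e₂ α β = Phi ρ e₁ e₂ (x * α + y * (-b * β)) (x * β + y * (a * α + c * β)) := by
    intro x y α β
    rw [hellv, Matrix.add_mulVec, ← Matrix.mulVec_mulVec, hM, Phi_act, Phi_act, ← Phi_add]
  have hext : ∀ {X Y : Matrix ι ι F}, (∀ α β, X *ᵥ Phi ρ e₁ e₂ α β = Y *ᵥ Phi ρ e₁ e₂ α β) → X = Y := fun h => P.ext_Phi ρ hQ h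
  have hmul : ∀ x y x' y', ell x y * ell x' y' = ell (x * x' - y * y' * n) (x * y' + y * x' + y * y' * c) := by
    intro x y x' y'
    apply hext
    intro α β
    rw [← Matrix.mulVec_mulVec, hell, hell, hell]
    congr 1
    · rw [hn]
      ring
    · rw [hn]
      ring
  have hinj : ∀ {x y x' y'}, ell x y = ell x' y' → x = x' ∧ y = y' := by
    intro x y x' y' h
    have h1 := congrArg (fun X => X *ᵥ Phi ρ e₁ e₂ 1 0) h
    simp only [hell] at h1
    obtain ⟨h3, h4⟩ := P.inj ρ hQ h1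
    simp only [mul_one, mul_zero, add_zero] at h3 h4
    refine ⟨h3, ?_⟩
    have h5 : y * a = y' * a := by
      linear_combination h4
    exact mul_right_cancel₀ ha h5
  have hρc : ∀ t : F, ρ (algebraMap F E t) = t • 1 := by
    intro t
    rw [AlgHom.commutes, Algebra.algebraMap_eq_smul_one]
  -- a quadratic polynomial over the base without roots
  obtain ⟨τ, d, hτd⟩ : ∃ τ d : F, ∀ s : F, s ^ 2 - τ * s + d ≠ 0 := by
    have hns : ¬ Function.Surjective (fun s : F => s ^ 2 - s) := by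
      intro hs
      have hi := Finite.injective_iff_surjective.2 hs
      have h3 : (fun s : F => s ^ 2 - s) 0 = (fun s : F => s ^ 2 - s) 1 := by simp
      exact zero_ne_one (hi h3)
    simp only [Function.Surjective, not_forall, not_exists] at hns
    obtain ⟨d', hd'⟩ := hns
    refine ⟨1, -d', fun s h0 => hd' s ?_⟩
    linear_combination h0
  set τ' := algebraMap F E τ with hτ'
  set d' := algebraMap F E d with hd'
  obtain ⟨s₁, s₂, hs₁, hs₂⟩ := root_lemma hno τ' d'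
  have hs₂0 : s₂ ≠ 0 := by
    rintro rfl
    have h3 : s₁ ^ 2 - algebraMap F E τ * s₁ + algebraMap F E d = 0 := by
      rw [← hτ', ← hd']
      linear_combination hs₁
    obtain ⟨y, hy⟩ := root_of_odd (hr ▸ hodd) h3
    apply hτd y
    apply (algebraMap F E).injective
    rw [map_add, map_sub, map_mul, map_pow, hy, map_zero]
    exact h3
  have hscal : ∀ x y, τ • ell x y - d • (1 : Matrix ι ι F) = ell (τ' * x - d') (τ' * y) := by
    intro x y
    rw [hellv, hellv, map_sub, map_mul, map_mul, hρc, hρc]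
    simp only [smul_mul_assoc, one_mul, smul_add, sub_mul]
    abel
  set Z := ell s₁ s₂ with hZ
  have hZZ : Z * Z = τ • Z - d • 1 := by
    rw [hZ, hmul, hscal]
    congr 1
    · rw [← hs₁]
      ring
    · rw [← hs₂]
      ring
  obtain ⟨K₂, hK₂mem, hK₂⟩ := Cfsg.Agent.Lib.CmaxE.QuadF.exists_quad_field hZZ hτd
  -- adjoints
  have hadjℓ : ∀ x y u v, pol Q (ell x y *ᵥ u) v = pol Q u (ell (x + y * c) (-y) *ᵥ v) := by
    intro x y u v
    obtain ⟨α, β, rfl⟩ := P.span u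
    obtain ⟨α', β', rfl⟩ := P.span v
    rw [hell, hell, P.polf ρ hQ, P.polf ρ hQ]
    congr 1
    ring
  have hzne : ¬ (s₁ + s₂ * c = s₁ ∧ -s₂ = s₂) := by
    rintro ⟨h3, h4⟩
    have hc0 : c = 0 := by
      have : s₂ * c = 0 := by linear_combination h3
      exact (mul_eq_zero.1 this).resolve_left hs₂0
    have h20 : (2 : E) = 0 := by
      have : (2 : E) * s₂ = 0 := by linear_combination -h4
      exact (mul_eq_zero.1 this).resolve_right hs₂0
    obtain ⟨w, hw⟩ := (hQ.nondegenerate e₁ he₁).2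
    apply hw
    obtain ⟨α, β, rfl⟩ := P.span w
    have h5 := P.polf ρ hQ 1 0 α β
    rw [hPe₁] at h5
    change pol Q e₁ _ = 0
    rw [h5, hc0, h20]
    simp
  have hconj := root_cases (y₁ := s₁ + s₂ * c) (y₂ := -s₂) hno (τ := τ') (d := d') (z₁ := s₁) (z₂ := s₂)
    (by linear_combination hs₁ + c * hs₂) (by linear_combination -hs₂) hs₁ hs₂
  have hZ' : ell (s₁ + s₂ * c) (-s₂) = τ • 1 - Z := by
    rcases hconj with h3 | ⟨h3, -⟩
    · exact absurd h3 hzne
    · rw [h3, hZ, hellv, hellv, map_sub, map_neg, hρc]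
      simp only [neg_mul]
      abel
  have hadjZ : ∀ u v, pol Q (Z *ᵥ u) v = pol Q u ((τ • 1 - Z) *ᵥ v) := by
    intro u v
    rw [hZ, hadjℓ, ← hZ, hZ']
  have hZK : Z ∈ K₂ := (hK₂mem Z).2 ⟨0, 1, by simp⟩
  refine ⟨K₂, hK₂, ?_, ?_, ?_⟩
  · intro k hk
    obtain ⟨x, y, rfl⟩ := (hK₂mem k).1 hk
    refine ⟨x • 1 + y • (τ • 1 - Z), K₂.add_mem (K₂.smul_mem K₂.one_mem _) (K₂.smul_mem (K₂.sub_mem (K₂.smul_mem K₂.one_mem _) hZK) _), fun u v => ?_⟩
    rw [Matrix.add_mulVec, Matrix.add_mulVec, Matrix.smul_mulVec, Matrix.smul_mulVec, Matrix.smul_mulVec, Matrix.smul_mulVec,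
      Matrix.one_mulVec, Matrix.one_mulVec, pol_add_left hQ, pol_add_right hQ, pol_smul_left hQ, pol_smul_left hQ, pol_smul_right hQ,
      pol_smul_right hQ, hadjZ]
  · intro hsa₂
    apply hzne
    have hZZ' : ell (s₁ + s₂ * c) (-s₂) = Z := by
      apply Matrix.ext_of_mulVec_single
      intro j
      by_contra hne
      have h3 : ell (s₁ + s₂ * c) (-s₂) *ᵥ Pi.single j 1 - Z *ᵥ Pi.single j 1 ≠ 0 := sub_ne_zero.2 hne
      obtain ⟨u, hu⟩ := (hQ.nondegenerate _ h3).1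
      apply hu
      change pol Q u (ell (s₁ + s₂ * c) (-s₂) *ᵥ Pi.single j 1 - Z *ᵥ Pi.single j 1) = 0
      rw [Cfsg.Agent.Lib.GeoOmega.Eichler.pol_sub_right hQ, hZ', ← hadjZ, hsa₂ Z hZK, sub_self]
    exact hinj hZZ'
  · apply Cfsg.Agent.Lib.CmaxE.QuadF.mem_normalizer_of_gen hK₂mem
    intro h hh
    obtain ⟨σ, hσk⟩ := hσ h hh
    have hact : ∀ k v, (h : Matrix ι ι F) *ᵥ (ρ k *ᵥ v) = ρ (σ k) *ᵥ ((h : Matrix ι ι F) *ᵥ v) := by
      intro k v
      rw [Matrix.mulVec_mulVec, Matrix.mulVec_mulVec, hσk]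
    have hQact : ∀ k v, Q (ρ k *ᵥ ((h : Matrix ι ι F) *ᵥ v)) = Q (ρ (σ.symm k) *ᵥ v) := by
      intro k v
      have h1 := hact (σ.symm k) v
      rw [AlgEquiv.apply_symm_apply] at h1
      rw [← h1, Q_isom (hHI hh)]
    obtain ⟨p, q', hpq⟩ := P.span ((h : Matrix ι ι F) *ᵥ e₁)
    obtain ⟨s', t, hst⟩ := P.span ((h : Matrix ι ι F) *ᵥ e₂)
    -- the multiplier
    obtain ⟨μ, hμ⟩ := lam_rep hl (l.comp σ.symm.toLinearMap)
    have hμ' : ∀ w, l (σ.symm w) = l (w * μ) := hμ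
    have hμ0 : μ ≠ 0 := by
      rintro rfl
      have h3 := hμ' 1
      rw [map_one, mul_zero, map_zero] at h3
      exact hl h3
    have hQσ : ∀ (v : ι → F) (A : E), (∀ k, Q (ρ k *ᵥ v) = l (k * k * A)) → ∀ A' : E, (∀ k, Q (ρ k *ᵥ ((h : Matrix ι ι F) *ᵥ v)) = l (k * k * A')) →
        A' = σ A * μ := by
      intro v A hA A' hA'
      have h3 : A' - σ A * μ = 0 := by
        apply lam_sq hl
        intro k
        have h4 : k * k * (A' - σ A * μ) = k * k * A' - (k * k * σ A) * μ := by ring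
        rw [h4, map_sub, ← hμ', ← hA', hQact, hA]
        simp only [map_mul, AlgEquiv.symm_apply_apply, sub_eq_zero]
      exact sub_eq_zero.1 h3
    have hkQ : ∀ α β k, Q (ρ k *ᵥ Phi ρ e₁ e₂ α β) = l (k * k * (a * α ^ 2 + c * α * β + b * β ^ 2)) := fun α β k => P.Qk ρ hQ k α β
    have R₁ : a * p ^ 2 + c * p * q' + b * q' ^ 2 = σ a * μ := by
      refine hQσ e₁ a (fun k => ?_) _ (fun k => ?_)
      · have := hkQ 1 0 k
        rw [hPe₁] at this
        rw [this]
        congr 2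
        ring
      · rw [hpq]
        exact hkQ p q' k
    have R₂ : a * s' ^ 2 + c * s' * t + b * t ^ 2 = σ b * μ := by
      refine hQσ e₂ b (fun k => ?_) _ (fun k => ?_)
      · have := hkQ 0 1 k
        rw [hPe₂] at this
        rw [this]
        congr 2
        ring
      · rw [hst]
        exact hkQ s' t k
    have R₃ : 2 * a * p * s' + c * (p * t + q' * s') + 2 * b * q' * t = σ c * μ := by
      have h3 : (2 * a * p * s' + c * (p * t + q' * s') + 2 * b * q' * t) - σ c * μ = 0 := by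
        apply lam_zero hl
        intro k
        have h4 : k * ((2 * a * p * s' + c * (p * t + q' * s') + 2 * b * q' * t) - σ c * μ) =
            (2 * a * (k * p) * s' + c * ((k * p) * t + (k * q') * s') + 2 * b * (k * q') * t) - (k * σ c) * μ := by ring
        have hL : l (2 * a * (k * p) * s' + c * ((k * p) * t + (k * q') * s') + 2 * b * (k * q') * t) =
            pol Q (ρ k *ᵥ ((h : Matrix ι ι F) *ᵥ e₁)) ((h : Matrix ι ι F) *ᵥ e₂) := by
          rw [hpq, hst, Phi_act, P.polf ρ hQ]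
        have hR : l (σ.symm (k * σ c)) =
            pol Q (ρ k *ᵥ ((h : Matrix ι ι F) *ᵥ e₁)) ((h : Matrix ι ι F) *ᵥ e₂) := by
          have h5 := hact (σ.symm k) e₁
          rw [AlgEquiv.apply_symm_apply] at h5
          rw [← h5, polar_isom (hHI hh)]
          have h6 : ρ (σ.symm k) *ᵥ e₁ = Phi ρ e₁ e₂ (σ.symm k) 0 := by
            simp only [Phi, act_zero, add_zero]
          rw [h6]
          nth_rewrite 2 [← hPe₂]
          rw [P.polf ρ hQ]
          congr 1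
          simp only [map_mul, AlgEquiv.symm_apply_apply]
          ring
        rw [h4, map_sub, ← hμ', hL, hR, sub_self]
      exact sub_eq_zero.1 h3
    have hPhih : ∀ α β, (h : Matrix ι ι F) *ᵥ Phi ρ e₁ e₂ α β = Phi ρ e₁ e₂ (σ α * p + σ β * s') (σ α * q' + σ β * t) := by
      intro α β
      have h3 : Phi ρ e₁ e₂ α β = ρ α *ᵥ e₁ + ρ β *ᵥ e₂ := rfl
      rw [h3, Matrix.mulVec_add, hact, hact, hpq, hst, Phi_act, Phi_act, ← Phi_add]
    obtain ⟨k₁, hk₁⟩ : ∃ k₁, μ * k₁ = a * p * s' + c * q' * s' + b * t * q' :=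
      ⟨μ⁻¹ * (a * p * s' + c * q' * s' + b * t * q'), by field_simp⟩
    obtain ⟨k₂, hk₂⟩ : ∃ k₂, μ * k₂ = p * t - q' * s' :=
      ⟨μ⁻¹ * (p * t - q' * s'), by field_simp⟩
    have E₁ : σ a * s' = k₁ * p - k₂ * (b * q') := by
      apply mul_left_cancel₀ hμ0
      linear_combination (-s') * R₁ - p * hk₁ + b * q' * hk₂
    have E₂ : σ a * t = k₁ * q' + k₂ * (a * p + c * q') := by
      apply mul_left_cancel₀ hμ0
      linear_combination (-t) * R₁ - q' * hk₁ - (a * p + c * q') * hk₂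
    have E₃ : - σ b * p + σ c * s' = k₁ * s' - k₂ * (b * t) := by
      apply mul_left_cancel₀ hμ0
      linear_combination p * R₂ - s' * R₃ - s' * hk₁ + b * t * hk₂
    have E₄ : - σ b * q' + σ c * t = k₁ * t + k₂ * (a * s' + c * t) := by
      apply mul_left_cancel₀ hμ0
      linear_combination q' * R₂ - t * R₃ - t * hk₁ - (a * s' + c * t) * hk₂
    have hhM : (h : Matrix ι ι F) * M = ell k₁ k₂ * (h : Matrix ι ι F) := by
      apply hext
      intro α β
      rw [← Matrix.mulVec_mulVec, ← Matrix.mulVec_mulVec, hM, hPhih, hPhih, hell]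
      congr 1
      · simp only [map_add, map_mul, map_neg]
        linear_combination σ α * E₁ + σ β * E₃
      · simp only [map_add, map_mul, map_neg]
        linear_combination σ α * E₂ + σ β * E₄
    have hhZ : (h : Matrix ι ι F) * Z = ell (σ s₁ + σ s₂ * k₁) (σ s₂ * k₂) * (h : Matrix ι ι F) := by
      have h3 : (h : Matrix ι ι F) * (ρ s₂ * M) = ρ (σ s₂) * (ell k₁ k₂ * (h : Matrix ι ι F)) := by
        rw [← mul_assoc, hσk, mul_assoc, hhM]
      rw [hZ, hellv, mul_add, hσk, h3, hellv, hellv, map_add, map_mul, map_mul]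
      noncomm_ring
    have hhh : (h : Matrix ι ι F) * ((h⁻¹ : GL ι F) : Matrix ι ι F) = 1 := by
      rw [← Matrix.GeneralLinearGroup.coe_mul, mul_inv_cancel, Matrix.GeneralLinearGroup.coe_one]
    have hconjZ : (h : Matrix ι ι F) * Z * ((h⁻¹ : GL ι F) : Matrix ι ι F) = ell (σ s₁ + σ s₂ * k₁) (σ s₂ * k₂) := by
      rw [hhZ, mul_assoc, hhh, mul_one]
    have hh'h : ((h⁻¹ : GL ι F) : Matrix ι ι F) * (h : Matrix ι ι F) = 1 := by
      rw [← Matrix.GeneralLinearGroup.coe_mul, inv_mul_cancel, Matrix.GeneralLinearGroup.coe_one]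
    have hYY : ell (σ s₁ + σ s₂ * k₁) (σ s₂ * k₂) * ell (σ s₁ + σ s₂ * k₁) (σ s₂ * k₂) =
        τ • ell (σ s₁ + σ s₂ * k₁) (σ s₂ * k₂) - d • 1 := by
      rw [← hconjZ]
      have h3 : (h : Matrix ι ι F) * Z * ((h⁻¹ : GL ι F) : Matrix ι ι F) * ((h : Matrix ι ι F) * Z * ((h⁻¹ : GL ι F) : Matrix ι ι F)) =
          (h : Matrix ι ι F) * (Z * Z) * ((h⁻¹ : GL ι F) : Matrix ι ι F) := by
        calc _ = (h : Matrix ι ι F) * Z * (((h⁻¹ : GL ι F) : Matrix ι ι F) * (h : Matrix ι ι F)) * Z * ((h⁻¹ : GL ι F) : Matrix ι ι F) := by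
              simp only [mul_assoc]
          _ = _ := by
              rw [hh'h, mul_one]
              simp only [mul_assoc]
      rw [h3, hZZ, mul_sub, sub_mul, mul_smul_comm, smul_mul_assoc, mul_smul_comm, smul_mul_assoc, mul_one, hhh]
    rw [hmul, hscal] at hYY
    obtain ⟨h3, h4⟩ := hinj hYY
    have hcases := root_cases (y₁ := σ s₁ + σ s₂ * k₁) (y₂ := σ s₂ * k₂) hno (τ := τ') (d := d') (z₁ := s₁) (z₂ := s₂)
      (by linear_combination h3) (by linear_combination h4) hs₁ hs₂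
    rw [hconjZ]
    rcases hcases with ⟨h5, h6⟩ | ⟨h5, h6⟩
    · rw [h5, h6]
      exact hZK
    · have h7 : ell (σ s₁ + σ s₂ * k₁) (σ s₂ * k₂) = τ • 1 - Z := by
        rw [h5, h6, hZ, hellv, hellv, map_sub, map_neg, hρc]
        simp only [neg_mul]
        abel
      rw [h7]
      exact K₂.sub_mem (K₂.smul_mem K₂.one_mem _) hZK

/-- The dichotomy for a self-adjoint field of odd degree. -/
theorem binary_field {r : ℕ} (hr : finrank F E = r) (hcard : Fintype.card ι = 2 * r) (hr0 : 0 < r) (hodd : Odd r)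
    {H : Subgroup (GL ι F)} (hHI : H ≤ isometryGroup F Q)
    (hσ : ∀ h ∈ H, ∃ σ : E ≃ₐ[F] E, ∀ k, (h : Matrix ι ι F) * ρ k = ρ (σ k) * (h : Matrix ι ι F)) :
    (∃ D : Fin 2 → Submodule F (ι → F), IsMDecomposition r D ∧ (∀ i, IsTotallySingularQuad Q (D i)) ∧ H ≤ decompositionStabilizer D) ∨
    (∃ K₂ : Subalgebra F (Matrix ι ι F), IsFieldSubalgebra 2 K₂ ∧ IsAdjointClosedFor (pol Q) K₂ ∧
      ¬ IsSelfAdjointFor (pol Q) K₂ ∧ H ≤ subalgebraNormalizer K₂) := by
  classical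
  haveI : FiniteDimensional F E := Module.Finite.of_finite
  obtain ⟨l, hl⟩ := exists_lam (F := F) (E := E)
  by_cases h : ∃ v : ι → F, v ≠ 0 ∧ ∀ k, Q (ρ k *ᵥ v) = 0
  · obtain ⟨v, hv, hts⟩ := h
    exact Or.inl (caseA ρ hQ hsa hr hcard hr0 hl hv hts hHI hσ)
  · push Not at h
    exact Or.inr (caseB ρ hQ hsa hr hcard hr0 hodd hl h hHI hσ)

end Geo

section Interface

variable {ι : Type} [Fintype ι] [DecidableEq ι] {F : Type u} [Field F] [Fintype F] {Q : (ι → F) → F}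

/-- A field of odd prime degree on a space of twice its dimension. -/
theorem binary_of_K (hQ : IsNondegenerateQuadraticForm Q) {r : ℕ} (hrp : r.Prime) (hodd : Odd r) {K : Subalgebra F (Matrix ι ι F)}
    (hK : IsFieldSubalgebra r K) (hadj : IsAdjointClosedFor (pol Q) K) (hcard : Fintype.card ι = 2 * r)
    {H : Subgroup (GL ι F)} (hHI : H ≤ isometryGroup F Q) (hN : H ≤ subalgebraNormalizer K) :
    (∃ D : Fin 2 → Submodule F (ι → F), IsMDecomposition r D ∧ (∀ i, IsTotallySingularQuad Q (D i)) ∧ H ≤ decompositionStabilizer D) ∨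
    (∃ K₂ : Subalgebra F (Matrix ι ι F), IsFieldSubalgebra 2 K₂ ∧ IsAdjointClosedFor (pol Q) K₂ ∧
      ¬ IsSelfAdjointFor (pol Q) K₂ ∧ H ≤ subalgebraNormalizer K₂) := by
  classical
  have hr0 := hrp.pos
  haveI : Nonempty ι := Fintype.card_pos_iff.1 (by omega)
  letI fK : Field K := (Cfsg.Agent.Lib.AschF.OddB.isField_K hK).toField
  haveI : Fintype K := Fintype.ofFinite K
  have hsaK := Cfsg.Agent.Lib.AschF.OddB.selfadj_of_odd (hf_polar hQ) hK hrp hodd hadj
  let ρ : K →ₐ[F] Matrix ι ι F := K.val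
  refine binary_field ρ hQ (fun k u v => hsaK k.1 k.2 u v) hK.finrank_eq hcard hr0 hodd hHI ?_
  intro h hh
  refine ⟨Cfsg.Agent.Lib.AschF.OddB.conjK K h (hN hh), fun k => ?_⟩
  change (h : Matrix ι ι F) * (k : Matrix ι ι F) = ((Cfsg.Agent.Lib.AschF.OddB.conjK K h (hN hh) k : K) : Matrix ι ι F) * (h : Matrix ι ι F)
  rw [Cfsg.Agent.Lib.AschF.OddB.conjK_apply, mul_assoc, ← Matrix.GeneralLinearGroup.coe_mul, inv_mul_cancel, Matrix.GeneralLinearGroup.coe_one, mul_one]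

end Interface

end Cfsg.Agent.Lib.CmaxE.BinK
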