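import Mathlib
import Cfsg.Agent.Lib.CmaxE.Common

/-!
# Maximal subgroups of `Ω⁻` in dimensions 8 and 12
-/

set_option autoImplicit false

namespace Cfsg.Agent.Lib.CmaxE.Minus

open Matrix Module Cfsg Cfsg.Geo
open Cfsg.Agent.Lib.Geo.Basic Cfsg.Agent.Lib.Geo.Polar Cfsg.Agent.Lib.Geo.QForm
open Cfsg.Agent.Lib.GeoOmega.Basic Cfsg.Agent.Lib.AschF.OmegaP
open Cfsg.Agent.Lib.GeoOmega.Nondeg Cfsg.Agent.Lib.GeoOmega.NondegW Cfsg.Agent.Lib.GeoOmega.Singular
open Cfsg.Agent.Lib.NotMax.Tensor (TT pureT TT_add_left TT_add_right TT_smul_left TT_smul_right TT_ne_zero span_TT)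
open Cfsg.Agent.Lib.AschF.Adj (HF)
open Cfsg.Agent.Lib.AschF.OddA (polar_isom Q_isom card_eq_of_decomp hf_polar)
open Cfsg.Agent.Lib.AschF.OddC (f3_frame f3_similarity f3_two_ne_zero eps_eq_one_of_odd symmetric_of_HF)
open Cfsg.Agent.Lib.AschF.OddMax (perp_facts two_ne_zero_of_odd subfield_ne_top)
open Cfsg.Agent.Lib.Asch.MaxSL (eq_inf_of_le)
open Cfsg.Agent.Lib.Asch.MaxSN (field_dvd)
open Cfsg.Agent.Lib.Asch.Kr (kr mem_tensorProductSubgroup)
open Cfsg.Agent.Lib.Geo.SpDecomp (mem_decompositionStabilizer_of_forall)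
open Cfsg.Agent.Lib.CmaxE.Core Cfsg.Agent.Lib.CmaxE.Proper Cfsg.Agent.Lib.CmaxE.Plus Cfsg.Agent.Lib.CmaxE.Ten
open Cfsg.Agent.Lib.CmaxE.Common Cfsg.Agent.Lib.CmaxE.Wr Cfsg.Agent.Lib.CmaxE.Rg Cfsg.Agent.Lib.CmaxE.Sub2

universe u

variable {ι : Type} [Fintype ι] [DecidableEq ι] {F : Type u} [Field F] [Fintype F] {Q : (ι → F) → F}

variable (hQ : IsNondegenerateQuadraticForm Q)
include hQ

/-- Over the field with three elements, a ternary factor has a frame, which gives a decomposition. -/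
theorem three_frames (h3 : Fintype.card F = 3) {b : ℕ} (hb : 2 ≤ b) {H : Subgroup (GL ι F)} (hHI : H ≤ isometryGroup F Q)
    (e : ι ≃ Fin 3 × Fin b) (P : GL ι F) {f₁ : (Fin 3 → F) → (Fin 3 → F) → F} {f₂ : (Fin b → F) → (Fin b → F) → F}
    (hf₁ : HF (RingEquiv.refl F) 1 f₁) (hf₂ : HF (RingEquiv.refl F) 1 f₂)
    (hlaw : ∀ x x' y y', pol Q (TT e P x y) (TT e P x' y') = f₁ x x' * f₂ y y')
    (hact : ∀ h ∈ H, ∃ (α : GL (Fin 3) F) (β : GL (Fin b) F), ∀ x y, (h : Matrix ι ι F) *ᵥ TT e P x y =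
      TT e P ((α : Matrix (Fin 3) (Fin 3) F) *ᵥ x) ((β : Matrix (Fin b) (Fin b) F) *ᵥ y)) :
    ∃ D : Fin 3 → Submodule F (ι → F), IsOrthogonalMDecomposition Q b D ∧ H ≤ decompositionStabilizer D := by
  classical
  have h2 := f3_two_ne_zero h3
  obtain ⟨w, d, hd, hww, hwuni⟩ := f3_frame h3 hf₁
  have hw0 : ∀ i, w i ≠ 0 := by
    intro i h0
    have h1 := hww i i
    rw [if_pos rfl, h0, Cfsg.Agent.Lib.AschF.Adj.Sesq_zero_left hf₁.sesq] at h1
    exact hd h1.symm
  let L : Fin 3 → (Fin b → F) →ₗ[F] (ι → F) := fun i =>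
    { toFun := fun y => TT e P (w i) y
      map_add' := fun y y' => TT_add_right e P (w i) y y'
      map_smul' := fun c y => TT_smul_right e P c (w i) y }
  have hLa : ∀ i y, L i y = TT e P (w i) y := fun _ _ => rfl
  have hinj : ∀ i, Function.Injective (L i) := by
    intro i
    rw [← LinearMap.ker_eq_bot, LinearMap.ker_eq_bot']
    intro y hy
    by_contra hy0
    exact TT_ne_zero e P (hw0 i) hy0 hy
  let D : Fin 3 → Submodule F (ι → F) := fun i => LinearMap.range (L i)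
  have hfin : ∀ i, finrank F (D i) = b := by
    intro i
    simp only [D]
    rw [LinearMap.finrank_range_of_inj (hinj i)]
    simp
  have hcard : Fintype.card ι = 3 * b := by
    rw [Fintype.card_congr e]
    simp
  have hor : ∀ i j, i ≠ j → ∀ x ∈ D i, ∀ y ∈ D j, pol Q x y = 0 := by
    rintro i j hij _ ⟨y, rfl⟩ _ ⟨y', rfl⟩
    rw [hLa, hLa, hlaw, hww, if_neg hij, zero_mul]
  have hnd : ∀ i, IsNondegenerateOn (QuadraticMap.polar Q) (D i) := by
    rintro i _ ⟨y, rfl⟩ hy0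
    have hy : y ≠ 0 := by
      rintro rfl
      exact hy0 (map_zero _)
    obtain ⟨⟨u, hu⟩, ⟨v, hv⟩⟩ := hf₂.nd y hy
    refine ⟨⟨L i u, ⟨u, rfl⟩, ?_⟩, ⟨L i v, ⟨v, rfl⟩, ?_⟩⟩
    · change pol Q _ _ ≠ 0
      rw [hLa, hLa, hlaw, hww, if_pos rfl]
      exact mul_ne_zero hd hu
    · change pol Q _ _ ≠ 0
      rw [hLa, hLa, hlaw, hww, if_pos rfl]
      exact mul_ne_zero hd hv
  have hQL : ∀ i y, (2 : F) * Q (L i y) = d * f₂ y y := by
    intro i y
    rw [← pol_self hQ, hLa, hlaw, hww, if_pos rfl]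
  have hiso : ∀ i j, AreIsometricFor Q (D i) (D j) := by
    intro i j
    refine ⟨(LinearEquiv.ofInjective (L i) (hinj i)).symm.trans (LinearEquiv.ofInjective (L j) (hinj j)), ?_⟩
    rintro ⟨_, y, rfl⟩
    have h1 : (LinearEquiv.ofInjective (L i) (hinj i)).symm ⟨L i y, ⟨y, rfl⟩⟩ = y :=
      (LinearEquiv.ofInjective (L i) (hinj i)).symm_apply_apply y
    simp only [LinearEquiv.trans_apply]
    rw [h1]
    change Q (L j y) = Q (L i y)
    apply mul_left_cancel₀ h2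
    rw [hQL, hQL]
  refine ⟨D, isOrth_of_family hQ (by norm_num) (by omega) hcard hfin hnd hor hiso, fun h hh => ?_⟩
  obtain ⟨α, β, hαβ⟩ := hact h hh
  have hbpos : 0 < b := by omega
  have hsing : (Pi.single (⟨0, hbpos⟩ : Fin b) 1 : Fin b → F) ≠ 0 := by
    intro h0
    have := congrFun h0 ⟨0, hbpos⟩
    simp at this
  obtain ⟨-, y', hy'⟩ := hf₂.nd _ hsing
  set y₀ : Fin b → F := Pi.single (⟨0, hbpos⟩ : Fin b) 1 with hy₀
  have hrel : ∀ x x', f₁ ((α : Matrix (Fin 3) (Fin 3) F) *ᵥ x) ((α : Matrix (Fin 3) (Fin 3) F) *ᵥ x') *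
      f₂ ((β : Matrix (Fin b) (Fin b) F) *ᵥ y₀) ((β : Matrix (Fin b) (Fin b) F) *ᵥ y') = f₁ x x' * f₂ y₀ y' := by
    intro x x'
    rw [← hlaw, ← hlaw, ← hαβ, ← hαβ, polar_isom (hHI hh)]
  have hβne : f₂ ((β : Matrix (Fin b) (Fin b) F) *ᵥ y₀) ((β : Matrix (Fin b) (Fin b) F) *ᵥ y') ≠ 0 := by
    intro h0
    have h1 := hrel (w 0) (w 0)
    rw [h0, mul_zero, hww, if_pos rfl] at h1
    exact mul_ne_zero hd hy' h1.symm
  have hsim : ∀ x x', f₁ ((α : Matrix (Fin 3) (Fin 3) F) *ᵥ x) ((α : Matrix (Fin 3) (Fin 3) F) *ᵥ x') = f₁ x x' := by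
    intro x x'
    have hμ0 : f₂ y₀ y' / f₂ ((β : Matrix (Fin b) (Fin b) F) *ᵥ y₀) ((β : Matrix (Fin b) (Fin b) F) *ᵥ y') ≠ 0 := div_ne_zero hy' hβne
    have hμ := f3_similarity h3 hf₁ α hμ0 (fun x x' => by
      have := hrel x x'
      field_simp
      linear_combination this)
    have h1 := hrel x x'
    have hy : f₂ y₀ y' = f₂ ((β : Matrix (Fin b) (Fin b) F) *ᵥ y₀) ((β : Matrix (Fin b) (Fin b) F) *ᵥ y') := by
      field_simp at hμ
      linear_combination hμ
    rw [hy] at h1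
    exact mul_right_cancel₀ hβne h1
  have hmon : ∀ i, ∃ (j : Fin 3) (c : F), c ≠ 0 ∧ (α : Matrix (Fin 3) (Fin 3) F) *ᵥ w i = c • w j := by
    intro i
    apply hwuni
    rw [hsim, hww, if_pos rfl]
  choose π c hc hπ using hmon
  have hπi : Function.Injective π := by
    intro i i' hii
    by_contra hne
    have h1 := hsim (w i) (w i')
    rw [hπ, hπ, hww, if_neg hne, hii, hf₁.sesq.smul_left, hf₁.sesq.smul_right, hww, if_pos rfl] at h1
    simp only [RingEquiv.refl_apply] at h1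
    exact mul_ne_zero (hc i) (mul_ne_zero (hc i') hd) h1
  refine mem_decompositionStabilizer_of_forall (k := b) hfin (Equiv.ofBijective π (Finite.injective_iff_bijective.1 hπi)) h ?_
  rintro i _ ⟨y, rfl⟩
  rw [hLa, hαβ, hπ, TT_smul_left]
  exact Submodule.smul_mem _ _ ⟨_, rfl⟩

/-- Tensor decompositions with a binary factor. -/
theorem plus_of_ten2 {b : ℕ} (hb : 2 ≤ b) (hb2 : Even b) {H : Subgroup (GL ι F)} (hHI : H ≤ isometryGroup F Q)
    (hirr : ∀ W : Submodule F (ι → F), (∀ g ∈ H, ∀ v ∈ W, (g : Matrix ι ι F) *ᵥ v ∈ W) → W = ⊥ ∨ W = ⊤)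
    (e : ι ≃ Fin 2 × Fin b) (P : GL ι F) {f₁ : (Fin 2 → F) → (Fin 2 → F) → F} {f₂ : (Fin b → F) → (Fin b → F) → F} {ε₁ ε₂ : F}
    (hf₁ : HF (RingEquiv.refl F) ε₁ f₁) (hf₂ : HF (RingEquiv.refl F) ε₂ f₂)
    (hlaw : ∀ x x' y y', pol Q (TT e P x y) (TT e P x' y') = f₁ x x' * f₂ y y')
    (hact : ∀ h ∈ H, ∃ (α : GL (Fin 2) F) (β : GL (Fin b) F), ∀ x y, (h : Matrix ι ι F) *ᵥ TT e P x y =
      TT e P ((α : Matrix (Fin 2) (Fin 2) F) *ᵥ x) ((β : Matrix (Fin b) (Fin b) F) *ᵥ y)) : IsPlusTypeOn Q ⊤ := by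
  by_cases h2 : (2 : F) = 0
  · exact plus_of_alt_two hQ h2 hHI hirr hb e P hf₁ hf₂ hlaw hact
  · exact plus_of_tensor2 hQ h2 hb2 e P hf₁ hlaw

/-- The structure theorem for the groups of minus type in dimension 8 and 12. -/
theorem minus_structure (hn : Fintype.card ι = 8 ∨ Fintype.card ι = 12) (hminus : ¬ IsPlusTypeOn Q ⊤) {H : Subgroup (GL ι F)}
    (hH : IsMaximalIn (omegaGL Q) H) :
    (∃ W : Submodule F (ι → F), W ≠ ⊥ ∧ IsTotallySingularQuad Q W ∧ H = subspaceStabilizer W ⊓ omegaGL Q) ∨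
    (Odd (Fintype.card F) ∧ ∃ W' : Submodule F (ι → F), W' ≠ ⊥ ∧ W' ≠ ⊤ ∧ Odd (finrank F W') ∧ 2 * finrank F W' ≠ Fintype.card ι ∧
      IsNondegenerateOn (QuadraticMap.polar Q) W' ∧ H = subspaceStabilizer W' ⊓ omegaGL Q) ∨
    (∃ W' : Submodule F (ι → F), finrank F W' = 2 ∧ IsNondegenerateOn (QuadraticMap.polar Q) W' ∧ ¬ IsPlusTypeOn Q W' ∧
      H = subspaceStabilizer W' ⊓ omegaGL Q) ∨
    (4 ≤ Fintype.card F ∧ ∃ W' : Submodule F (ι → F), finrank F W' = 2 ∧ IsNondegenerateOn (QuadraticMap.polar Q) W' ∧ IsPlusTypeOn Q W' ∧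
      H = subspaceStabilizer W' ⊓ omegaGL Q) ∨
    (¬ Odd (Fintype.card F) ∧ ∃ v : ι → F, Q v ≠ 0 ∧ H = subspaceStabilizer (Submodule.span F {v}) ⊓ omegaGL Q) ∨
    (∃ W' : Submodule F (ι → F), 4 ≤ finrank F W' ∧ 2 * finrank F W' ≤ Fintype.card ι ∧ Even (finrank F W') ∧
      IsNondegenerateOn (QuadraticMap.polar Q) W' ∧ H = subspaceStabilizer W' ⊓ omegaGL Q) ∨
    (Fintype.card ι = 12 ∧ ∃ D : Fin 3 → Submodule F (ι → F), IsOrthogonalMDecomposition Q 4 D ∧ (∀ i, ¬ IsPlusTypeOn Q (D i)) ∧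
      H = decompositionStabilizer D ⊓ omegaGL Q) ∨
    (∃ (r : ℕ) (K : Subalgebra F (Matrix ι ι F)), r.Prime ∧ IsFieldSubalgebra r K ∧ H = subalgebraNormalizer K ⊓ omegaGL Q) ∨
    (Fintype.card ι = 12 ∧ Odd (Fintype.card F) ∧ 5 ≤ Fintype.card F ∧ ∃ (e : ι ≃ Fin 3 × Fin 4) (P : GL ι F) (f₁ : (Fin 3 → F) → (Fin 3 → F) → F)
      (f₂ : (Fin 4 → F) → (Fin 4 → F) → F), IsSymmetricForm f₁ ∧ IsSymmetricForm f₂ ∧ ¬ IsPlusTypeOn (fun v : Fin 4 → F => f₂ v v) ⊤ ∧
      IsTensorFormStructure id (QuadraticMap.polar Q) f₁ f₂ e P ∧ H = tensorProductSubgroup 3 4 e P ⊓ omegaGL Q) ∨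
    (∃ (F₀ : Subfield F) (r : ℕ) (P : GL ι F) (ζ : F), r.Prime ∧ Odd r ∧ Fintype.card F = Nat.card F₀ ^ r ∧ ζ ≠ 0 ∧
      IsQuadFormRationalStructure (fun v => ζ * Q v) F₀ P ∧ H = subfieldSubgroup F₀ P ⊓ omegaGL Q) ∨
    InOrthogonalResidualClass H := by
  classical
  have hHI : H ≤ isometryGroup F Q := hH.1.le.trans (omegaGL_le_isometryGroup Q)
  have hι : 7 ≤ Fintype.card ι := by omega
  have hn4 : 4 ∣ Fintype.card ι := by
    rcases hn with h | h <;> rw [h] <;> norm_num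
  haveI : Nonempty ι := Fintype.card_pos_iff.1 (by omega)
  by_contra hcon
  simp only [not_or] at hcon
  obtain ⟨c₁, c₂, c₃, c₄, c₅, c₆, c₇, c₈, c₉, c₁₀, c₁₁⟩ := hcon
  -- the fields, one at a time
  have hts : ∀ W : Submodule F (ι → F), W ≠ ⊥ → IsTotallySingularQuad Q W → H ≤ subspaceStabilizer W → False := fun W h0 h1 h3 =>
    c₁ ⟨W, h0, h1, eq_inf_of_le hH h3 (omega_not_le_stab hQ hι h0 (ne_top_of_ts hQ h1))⟩
  have hnd : ∀ W : Submodule F (ι → F), W ≠ ⊥ → W ≠ ⊤ → IsNondegenerateOn (pol Q) W → H ≤ subspaceStabilizer W → False := by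
    intro W h0 h1 h3 h4
    rcases nd_normal_even hQ hι hn4 hH h0 h1 h3 h4 with h | h | h | h | h
    · exact c₂ h
    · exact c₃ h
    · exact c₄ h
    · exact c₅ h
    · exact c₆ h
  have hns : ∀ v : ι → F, (2 : F) = 0 → Q v ≠ 0 → H ≤ subspaceStabilizer (Submodule.span F {v}) → False := by
    intro v h2 hv hle
    refine c₅ ⟨?_, v, hv, stab_line_eq hQ hι hH hv hle⟩
    intro hodd
    exact two_ne_zero_of_odd hodd h2
  have hirr : ∀ W : Submodule F (ι → F), (∀ g ∈ H, ∀ v ∈ W, (g : Matrix ι ι F) *ᵥ v ∈ W) → W = ⊥ ∨ W = ⊤ := by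
    intro W hinv
    by_contra hc
    push Not at hc
    rcases reducible_quad hQ hHI hinv with ⟨W', h0, h1, h3⟩ | h | ⟨h2, v, hv, hle⟩
    · exact hts W' h0 h1 h3
    · exact hnd W hc.1 hc.2 h (fun g hg => (mem_subspaceStabilizer_iff_forall_mem W g).2 (hinv g hg))
    · exact hns v h2 hv hle
  have hdec : ∀ (t k : ℕ) (D : Fin t → Submodule F (ι → F)), IsOrthogonalMDecomposition Q k D → H ≤ decompositionStabilizer D → False := by
    intro t k D hD hle
    have hc := card_eq_of_decomp hD.decomp.decomp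
    have ht2 := hD.decomp.decomp.two_le
    by_cases hev : Even t
    · obtain ⟨s, hs⟩ := hev
      exact hminus (plus_of_dec hQ hD (s := s) (by omega) hn4)
    · -- odd number of parts
      have ht3 : t = 3 ∧ k = 4 ∧ Fintype.card ι = 12 := by
        rw [Nat.not_even_iff_odd] at hev
        have htd : t ∣ Fintype.card ι := ⟨k, hc⟩
        rcases hn with h | h
        · rw [h] at htd hc
          have h9 : t ≤ 8 := Nat.le_of_dvd (by norm_num) htd
          exfalso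
          interval_cases t <;> revert hev htd <;> decide
        · rw [h] at htd hc
          have h9 : t ≤ 12 := Nat.le_of_dvd (by norm_num) htd
          interval_cases t <;> first
            | exact absurd hev (by decide)
            | exact absurd htd (by decide)
            | omega
      obtain ⟨rfl, rfl, h12⟩ := ht3
      by_cases hp : ∃ i, IsPlusTypeOn Q (D i)
      · obtain ⟨i, hi⟩ := hp
        refine hminus (plus_of_all_plus hQ hD fun j => ?_)
        exact Cfsg.Agent.Lib.Geo.Om2.plus_iso (hD.isometric i j) hi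
      · push Not at hp
        exact c₇ ⟨h12, D, hD, hp, eq_inf_of_le hH hle (omega_not_le_dec' hQ hι hD.decomp.decomp)⟩
  refine c₁₁ (main_of_noclassE hQ (by omega) hHI ⟨hts, hnd, hns, hdec, ?_, ?_, ?_, ?_, ?_, ?_⟩)
  · -- pairs of totally singular subspaces
    intro k D hD hts' hle
    have hc := card_eq_of_decomp hD
    exact hminus ⟨D 0, le_top, hts' 0, by rw [hD.finrank_eq, finrank_top, finrank_fintype_fun_eq_card, hc]⟩
  · -- fields
    intro r K hr hK _ hle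
    exact c₈ ⟨r, K, hr, hK, eq_inf_of_le hH hle (omega_not_le_field' hQ hι hr.two_le hK)⟩
  · -- tensor products
    intro a b e P f₁ f₂ ε₁ ε₂ ha hb hf₁ hf₂ hεε hlaw hmem
    have hcard : Fintype.card ι = a * b := by
      rw [Fintype.card_congr e]
      simp
    have hact : ∀ h ∈ H, ∃ (α : GL (Fin a) F) (β : GL (Fin b) F), ∀ x y, (h : Matrix ι ι F) *ᵥ TT e P x y =
        TT e P ((α : Matrix (Fin a) (Fin a) F) *ᵥ x) ((β : Matrix (Fin b) (Fin b) F) *ᵥ y) := by
      intro h hh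
      obtain ⟨α, β, hαβ⟩ := hmem h hh
      exact ⟨α, β, TT_of_kr e P h _ _ hαβ⟩
    -- the tensor case with a ternary factor
    have hthree : ∀ {b' : ℕ} (_ : b' = 4) (e' : ι ≃ Fin 3 × Fin b') {g₁ : (Fin 3 → F) → (Fin 3 → F) → F} {g₂ : (Fin b' → F) → (Fin b' → F) → F}
        {δ₁ δ₂ : F}, HF (RingEquiv.refl F) δ₁ g₁ → HF (RingEquiv.refl F) δ₂ g₂ → δ₁ * δ₂ = 1 →
        (∀ x x' y y', pol Q (TT e' P x y) (TT e' P x' y') = g₁ x x' * g₂ y y') →
        (∀ h ∈ H, ∃ (α : GL (Fin 3) F) (β : GL (Fin b') F), (h : Matrix ι ι F) * (P : Matrix ι ι F) =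
          (P : Matrix ι ι F) * Cfsg.Agent.Lib.Asch.Kr.kr e' α β) → False := by
      intro b' hb' e' g₁ g₂ δ₁ δ₂ hg₁ hg₂ hδδ hlaw' hmem'
      have hact' : ∀ h ∈ H, ∃ (α : GL (Fin 3) F) (β : GL (Fin b') F), ∀ x y, (h : Matrix ι ι F) *ᵥ TT e' P x y =
          TT e' P ((α : Matrix (Fin 3) (Fin 3) F) *ᵥ x) ((β : Matrix (Fin b') (Fin b') F) *ᵥ y) := by
        intro h hh
        obtain ⟨α, β, hαβ⟩ := hmem' h hh
        exact ⟨α, β, TT_of_kr e' P h _ _ hαβ⟩
      subst hb'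
      have hδ₁ := eps_eq_one_of_odd hg₁ (by decide)
      subst hδ₁
      rw [one_mul] at hδδ
      subst hδδ
      have hcard' : Fintype.card ι = 12 := by
        rw [Fintype.card_congr e']
        simp
      by_cases h2 : (2 : F) = 0
      · -- characteristic two
        have halt := alt_left hQ h2 hHI hirr (by norm_num) (by norm_num) e' P hg₁ hg₂ hlaw' hact'
        have hsym := symmetric_of_HF hg₁
        have hev := even_of_symplectic (f := g₁) ⟨hsym.bilinear, fun v w => ?_, halt, hsym.nondegenerate⟩ (W := ⊤) (by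
          intro v _ hv0
          obtain ⟨⟨x, hx⟩, ⟨y, hy⟩⟩ := hsym.nondegenerate v hv0
          exact ⟨⟨x, trivial, hx⟩, ⟨y, trivial, hy⟩⟩)
        · rw [finrank_top, finrank_fintype_fun_eq_card, Fintype.card_fin] at hev
          exact absurd hev (by decide)
        · rw [hsym.symm v w]
          linear_combination (g₁ w v) * h2
      -- odd characteristic
      have hodd : Odd (Fintype.card F) := by
        by_contra hc
        exact h2 (two_of_not_odd hc)
      have hsym₁ := symmetric_of_HF hg₁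
      have hsym₂ := symmetric_of_HF hg₂
      by_cases hp : IsPlusTypeOn (fun v : Fin 4 → F => g₂ v v) ⊤
      · obtain ⟨U, -, hU, hUd⟩ := hp
        rw [finrank_top, finrank_fintype_fun_eq_card, Fintype.card_fin] at hUd
        refine hminus (plus_of_factor_ts hQ h2 e' P hlaw' U (fun u hu u' hu' => ?_) hUd)
        have h1 := hU (u + u') (U.add_mem hu hu')
        have h3 := hU u hu
        have h4 := hU u' hu'
        simp only at h1 h3 h4
        rw [hsym₂.bilinear.add_left, hsym₂.bilinear.add_right, hsym₂.bilinear.add_right, h3, h4, hsym₂.symm u' u] at h1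
        have h5 : (2 : F) * g₂ u u' = 0 := by linear_combination h1
        exact (mul_eq_zero.1 h5).resolve_left h2
      by_cases hq3 : Fintype.card F = 3
      · obtain ⟨D, hD, hle⟩ := three_frames hQ hq3 (by norm_num) hHI e' P hg₁ hg₂ hlaw' hact'
        exact hdec _ _ D hD hle
      · have hq5 : 5 ≤ Fintype.card F := by
          have h4 : 2 ≤ Fintype.card F := Fintype.one_lt_card
          obtain ⟨t, ht⟩ := hodd
          omega
        have hle : H ≤ tensorProductSubgroup 3 4 e' P := by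
          intro h hh
          obtain ⟨α, β, hαβ⟩ := hmem' h hh
          exact mem_tensorProductSubgroup e' P h α β hαβ
        exact c₉ ⟨hcard', hodd, hq5, e', P, g₁, g₂, hsym₁, hsym₂, hp,
          Cfsg.Agent.Lib.AschF.Inv.tensor_structure (σf := id) (fun _ => rfl) (hf_polar hQ) e' P hlaw',
          eq_inf_of_le hH hle (omega_not_le_tensor hQ hι (by norm_num) (by norm_num) e' P)⟩
    have hkrswap : ∀ (X : Matrix (Fin a) (Fin a) F) (Y : Matrix (Fin b) (Fin b) F), kr (e.trans (Equiv.prodComm _ _)) Y X = kr e X Y := by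
      intro X Y
      ext i j
      simp [kr, mul_comm]
    have hlawS : ∀ (y y' : Fin b → F) (x x' : Fin a → F), pol Q (TT (e.trans (Equiv.prodComm _ _)) P y x) (TT (e.trans (Equiv.prodComm _ _)) P y' x') = f₂ y y' * f₁ x x' := by
      intro y y' x x'
      rw [TT_swap, TT_swap, hlaw, mul_comm]
    have hactS : ∀ h ∈ H, ∃ (β : GL (Fin b) F) (α : GL (Fin a) F), ∀ y x, (h : Matrix ι ι F) *ᵥ TT (e.trans (Equiv.prodComm _ _)) P y x =
        TT (e.trans (Equiv.prodComm _ _)) P ((β : Matrix (Fin b) (Fin b) F) *ᵥ y) ((α : Matrix (Fin a) (Fin a) F) *ᵥ x) := by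
      intro h hh
      obtain ⟨α, β, hαβ⟩ := hact h hh
      exact ⟨β, α, fun y x => by rw [TT_swap, TT_swap, hαβ]⟩
    have hmemS : ∀ h ∈ H, ∃ (β : GL (Fin b) F) (α : GL (Fin a) F), (h : Matrix ι ι F) * (P : Matrix ι ι F) =
        (P : Matrix ι ι F) * kr (e.trans (Equiv.prodComm _ _)) β α := by
      intro h hh
      obtain ⟨α, β, hαβ⟩ := hmem h hh
      exact ⟨β, α, by rw [hkrswap, hαβ]⟩
    by_cases ha2 : a = 2
    · subst ha2
      exact hminus (plus_of_ten2 hQ hb (by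
        rcases hn with h | h <;> rw [h] at hcard
        · exact ⟨2, by omega⟩
        · exact ⟨3, by omega⟩) hHI hirr e P hf₁ hf₂ hlaw hact)
    by_cases hb2 : b = 2
    · subst hb2
      exact hminus (plus_of_ten2 hQ ha (by
        rcases hn with h | h <;> rw [h] at hcard
        · exact ⟨2, by omega⟩
        · exact ⟨3, by omega⟩) hHI hirr (e.trans (Equiv.prodComm _ _)) P hf₂ hf₁ hlawS hactS)
    by_cases ha3 : a = 3
    · subst ha3
      exact hthree (by rcases hn with h | h <;> rw [h] at hcard <;> omega) e hf₁ hf₂ hεε hlaw hmem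
    by_cases hb3 : b = 3
    · subst hb3
      exact hthree (by rcases hn with h | h <;> rw [h] at hcard <;> omega) (e.trans (Equiv.prodComm _ _)) hf₂ hf₁ (by rw [mul_comm]; exact hεε) hlawS hmemS
    have ha4 : 4 ≤ a := by omega
    have hb4 : 4 ≤ b := by omega
    have : 16 ≤ a * b := Nat.mul_le_mul ha4 hb4
    rcases hn with h | h <;> omega
  · -- tensor powers
    intro a k e₂ P₂ A ε₁ c ha hk hA hc hlaw' _ hle
    have hcard : Fintype.card ι = a ^ k := by
      rw [Fintype.card_congr e₂]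
      simp
    have hak : a = 2 ∧ k = 3 := by
      have h12 : a ^ k ≤ 12 := by
        rw [← hcard]
        rcases hn with h | h <;> omega
      have hk3 : k ≤ 3 := by
        by_contra hk4
        have h3 : 2 ^ 4 ≤ a ^ k := (Nat.pow_le_pow_right (by norm_num) (by omega : 4 ≤ k)).trans (Nat.pow_le_pow_left ha k)
        omega
      have ha3 : a ≤ 3 := by
        by_contra ha4
        have h3 : 4 ^ 2 ≤ a ^ k := (Nat.pow_le_pow_left (by omega : 4 ≤ a) 2).trans (Nat.pow_le_pow_right (by omega) hk)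
        omega
      interval_cases a <;> interval_cases k <;> first
        | exact ⟨rfl, rfl⟩
        | (exfalso; rcases hn with h | h <;> rw [h] at hcard <;> norm_num at hcard)
    obtain ⟨rfl, rfl⟩ := hak
    exact hminus (plus_of_wr8 hQ hHI hirr e₂ P₂ hA hc hlaw' hle)
  · -- subfields
    intro F₁ s P ζ hs hc hζ hrat hle
    by_cases hs2 : s = 2
    · subst hs2
      obtain ⟨m, hm⟩ := hn4
      exact hminus (plus_of_subfield2 hQ F₁ hc (m := 2 * m) (by omega) (by omega) P hζ hrat)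
    · exact c₁₀ ⟨F₁, s, P, ζ, hs, hs.odd_of_ne_two hs2, hc, hζ, hrat,
        eq_inf_of_le hH hle (omega_not_le_subfield' hQ hι (subfield_ne_top hs hc) P)⟩
  · -- symplectic type
    intro R h2 hRH _ hA hSC hx2
    exact hminus (plus_of_rg hQ h2 hn4 (hRH.trans hHI) hA hSC hx2)

end Cfsg.Agent.Lib.CmaxE.Minus
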