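import Mathlib
import Cfsg.Agent.Lib.CmaxE.BinK
import Cfsg.Agent.Lib.AschS.Fld

/-!
# Common facts for the orthogonal groups in dimension ten
-/

set_option autoImplicit false

namespace Cfsg.Agent.Lib.CmaxE.Ten10

open Matrix Module Cfsg Cfsg.Geo
open Cfsg.Agent.Lib.Geo.Basic Cfsg.Agent.Lib.Geo.Polar Cfsg.Agent.Lib.Geo.QForm
open Cfsg.Agent.Lib.GeoOmega.Basic Cfsg.Agent.Lib.AschF.OmegaP
open Cfsg.Agent.Lib.GeoOmega.Nondeg Cfsg.Agent.Lib.GeoOmega.NondegW Cfsg.Agent.Lib.GeoOmega.Singular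
open Cfsg.Agent.Lib.NotMax.Tensor (TT pureT TT_add_left TT_add_right TT_smul_left TT_smul_right TT_ne_zero span_TT)
open Cfsg.Agent.Lib.AschF.Adj (HF)
open Cfsg.Agent.Lib.AschF.OddA (polar_isom Q_isom card_eq_of_decomp hf_polar exists_frame_matrix mem_subfield_of_frame)
open Cfsg.Agent.Lib.AschF.OddC (eps_eq_one_of_odd symmetric_of_HF)
open Cfsg.Agent.Lib.AschF.OddMax (perp_facts two_ne_zero_of_odd subfield_ne_top)
open Cfsg.Agent.Lib.Asch.MaxSL (eq_inf_of_le)
open Cfsg.Agent.Lib.Asch.XT Cfsg.Agent.Lib.Asch.GT Cfsg.Agent.Lib.Asch.SC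
open Cfsg.Agent.Lib.CmaxE.Core Cfsg.Agent.Lib.CmaxE.Proper Cfsg.Agent.Lib.CmaxE.Plus Cfsg.Agent.Lib.CmaxE.Ten
open Cfsg.Agent.Lib.CmaxE.Common Cfsg.Agent.Lib.CmaxE.Rg

universe u

variable {ι : Type} [Fintype ι] [DecidableEq ι] {F : Type u} [Field F] [Fintype F] {Q : (ι → F) → F}

/-- Symplectic type groups have dimension a power of two. -/
theorem false_of_odd_dvd [Nonempty ι] {p : ℕ} (hp : p.Prime) (hodd : p ≠ 2) (hn : p ∣ Fintype.card ι) {R : Subgroup (GL ι F)}
    (hA : ActsAbsolutelyIrreducibly (matrixSet R)) (hSC : ScC R)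
    (hx2 : ∀ x ∈ R, ∃ m : Fˣ, m ^ 2 = 1 ∧ x ^ 2 = sc m) : False := by
  classical
  haveI : Finite (GL ι F) := inferInstanceAs (Finite (Units _))
  let C := Subgroup.center R
  have hcardC := card_eq hA hSC
  have hlag := Subgroup.card_eq_card_quotient_mul_card_subgroup C
  rw [hcardC] at hlag
  have hC0 : Nat.card C ≠ 0 := Nat.card_pos.ne'
  have h5 : Fintype.card ι ^ 2 = Nat.card (R ⧸ C) := by
    apply mul_left_cancel₀ hC0
    rw [hlag]
    ring
  have h3 : p ∣ Nat.card (R ⧸ C) := by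
    rw [← h5]
    exact Dvd.dvd.pow hn (by norm_num)
  haveI : Fact p.Prime := ⟨hp⟩
  obtain ⟨q, hq⟩ := exists_prime_orderOf_dvd_card' p h3
  obtain ⟨t, rfl⟩ := QuotientGroup.mk_surjective q
  have hc : t ^ 2 ∈ C := by
    change t ^ 2 ∈ Subgroup.center R
    rw [center_eq hA, Subgroup.mem_subgroupOf]
    obtain ⟨m, -, hm⟩ := hx2 t t.2
    change (t : GL ι F) ^ 2 ∈ scalars ι F
    rw [hm]
    exact ⟨m, rfl⟩
  have h6 : ((t : R ⧸ C)) ^ 2 = 1 := by
    rw [← QuotientGroup.mk_pow, QuotientGroup.eq_one_iff]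
    exact hc
  have h7 := orderOf_dvd_of_pow_eq_one h6
  rw [hq] at h7
  exact hodd ((Nat.prime_dvd_prime_iff_eq hp Nat.prime_two).1 h7)

variable (hQ : IsNondegenerateQuadraticForm Q)
include hQ

/-- Self-adjoint quadratic fields do not occur in characteristic two in twice odd dimension. -/
theorem no_selfadj_two (h2 : (2 : F) = 0) {K : Subalgebra F (Matrix ι ι F)} (hK : IsFieldSubalgebra 2 K)
    (hsa : IsSelfAdjointFor (pol Q) K) {m : ℕ} (hm : Fintype.card ι = 2 * m) (hodd : Odd m) : False := by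
  classical
  have hm0 : 0 < m := hodd.pos
  haveI : Nonempty ι := Fintype.card_pos_iff.1 (by omega)
  have hsymp : IsSymplecticForm (pol Q) := by
    refine ⟨hQ.polar_bilinear, fun v w => ?_, fun v => ?_, hQ.nondegenerate⟩
    · rw [pol_symm hQ v w]
      linear_combination (pol Q w v) * h2
    · rw [pol_self hQ, h2, zero_mul]
  have hneg : (-1 : F) = 1 := by linear_combination -h2
  have hf : HF (RingEquiv.refl F) (-1) (pol Q) := by
    rw [hneg]
    exact hf_polar hQ
  have h4 := Cfsg.Agent.Lib.CmaxS.Proper2.two_mul_dvd hsymp hK hsa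
    (fun k hk v => Cfsg.Agent.Lib.AschS.Fld.zero_of_selfadj hf hsymp.alternating hK hsa k hk v)
  rw [hm] at h4
  obtain ⟨r, hr⟩ := hodd
  omega

/-- Decompositions into an even number of isometric parts give an isometry between a half and its perp. -/
theorem iso_of_dec {t k s : ℕ} {D : Fin t → Submodule F (ι → F)} (hD : IsOrthogonalMDecomposition Q k D) (ht : t = 2 * s) :
    ∃ W : Submodule F (ι → F), IsNondegenerateOn (QuadraticMap.polar Q) W ∧ 2 * finrank F W = Fintype.card ι ∧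
      AreIsometricFor Q W ((polB hQ).orthogonal W) := by
  classical
  obtain ⟨g, hgI, hg⟩ := exists_perm_isometry hQ hD (Fin.revPerm (n := t))
  let W₁ : Submodule F (ι → F) := ⨆ i : Fin t, ⨆ (_ : i.val < s), D i
  let W₂ : Submodule F (ι → F) := ⨆ i : Fin t, ⨆ (_ : s ≤ i.val), D i
  have hle1 : ∀ i : Fin t, i.val < s → D i ≤ W₁ := fun i hi => le_iSup₂_of_le (f := fun (i : Fin t) (_ : i.val < s) => D i) i hi le_rfl
  have hle2 : ∀ i : Fin t, s ≤ i.val → D i ≤ W₂ := fun i hi => le_iSup₂_of_le (f := fun (i : Fin t) (_ : s ≤ i.val) => D i) i hi le_rfl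
  have hsup : W₁ ⊔ W₂ = ⊤ := by
    rw [eq_top_iff, ← hD.decomp.decomp.iSup_eq_top]
    refine iSup_le fun i => ?_
    by_cases hi : i.val < s
    · exact le_trans (hle1 i hi) le_sup_left
    · exact le_trans (hle2 i (by omega)) le_sup_right
  have hor : ∀ a ∈ W₁, ∀ b ∈ W₂, pol Q a b = 0 := by
    have h1 : W₁ ≤ (polB hQ).orthogonal W₂ := by
      refine iSup₂_le fun i hi => ?_
      intro x hx
      rw [mem_orth_iff hQ]
      intro u hu
      have h2 : W₂ ≤ (polB hQ).orthogonal (D i) := by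
        refine iSup₂_le fun j hj => ?_
        intro y hy
        rw [mem_orth_iff hQ]
        intro u' hu'
        exact hD.decomp.orthogonal j i (fun h => by rw [h] at hj; omega) y hy u' hu'
      rw [pol_symm hQ]
      exact (mem_orth_iff hQ).1 (h2 hu) x hx
    intro a ha b hb
    exact (mem_orth_iff hQ).1 (h1 ha) b hb
  have hmap1 : W₁.map (Matrix.toLin' (g : Matrix ι ι F)) ≤ W₂ := by
    rw [Submodule.map_le_iff_le_comap]
    refine iSup₂_le fun i hi x hx => ?_
    rw [Submodule.mem_comap, Matrix.toLin'_apply]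
    refine hle2 _ ?_ (hg i x hx)
    simp only [Fin.revPerm_apply, Fin.val_rev]
    omega
  have hmap2 : W₂.map (Matrix.toLin' (g : Matrix ι ι F)) ≤ W₁ := by
    rw [Submodule.map_le_iff_le_comap]
    refine iSup₂_le fun i hi x hx => ?_
    rw [Submodule.mem_comap, Matrix.toLin'_apply]
    refine hle1 _ ?_ (hg i x hx)
    simp only [Fin.revPerm_apply, Fin.val_rev]
    omega
  have hnd : IsNondegenerateOn (QuadraticMap.polar Q) W₁ := by
    intro v hv hv0
    obtain ⟨w, hw⟩ := (hQ.nondegenerate v hv0).2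
    have hw' : w ∈ W₁ ⊔ W₂ := by
      rw [hsup]
      trivial
    obtain ⟨w₁, hw₁, w₂, hw₂, rfl⟩ := Submodule.mem_sup.1 hw'
    have h3 : pol Q v w₁ ≠ 0 := by
      intro h0
      apply hw
      change pol Q v (w₁ + w₂) = 0
      rw [pol_add_right hQ, h0, hor v hv w₂ hw₂, add_zero]
    exact ⟨⟨w₁, hw₁, by rw [pol_symm hQ] at h3; exact h3⟩, ⟨w₁, hw₁, h3⟩⟩
  have hinf : W₁ ⊓ W₂ = ⊥ := by
    rw [eq_bot_iff]
    rintro x ⟨hx, hx2⟩
    by_contra hx0
    obtain ⟨y, hy, hne⟩ := (hnd x hx hx0).1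
    exact hne (hor y hy x hx2)
  have hf1 := Submodule.finrank_mono hmap1
  have hf2 := Submodule.finrank_mono hmap2
  rw [finrank_map_toLin'] at hf1 hf2
  have hf3 := Submodule.finrank_sup_add_finrank_inf_eq W₁ W₂
  rw [hsup, hinf, finrank_bot, finrank_top, finrank_total] at hf3
  have hf4 := finrank_orth' hQ W₁
  have hmapO : W₁.map (Matrix.toLin' (g : Matrix ι ι F)) = (polB hQ).orthogonal W₁ := by
    apply Submodule.eq_of_le_of_finrank_eq
    · intro x hx
      rw [mem_orth_iff hQ]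
      intro u hu
      rw [pol_symm hQ]
      exact hor u hu x (hmap1 hx)
    · rw [finrank_map_toLin']
      omega
  refine ⟨W₁, hnd, by omega, ?_⟩
  have hginj : Function.Injective (fun x : ι → F => (g : Matrix ι ι F) *ᵥ x) := by
    intro x y hxy
    have h3 := congrArg (fun w => ((g⁻¹ : GL ι F) : Matrix ι ι F) *ᵥ w) hxy
    simpa [Matrix.mulVec_mulVec, ← Matrix.GeneralLinearGroup.coe_mul] using h3
  let L : W₁ →ₗ[F] (polB hQ).orthogonal W₁ :=
    { toFun := fun x => ⟨(g : Matrix ι ι F) *ᵥ x, by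
        rw [← hmapO]
        exact ⟨x, x.2, rfl⟩⟩
      map_add' := fun x y => Subtype.ext (Matrix.mulVec_add _ _ _)
      map_smul' := fun c x => Subtype.ext (Matrix.mulVec_smul _ _ _) }
  have hLinj : Function.Injective L := by
    intro x y hxy
    exact Subtype.ext (hginj (congrArg Subtype.val hxy))
  refine ⟨LinearMap.linearEquivOfInjective L hLinj (by omega), fun x => ?_⟩
  exact Q_isom hgI _

/-- In a decomposition into two parts each is the perp of the other. -/
theorem orth_eq_of_two {k : ℕ} {D : Fin 2 → Submodule F (ι → F)} (hD : IsNondegenerateMDecomposition (QuadraticMap.polar Q) k D) :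
    (polB hQ).orthogonal (D 0) = D 1 := by
  symm
  have hc := card_eq_of_decomp hD.decomp
  apply Submodule.eq_of_le_of_finrank_eq
  · intro x hx
    rw [mem_orth_iff hQ]
    intro u hu
    rw [pol_symm hQ]
    exact hD.orthogonal 0 1 (by decide) u hu x hx
  · have h4 := finrank_orth' hQ (D 0)
    rw [hD.decomp.finrank_eq 0] at h4
    rw [hD.decomp.finrank_eq 1]
    omega

/-- Frames of isometric lines are preserved by subfield groups. -/
theorem frame_subfield (h2 : (2 : F) ≠ 0) {t : ℕ} {D : Fin t → Submodule F (ι → F)} (hD : IsOrthogonalMDecomposition Q 1 D)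
    {H : Subgroup (GL ι F)} (hHI : H ≤ isometryGroup F Q) (hle : H ≤ decompositionStabilizer D) (F₁ : Subfield F) :
    ∃ (E : GL ι F) (ζ : F), ζ ≠ 0 ∧ IsQuadFormRationalStructure (fun v => ζ * Q v) F₁ E ∧ H ≤ subfieldSubgroup F₁ E := by
  classical
  have hN := hD.decomp
  have hs := (hf_polar hQ).sesq
  have ht2 := hN.decomp.two_le
  have hcardι := card_eq_of_decomp hN.decomp
  rw [mul_one] at hcardι
  let i₀ : Fin t := ⟨0, by omega⟩
  have hline : ∀ i, ∀ w ∈ D i, w ≠ 0 → ∀ x ∈ D i, ∃ c : F, x = c • w := by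
    intro i w hw hw0 x hx
    have h1 := (finrank_eq_one_iff_of_nonzero' (⟨w, hw⟩ : D i) (fun h => hw0 (congrArg Subtype.val h))).1 (hN.decomp.finrank_eq i) ⟨x, hx⟩
    obtain ⟨c, hc⟩ := h1
    refine ⟨c, ?_⟩
    have := congrArg Subtype.val hc
    exact this.symm
  obtain ⟨v₀, hv₀, hv₀0⟩ : ∃ v₀ ∈ D i₀, v₀ ≠ 0 := by
    have h1 : finrank F (D i₀) = 1 := hN.decomp.finrank_eq i₀
    have h3 : D i₀ ≠ ⊥ := by
      intro h
      rw [h, finrank_bot] at h1
      exact zero_ne_one h1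
    exact Submodule.exists_mem_ne_zero_of_ne_bot h3
  have hiso := fun j => hD.isometric i₀ j
  choose g hg using hiso
  let v : Fin t → ι → F := fun j => ((g j ⟨v₀, hv₀⟩ : D j) : ι → F)
  have hvD : ∀ j, v j ∈ D j := fun j => (g j ⟨v₀, hv₀⟩ : D j).2
  set a := Q v₀ with ha
  have hQv : ∀ j, Q (v j) = a := fun j => hg j _
  have ha0 : a ≠ 0 := by
    obtain ⟨⟨x, hx, hxv⟩, -⟩ := hN.nondegenerate i₀ v₀ hv₀ hv₀0
    obtain ⟨c, rfl⟩ := hline i₀ v₀ hv₀ hv₀0 x hx
    change pol Q _ _ ≠ 0 at hxv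
    rw [hs.smul_left, pol_self hQ] at hxv
    intro h0
    rw [← ha, h0] at hxv
    simp at hxv
  have hv0 : ∀ j, v j ≠ 0 := by
    intro j h0
    have := hQv j
    rw [h0, Q_zero hQ] at this
    exact ha0 this.symm
  have hvv : ∀ i j, pol Q (v i) (v j) = if i = j then 2 * a else 0 := by
    intro i j
    by_cases hij : i = j
    · subst hij
      rw [if_pos rfl, pol_self hQ, hQv]
    · rw [if_neg hij]
      exact hN.orthogonal i j hij _ (hvD i) _ (hvD j)
  have hb : 2 * a ≠ 0 := mul_ne_zero h2 ha0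
  let e : ι ≃ Fin t := Fintype.equivOfCardEq (by rw [hcardι, Fintype.card_fin])
  obtain ⟨E, hE, hEform⟩ := exists_frame_matrix hs e v hb hvv
  refine ⟨E, a⁻¹, inv_ne_zero ha0, ?_, ?_⟩
  · intro u hu
    have h3 := hEform u u
    rw [pol_self hQ] at h3
    have h4 : Q ((E : Matrix ι ι F) *ᵥ u) = a * ∑ i, u i * u i := by
      apply mul_left_cancel₀ h2
      rw [h3]
      ring
    change a⁻¹ * Q ((E : Matrix ι ι F) *ᵥ u) ∈ F₁
    rw [h4, inv_mul_cancel_left₀ ha0]
    exact F₁.sum_mem fun i _ => F₁.mul_mem (hu i) (hu i)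
  · intro h hh
    refine mem_subfield_of_frame F₁ e v E hE h fun k => ?_
    obtain ⟨π, hπ⟩ := hle hh
    have h1 : (h : Matrix ι ι F) *ᵥ v k ∈ D (π k) := by
      rw [← hπ k]
      exact ⟨v k, hvD k, rfl⟩
    obtain ⟨c, hc⟩ := hline (π k) _ (hvD (π k)) (hv0 _) _ h1
    refine ⟨π k, c, ?_, hc⟩
    have h3 := Q_isom (hHI hh) (v k)
    rw [hc, hQ.smul, hQv, hQv] at h3
    have h4 : (c - 1) * (c + 1) = 0 := by
      have : (c ^ 2 - 1) * a = 0 := by linear_combination h3
      have h5 := (mul_eq_zero.1 this).resolve_right ha0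
      linear_combination h5
    rcases mul_eq_zero.1 h4 with h5 | h5
    · rw [sub_eq_zero.1 h5]
      exact F₁.one_mem
    · rw [eq_neg_of_add_eq_zero_left h5]
      exact F₁.neg_mem F₁.one_mem

/-- Tensor products with a binary factor and an odd factor. -/
theorem ten_two_odd {b : ℕ} (hb : Odd b) {H : Subgroup (GL ι F)} (hHI : H ≤ isometryGroup F Q)
    (hirr : ∀ W : Submodule F (ι → F), (∀ g ∈ H, ∀ v ∈ W, (g : Matrix ι ι F) *ᵥ v ∈ W) → W = ⊥ ∨ W = ⊤)
    (hb2 : 2 ≤ b) (e : ι ≃ Fin 2 × Fin b) (P : GL ι F) {f₁ : (Fin 2 → F) → (Fin 2 → F) → F} {f₂ : (Fin b → F) → (Fin b → F) → F} {ε₁ ε₂ : F}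
    (hf₁ : HF (RingEquiv.refl F) ε₁ f₁) (hf₂ : HF (RingEquiv.refl F) ε₂ f₂) (hεε : ε₁ * ε₂ = 1)
    (hlaw : ∀ x x' y y', pol Q (TT e P x y) (TT e P x' y') = f₁ x x' * f₂ y y')
    (hact : ∀ h ∈ H, ∃ (α : GL (Fin 2) F) (β : GL (Fin b) F), ∀ x y, (h : Matrix ι ι F) *ᵥ TT e P x y =
      TT e P ((α : Matrix (Fin 2) (Fin 2) F) *ᵥ x) ((β : Matrix (Fin b) (Fin b) F) *ᵥ y)) :
    (∃ x₀ : Fin 2 → F, x₀ ≠ 0 ∧ ∀ y, Q (TT e P x₀ y) = 0) ∨
    ∃ K : Subalgebra F (Matrix ι ι F), IsFieldSubalgebra 2 K ∧ IsAdjointClosedFor (pol Q) K ∧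
      ¬ IsSelfAdjointFor (pol Q) K ∧ (∀ k ∈ K, ∃ c : F, ∀ v, Q (k *ᵥ v) = c * Q v) ∧ H ≤ subalgebraNormalizer K := by
  classical
  have hε₂ := eps_eq_one_of_odd hf₂ hb
  subst hε₂
  rw [mul_one] at hεε
  subst hεε
  have hsym₂ := symmetric_of_HF hf₂
  by_cases h2 : (2 : F) = 0
  · exfalso
    have hlawS : ∀ (y y' : Fin b → F) (x x' : Fin 2 → F), pol Q (TT (e.trans (Equiv.prodComm _ _)) P y x) (TT (e.trans (Equiv.prodComm _ _)) P y' x') = f₂ y y' * f₁ x x' := by
      intro y y' x x'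
      rw [TT_swap, TT_swap, hlaw, mul_comm]
    have hactS : ∀ h ∈ H, ∃ (β : GL (Fin b) F) (α : GL (Fin 2) F), ∀ y x, (h : Matrix ι ι F) *ᵥ TT (e.trans (Equiv.prodComm _ _)) P y x =
        TT (e.trans (Equiv.prodComm _ _)) P ((β : Matrix (Fin b) (Fin b) F) *ᵥ y) ((α : Matrix (Fin 2) (Fin 2) F) *ᵥ x) := by
      intro h hh
      obtain ⟨α, β, hαβ⟩ := hact h hh
      exact ⟨β, α, fun y x => by rw [TT_swap, TT_swap, hαβ]⟩
    have halt := alt_left hQ h2 hHI hirr hb2 (by norm_num) (e.trans (Equiv.prodComm _ _)) P hf₂ hf₁ hlawS hactS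
    have hev := even_of_symplectic (f := f₂) ⟨hsym₂.bilinear, fun v w => ?_, halt, hsym₂.nondegenerate⟩ (W := ⊤) (by
      intro v _ hv0
      obtain ⟨⟨x, hx⟩, ⟨y, hy⟩⟩ := hsym₂.nondegenerate v hv0
      exact ⟨⟨x, trivial, hx⟩, ⟨y, trivial, hy⟩⟩)
    · rw [finrank_top, finrank_fintype_fun_eq_card, Fintype.card_fin] at hev
      exact (Nat.not_even_iff_odd.2 hb) hev
    · rw [hsym₂.symm v w]
      linear_combination (f₂ w v) * h2
  · by_cases hiso : ∃ x₀ : Fin 2 → F, x₀ ≠ 0 ∧ f₁ x₀ x₀ = 0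
    · obtain ⟨x₀, hx₀, hz⟩ := hiso
      refine Or.inl ⟨x₀, hx₀, fun y => ?_⟩
      apply mul_left_cancel₀ h2
      rw [← pol_self hQ, hlaw, hz]
      ring
    · push Not at hiso
      exact Or.inr (Cfsg.Agent.Lib.CmaxE.QuadF.field_of_ten2 hQ h2 (by omega) e P hf₁ hf₂ hlaw hiso hHI hact)

/-- Non-degenerate invariant subspaces: the normal form, when the half dimensional ones are dealt with. -/
theorem nd_normal_half (hι : 7 ≤ Fintype.card ι) {H : Subgroup (GL ι F)}
    (hmax : IsMaximalIn (omegaGL Q) H) (hhalf : ∀ W₁ : Submodule F (ι → F), 2 * finrank F W₁ = Fintype.card ι →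
      Odd (finrank F W₁) → IsNondegenerateOn (QuadraticMap.polar Q) W₁ → H ≤ subspaceStabilizer W₁ → False)
    {W : Submodule F (ι → F)} (hW0 : W ≠ ⊥) (hW1 : W ≠ ⊤)
    (hnd : IsNondegenerateOn (QuadraticMap.polar Q) W) (hle : H ≤ subspaceStabilizer W) :
    (Odd (Fintype.card F) ∧ ∃ W' : Submodule F (ι → F), W' ≠ ⊥ ∧ W' ≠ ⊤ ∧ Odd (finrank F W') ∧ 2 * finrank F W' ≠ Fintype.card ι ∧
      IsNondegenerateOn (QuadraticMap.polar Q) W' ∧ H = subspaceStabilizer W' ⊓ omegaGL Q) ∨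
    (∃ W' : Submodule F (ι → F), finrank F W' = 2 ∧ IsNondegenerateOn (QuadraticMap.polar Q) W' ∧ ¬ IsPlusTypeOn Q W' ∧
      H = subspaceStabilizer W' ⊓ omegaGL Q) ∨
    (4 ≤ Fintype.card F ∧ ∃ W' : Submodule F (ι → F), finrank F W' = 2 ∧ IsNondegenerateOn (QuadraticMap.polar Q) W' ∧ IsPlusTypeOn Q W' ∧
      H = subspaceStabilizer W' ⊓ omegaGL Q) ∨
    (¬ Odd (Fintype.card F) ∧ ∃ v : ι → F, Q v ≠ 0 ∧ H = subspaceStabilizer (Submodule.span F {v}) ⊓ omegaGL Q) ∨
    (∃ W' : Submodule F (ι → F), 4 ≤ finrank F W' ∧ 2 * finrank F W' ≤ Fintype.card ι ∧ Even (finrank F W') ∧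
      IsNondegenerateOn (QuadraticMap.polar Q) W' ∧ H = subspaceStabilizer W' ⊓ omegaGL Q) := by
  have hHO : H ≤ omegaGL Q := hmax.1.le
  have hHI : H ≤ isometryGroup F Q := hHO.trans (omegaGL_le_isometryGroup Q)
  -- pass to the smaller of `W` and its perp
  obtain ⟨W₁, hW₁0, hW₁1, hW₁d, hW₁n, hW₁s⟩ : ∃ W₁ : Submodule F (ι → F), W₁ ≠ ⊥ ∧ W₁ ≠ ⊤ ∧ 2 * finrank F W₁ ≤ Fintype.card ι ∧
      IsNondegenerateOn (QuadraticMap.polar Q) W₁ ∧ H ≤ subspaceStabilizer W₁ := by
    obtain ⟨h5, h6⟩ := perp_facts hQ hnd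
    by_cases hd : 2 * finrank F W ≤ Fintype.card ι
    · exact ⟨W, hW0, hW1, hd, hnd, hle⟩
    · refine ⟨(polB hQ).orthogonal W, ?_, ?_, by omega, h5, fun g hg => stab_orth_of_stab hQ (hHI hg) (hle hg)⟩
      · intro h
        rw [h, finrank_bot, zero_add] at h6
        apply hW1
        apply Submodule.eq_top_of_finrank_eq
        rw [h6]
        simp
      · intro h
        rw [h, finrank_top, finrank_fintype_fun_eq_card] at h6
        apply hW0
        have : finrank F W = 0 := by omega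
        exact Submodule.finrank_eq_zero.1 this
  have hW₁pos : 0 < finrank F W₁ := Nat.pos_of_ne_zero (fun h => hW₁0 (Submodule.finrank_eq_zero.1 h))
  have heq := eq_inf_of_le hmax hW₁s (omega_not_le_stab hQ hι hW₁0 hW₁1)
  by_cases hev : Even (finrank F W₁)
  · by_cases h2d : finrank F W₁ = 2
    · by_cases hpl : IsPlusTypeOn Q W₁
      · by_cases hq4 : 4 ≤ Fintype.card F
        · exact Or.inr (Or.inr (Or.inl ⟨hq4, W₁, h2d, hW₁n, hpl, heq⟩))
        · -- small fields
          have hsq : ∀ α : F, α ≠ 0 → α ^ 2 = 1 := by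
            intro α hα
            have h3 := FiniteField.pow_card_sub_one_eq_one α hα
            have hc2 : 2 ≤ Fintype.card F := Fintype.one_lt_card
            have hcases : Fintype.card F = 2 ∨ Fintype.card F = 3 := by omega
            rcases hcases with h | h
            · rw [h] at h3
              simp only [Nat.add_one_sub_one, pow_one] at h3
              rw [h3]
              simp
            · rw [h] at h3
              exact h3
          obtain ⟨v, hv0, hQv, hvs⟩ := plane_line' hQ hsq hHI h2d hW₁n hpl hW₁s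
          by_cases hodd : Odd (Fintype.card F)
          · have h2 := two_ne_zero_of_odd hodd
            left
            refine ⟨hodd, Submodule.span F {v}, ?_, ?_, ?_, ?_, ?_, stab_line_eq hQ hι hmax hQv hvs⟩
            · intro h
              have := finrank_span_singleton (K := F) hv0
              rw [h, finrank_bot] at this
              omega
            · intro h
              have := finrank_span_singleton (K := F) hv0
              rw [h, finrank_top, finrank_fintype_fun_eq_card] at this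
              omega
            · rw [finrank_span_singleton hv0]
              exact odd_one
            · rw [finrank_span_singleton hv0]
              omega
            · have hvv : pol Q v v ≠ 0 := by
                rw [pol_self hQ]
                exact mul_ne_zero h2 hQv
              intro w hw hw0
              obtain ⟨c, rfl⟩ := Submodule.mem_span_singleton.1 hw
              have hc : c ≠ 0 := by
                rintro rfl
                simp at hw0
              refine ⟨⟨v, Submodule.mem_span_singleton_self _, ?_⟩, ⟨v, Submodule.mem_span_singleton_self _, ?_⟩⟩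
              · change pol Q _ _ ≠ 0
                rw [pol_smul_right hQ]
                exact mul_ne_zero hc hvv
              · change pol Q _ _ ≠ 0
                rw [pol_smul_left hQ]
                exact mul_ne_zero hc hvv
          · exact Or.inr (Or.inr (Or.inr (Or.inl ⟨hodd, v, hQv, stab_line_eq hQ hι hmax hQv hvs⟩)))
      · exact Or.inr (Or.inl ⟨W₁, h2d, hW₁n, hpl, heq⟩)
    · refine Or.inr (Or.inr (Or.inr (Or.inr ⟨W₁, ?_, hW₁d, hev, hW₁n, heq⟩)))
      obtain ⟨r, hr⟩ := hev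
      omega
  · -- odd dimension
    have hodd : Odd (Fintype.card F) := by
      by_contra hc
      exact hev (even_of_nd_two hQ (two_of_not_odd hc) hW₁n)
    rw [Nat.not_even_iff_odd] at hev
    left
    exact ⟨hodd, W₁, hW₁0, hW₁1, hev, fun h => hhalf W₁ h hev hW₁n hW₁s, hW₁n, heq⟩

end Cfsg.Agent.Lib.CmaxE.Ten10
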