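import Mathlib
import Cfsg.Agent.Lib.CmaxE.Ten10

/-!
# Maximal subgroups of `Ω⁻` in dimension ten
-/

set_option autoImplicit false

namespace Cfsg.Agent.Lib.CmaxE.Minus10

open Matrix Module Cfsg Cfsg.Geo
open Cfsg.Agent.Lib.Geo.Basic Cfsg.Agent.Lib.Geo.Polar Cfsg.Agent.Lib.Geo.QForm
open Cfsg.Agent.Lib.GeoOmega.Basic Cfsg.Agent.Lib.AschF.OmegaP
open Cfsg.Agent.Lib.GeoOmega.Nondeg Cfsg.Agent.Lib.GeoOmega.NondegW Cfsg.Agent.Lib.GeoOmega.Singular
open Cfsg.Agent.Lib.NotMax.Tensor (TT pureT)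
open Cfsg.Agent.Lib.AschF.Adj (HF)
open Cfsg.Agent.Lib.AschF.OddA (polar_isom Q_isom card_eq_of_decomp hf_polar exists_max_of_not_prime)
open Cfsg.Agent.Lib.AschF.OddMax (perp_facts two_ne_zero_of_odd subfield_ne_top)
open Cfsg.Agent.Lib.Asch.MaxSL (eq_inf_of_le)
open Cfsg.Agent.Lib.Asch.MaxSN (field_dvd)
open Cfsg.Agent.Lib.Asch.Kr (kr)
open Cfsg.Agent.Lib.CmaxE.Core Cfsg.Agent.Lib.CmaxE.Proper Cfsg.Agent.Lib.CmaxE.Plus Cfsg.Agent.Lib.CmaxE.Ten
open Cfsg.Agent.Lib.CmaxE.Common Cfsg.Agent.Lib.CmaxE.Sub2 Cfsg.Agent.Lib.CmaxE.Five Cfsg.Agent.Lib.CmaxE.Uni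
open Cfsg.Agent.Lib.CmaxE.BinK Cfsg.Agent.Lib.CmaxE.Ten10

universe u

variable {ι : Type} [Fintype ι] [DecidableEq ι] {F : Type u} [Field F] [Fintype F] {Q : (ι → F) → F}

variable (hQ : IsNondegenerateQuadraticForm Q)
include hQ

/-- Odd prime powers congruent to three modulo four have only odd field automorphism degrees. -/
theorem odd_of_three_mod {F₁ : Subfield F} {s : ℕ} (hs : s.Prime) (hc : Fintype.card F = Nat.card F₁ ^ s)
    (h3 : Fintype.card F % 4 = 3) : Odd s := by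
  apply hs.odd_of_ne_two
  rintro rfl
  rw [hc] at h3
  have h4 : ∀ m : ℕ, m ^ 2 % 4 ≠ 3 := by
    intro m
    have h5 : m % 4 = 0 ∨ m % 4 = 1 ∨ m % 4 = 2 ∨ m % 4 = 3 := by omega
    rcases h5 with h5 | h5 | h5 | h5 <;> simp [pow_two, Nat.mul_mod, h5]
  exact h4 _ h3

/-- The structure theorem for the groups of minus type in dimension ten. -/
theorem minus10_structure (hn : Fintype.card ι = 10) (hminus : ¬ IsPlusTypeOn Q ⊤) {H : Subgroup (GL ι F)}
    (hH : IsMaximalIn (omegaGL Q) H) :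
    (∃ W : Submodule F (ι → F), W ≠ ⊥ ∧ IsTotallySingularQuad Q W ∧ H = subspaceStabilizer W ⊓ omegaGL Q) ∨
    (Odd (Fintype.card F) ∧ ∃ W : Submodule F (ι → F), W ≠ ⊥ ∧ W ≠ ⊤ ∧ Odd (finrank F W) ∧ 2 * finrank F W ≠ 10 ∧
      IsNondegenerateOn (QuadraticMap.polar Q) W ∧ H = subspaceStabilizer W ⊓ omegaGL Q) ∨
    (∃ W : Submodule F (ι → F), finrank F W = 2 ∧ IsNondegenerateOn (QuadraticMap.polar Q) W ∧ ¬ IsPlusTypeOn Q W ∧
      H = subspaceStabilizer W ⊓ omegaGL Q) ∨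
    (4 ≤ Fintype.card F ∧ ∃ W : Submodule F (ι → F), finrank F W = 2 ∧ IsNondegenerateOn (QuadraticMap.polar Q) W ∧ IsPlusTypeOn Q W ∧
      H = subspaceStabilizer W ⊓ omegaGL Q) ∨
    (∃ W : Submodule F (ι → F), finrank F W = 4 ∧ IsNondegenerateOn (QuadraticMap.polar Q) W ∧ H = subspaceStabilizer W ⊓ omegaGL Q) ∨
    (¬ Odd (Fintype.card F) ∧ ∃ v : ι → F, Q v ≠ 0 ∧ H = subspaceStabilizer (Submodule.span F {v}) ⊓ omegaGL Q) ∨
    ((∃ p : ℕ, p.Prime ∧ Fintype.card F = p ∧ (p % 4 = 3)) ∧ ∃ D : Fin 10 → Submodule F (ι → F), IsOrthogonalMDecomposition Q 1 D ∧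
      H = decompositionStabilizer D ⊓ omegaGL Q) ∨
    (Fintype.card F ≠ 3 ∧ ∃ D : Fin 5 → Submodule F (ι → F), IsOrthogonalMDecomposition Q 2 D ∧ H = decompositionStabilizer D ⊓ omegaGL Q) ∨
    (Fintype.card F % 4 = 3 ∧ ∃ D : Fin 2 → Submodule F (ι → F), IsOrthogonalMDecomposition Q 5 D ∧ H = decompositionStabilizer D ⊓ omegaGL Q) ∨
    (Fintype.card F % 4 = 1 ∧ ∃ D : Fin 2 → Submodule F (ι → F), IsNondegenerateMDecomposition (QuadraticMap.polar Q) 5 D ∧
      ¬ AreIsometricFor Q (D 0) (D 1) ∧ H = decompositionStabilizer D ⊓ omegaGL Q) ∨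
    (Odd (Fintype.card F) ∧ ∃ K : Subalgebra F (Matrix ι ι F), IsFieldSubalgebra 2 K ∧ IsSelfAdjointFor (QuadraticMap.polar Q) K ∧
      H = subalgebraNormalizer K ⊓ omegaGL Q) ∨
    (∃ K : Subalgebra F (Matrix ι ι F), IsFieldSubalgebra 2 K ∧ IsAdjointClosedFor (QuadraticMap.polar Q) K ∧
      ¬ IsSelfAdjointFor (QuadraticMap.polar Q) K ∧ (∀ k ∈ K, ∃ c : F, ∀ v : ι → F, Q (Matrix.mulVec k v) = c * Q v) ∧
      H = subalgebraNormalizer K ⊓ omegaGL Q) ∨
    (∃ (F₀ : Subfield F) (r : ℕ) (P : GL ι F) (ζ : F), r.Prime ∧ Odd r ∧ Fintype.card F = Nat.card F₀ ^ r ∧ ζ ≠ 0 ∧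
      IsQuadFormRationalStructure (fun v : ι → F => ζ * Q v) F₀ P ∧ H = subfieldSubgroup F₀ P ⊓ omegaGL Q) ∨
    InOrthogonalResidualClass H := by
  classical
  have hHI : H ≤ isometryGroup F Q := hH.1.le.trans (omegaGL_le_isometryGroup Q)
  have hι : 7 ≤ Fintype.card ι := by omega
  haveI : Nonempty ι := Fintype.card_pos_iff.1 (by omega)
  by_contra hcon
  simp only [not_or] at hcon
  obtain ⟨c₁, c₂, c₃, c₄, c₅, c₆, c₇, c₈, c₉, c₁₀, c₁₁, c₁₂, c₁₃, c₁₄⟩ := hcon
  have hoddq : ¬ (2 : F) = 0 → Fintype.card F % 2 = 1 := by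
    intro h2
    apply FiniteField.odd_card_of_char_ne_two
    intro h
    apply h2
    have := ringChar.Nat.cast_ringChar (R := F)
    rw [h] at this
    exact_mod_cast this
  -- half dimensional non-degenerate subspaces
  have hfive : ∀ W : Submodule F (ι → F), finrank F W = 5 → IsNondegenerateOn (QuadraticMap.polar Q) W →
      (2 : F) ≠ 0 ∧ (AreIsometricFor Q W ((polB hQ).orthogonal W) → Fintype.card F % 4 = 3) ∧
      (¬ AreIsometricFor Q W ((polB hQ).orthogonal W) → Fintype.card F % 4 = 1) := by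
    intro W h5 hW
    have h2 : (2 : F) ≠ 0 := by
      intro h2
      have := even_of_nd_two hQ h2 hW
      rw [h5] at this
      exact absurd this (by decide)
    have hq := hoddq h2
    have hiff := plus_iff_five hQ h2 hn hW h5
    refine ⟨h2, fun hiso => ?_, fun hiso => ?_⟩
    · by_contra h3
      apply hminus
      rw [hiff]
      exact ⟨fun _ => by omega, fun _ => hiso⟩
    · by_contra h3
      apply hminus
      rw [hiff]
      exact ⟨fun h => absurd h hiso, fun h => absurd h h3⟩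
  -- the fields, one at a time
  have hts : ∀ W : Submodule F (ι → F), W ≠ ⊥ → IsTotallySingularQuad Q W → H ≤ subspaceStabilizer W → False := fun W h0 h1 h3 =>
    c₁ ⟨W, h0, h1, eq_inf_of_le hH h3 (omega_not_le_stab hQ hι h0 (ne_top_of_ts hQ h1))⟩
  have hhalf : ∀ W₁ : Submodule F (ι → F), 2 * finrank F W₁ = Fintype.card ι →
      Odd (finrank F W₁) → IsNondegenerateOn (QuadraticMap.polar Q) W₁ → H ≤ subspaceStabilizer W₁ → False := by
    intro W₁ hd _ hW₁ hle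
    have h5 : finrank F W₁ = 5 := by omega
    obtain ⟨h2, h3, h4⟩ := hfive W₁ h5 hW₁
    obtain ⟨hW₁', hfr'⟩ := perp_facts hQ hW₁
    have hdecO := orthDec_of_nd hQ hW₁
    have hm := mdec_pair (k := 5) (by norm_num) h5 (by omega) hdecO.inf hdecO.sup
    let D : Fin 2 → Submodule F (ι → F) := ![W₁, (polB hQ).orthogonal W₁]
    have hN : IsNondegenerateMDecomposition (QuadraticMap.polar Q) 5 D := by
      refine ⟨hm, ?_, ?_⟩
      · intro i
        fin_cases i
        · exact hW₁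
        · exact hW₁'
      · intro i j hij x hx y hy
        fin_cases i <;> fin_cases j
        · exact absurd rfl hij
        · exact hdecO.orth x hx y hy
        · change pol Q x y = 0
          rw [pol_symm hQ]
          exact hdecO.orth y hy x hx
        · exact absurd rfl hij
    have hleD : H ≤ decompositionStabilizer D := by
      intro g hg
      refine Cfsg.Agent.Lib.Geo.SpDecomp.mem_decompositionStabilizer_of_forall (k := 5) hm.finrank_eq (Equiv.refl _) g ?_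
      intro i x hx
      fin_cases i
      · exact (mem_subspaceStabilizer_iff_forall_mem W₁ g).1 (hle hg) x hx
      · exact (mem_subspaceStabilizer_iff_forall_mem _ g).1 (stab_orth_of_stab hQ (hHI hg) (hle hg)) x hx
    have heq := eq_inf_of_le hH hleD (omega_not_le_dec' hQ hι hm)
    by_cases hiso : AreIsometricFor Q W₁ ((polB hQ).orthogonal W₁)
    · refine c₉ ⟨h3 hiso, D, ⟨hN, ?_⟩, heq⟩
      have hsymm : AreIsometricFor Q ((polB hQ).orthogonal W₁) W₁ := by
        obtain ⟨e, he⟩ := hiso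
        refine ⟨e.symm, fun x => ?_⟩
        have h7 := he (e.symm x)
        rw [LinearEquiv.apply_symm_apply] at h7
        exact h7.symm
      intro i j
      fin_cases i <;> fin_cases j
      · exact ⟨LinearEquiv.refl F _, fun _ => rfl⟩
      · exact hiso
      · exact hsymm
      · exact ⟨LinearEquiv.refl F _, fun _ => rfl⟩
    · exact c₁₀ ⟨h4 hiso, D, hN, hiso, heq⟩
  have hnd : ∀ W : Submodule F (ι → F), W ≠ ⊥ → W ≠ ⊤ → IsNondegenerateOn (pol Q) W → H ≤ subspaceStabilizer W → False := by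
    intro W h0 h1 h3 h4
    rcases nd_normal_half hQ hι hH hhalf h0 h1 h3 h4 with h | h | h | h | h
    · obtain ⟨hodd, W', h5, h6, h7, h8, h9, h10⟩ := h
      rw [hn] at h8
      exact c₂ ⟨hodd, W', h5, h6, h7, h8, h9, h10⟩
    · exact c₃ h
    · exact c₄ h
    · exact c₆ h
    · obtain ⟨W', h5, h6, h7, h8, h9⟩ := h
      obtain ⟨r, hr⟩ := h7
      exact c₅ ⟨W', by omega, h8, h9⟩
  have hns : ∀ v : ι → F, (2 : F) = 0 → Q v ≠ 0 → H ≤ subspaceStabilizer (Submodule.span F {v}) → False := by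
    intro v h2 hv hle
    refine c₆ ⟨?_, v, hv, stab_line_eq hQ hι hH hv hle⟩
    intro hodd
    exact two_ne_zero_of_odd hodd h2
  have hirr : ∀ W : Submodule F (ι → F), (∀ g ∈ H, ∀ v ∈ W, (g : Matrix ι ι F) *ᵥ v ∈ W) → W = ⊥ ∨ W = ⊤ := by
    intro W hinv
    by_contra hc
    push Not at hc
    rcases reducible_quad hQ hHI hinv with ⟨W', h0, h1, h3⟩ | h | ⟨h2, v, hv, hle⟩
    · exact hts W' h0 h1 h3
    · exact hnd W hc.1 hc.2 h (fun g hg => (mem_subspaceStabilizer_iff_forall_mem W g).2 (hinv g hg))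
    · exact hns v h2 hv hle
  have hdec : ∀ (t k : ℕ) (D : Fin t → Submodule F (ι → F)), IsOrthogonalMDecomposition Q k D → H ≤ decompositionStabilizer D → False := by
    intro t k D hD hle
    have hc := card_eq_of_decomp hD.decomp.decomp
    have ht2 := hD.decomp.decomp.two_le
    have heq := eq_inf_of_le hH hle (omega_not_le_dec' hQ hι hD.decomp.decomp)
    have htk : (t = 2 ∧ k = 5) ∨ (t = 5 ∧ k = 2) ∨ (t = 10 ∧ k = 1) := by
      rw [hn] at hc
      have htd : t ∣ 10 := ⟨k, hc⟩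
      have h9 : t ≤ 10 := Nat.le_of_dvd (by norm_num) htd
      interval_cases t <;> first
        | omega
        | exact absurd htd (by decide)
    rcases htk with ⟨rfl, rfl⟩ | ⟨rfl, rfl⟩ | ⟨rfl, rfl⟩
    · obtain ⟨h2, h3, -⟩ := hfive (D 0) (hD.decomp.decomp.finrank_eq 0) (hD.decomp.nondegenerate 0)
      rw [orth_eq_of_two hQ hD.decomp] at h3
      exact c₉ ⟨h3 (hD.isometric 0 1), D, hD, heq⟩
    · by_cases hq3 : Fintype.card F = 3
      · obtain ⟨K, hK1, hK2⟩ := Cfsg.Agent.Lib.NotMax.OmegaFrame.q3_not_maximal hq3 hQ hι (Or.inl rfl) hD (by norm_num)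
        rw [← heq] at hK1
        rcases hH.2 K hK1.le hK2.le with h | h
        · exact hK1.ne h.symm
        · exact hK2.ne h
      · exact c₈ ⟨hq3, D, hD, heq⟩
    · obtain ⟨W, hW, hd, hiso⟩ := iso_of_dec hQ hD (s := 5) rfl
      obtain ⟨h2, h3, -⟩ := hfive W (by omega) hW
      have hq3 := h3 hiso
      by_cases hp : (Fintype.card F).Prime
      · exact c₇ ⟨⟨_, hp, rfl, hq3⟩, D, hD, heq⟩
      · obtain ⟨F₁, s, hs, hcard⟩ := exists_max_of_not_prime hp
        obtain ⟨E, ζ, hζ, hrat, hleE⟩ := frame_subfield hQ h2 hD hHI hle F₁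
        exact c₁₃ ⟨F₁, s, E, ζ, hs, odd_of_three_mod hQ hs hcard hq3, hcard, hζ, hrat,
          eq_inf_of_le hH hleE (omega_not_le_subfield' hQ hι (subfield_ne_top hs hcard) E)⟩
  have hpair : ∀ (k : ℕ) (D : Fin 2 → Submodule F (ι → F)), IsMDecomposition k D → (∀ i, IsTotallySingularQuad Q (D i)) →
      H ≤ decompositionStabilizer D → False := by
    intro k D hD hts' hle
    have hc := card_eq_of_decomp hD
    exact hminus ⟨D 0, le_top, hts' 0, by rw [hD.finrank_eq, finrank_top, finrank_fintype_fun_eq_card, hc]⟩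
  have hK₂ : ∀ K : Subalgebra F (Matrix ι ι F), IsFieldSubalgebra 2 K → IsAdjointClosedFor (pol Q) K →
      ¬ IsSelfAdjointFor (pol Q) K → H ≤ subalgebraNormalizer K → False := by
    intro K hK hadj hns' hle
    exact c₁₂ ⟨K, hK, hadj, hns', sim_of_unitary hQ hHI hirr (by omega) hK hadj hns' hle,
      eq_inf_of_le hH hle (omega_not_le_field' hQ hι (by norm_num) hK)⟩
  refine c₁₄ (main_of_noclassE hQ (by omega) hHI ⟨hts, hnd, hns, hdec, hpair, ?_, ?_, ?_, ?_, ?_⟩)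
  · -- fields
    intro r K hr hK hadj hle
    have hd := field_dvd hK
    rw [hn] at hd
    have hr25 : r = 2 ∨ r = 5 := by
      have h3 : r ∣ 2 * 5 := hd
      rcases (Nat.Prime.dvd_mul hr).1 h3 with h4 | h4
      · exact Or.inl ((Nat.prime_dvd_prime_iff_eq hr Nat.prime_two).1 h4)
      · exact Or.inr ((Nat.prime_dvd_prime_iff_eq hr (by norm_num)).1 h4)
    rcases hr25 with rfl | rfl
    · by_cases hsa : IsSelfAdjointFor (pol Q) K
      · by_cases h2 : (2 : F) = 0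
        · exact no_selfadj_two hQ h2 hK hsa (m := 5) (by omega) (by decide)
        · exact c₁₁ ⟨Nat.odd_iff.2 (hoddq h2), K, hK, hsa, eq_inf_of_le hH hle (omega_not_le_field' hQ hι (by norm_num) hK)⟩
      · exact hK₂ K hK hadj hsa hle
    · rcases binary_of_K hQ (by norm_num) (by decide) hK hadj (by omega) hHI hle with ⟨D, hD, hts', hle'⟩ | ⟨K₂, hK₂', hadj₂, hns₂, hle₂⟩
      · exact hpair _ D hD hts' hle'
      · exact hK₂ K₂ hK₂' hadj₂ hns₂ hle₂
  · -- tensor products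
    intro a b e P f₁ f₂ ε₁ ε₂ ha hb hf₁ hf₂ hεε hlaw hmem
    have hcard : Fintype.card ι = a * b := by
      rw [Fintype.card_congr e]
      simp
    have hact : ∀ h ∈ H, ∃ (α : GL (Fin a) F) (β : GL (Fin b) F), ∀ x y, (h : Matrix ι ι F) *ᵥ TT e P x y =
        TT e P ((α : Matrix (Fin a) (Fin a) F) *ᵥ x) ((β : Matrix (Fin b) (Fin b) F) *ᵥ y) := by
      intro h hh
      obtain ⟨α, β, hαβ⟩ := hmem h hh
      exact ⟨α, β, TT_of_kr e P h _ _ hαβ⟩
    have hlawS : ∀ (y y' : Fin b → F) (x x' : Fin a → F), pol Q (TT (e.trans (Equiv.prodComm _ _)) P y x) (TT (e.trans (Equiv.prodComm _ _)) P y' x') = f₂ y y' * f₁ x x' := by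
      intro y y' x x'
      rw [TT_swap, TT_swap, hlaw, mul_comm]
    have hactS : ∀ h ∈ H, ∃ (β : GL (Fin b) F) (α : GL (Fin a) F), ∀ y x, (h : Matrix ι ι F) *ᵥ TT (e.trans (Equiv.prodComm _ _)) P y x =
        TT (e.trans (Equiv.prodComm _ _)) P ((β : Matrix (Fin b) (Fin b) F) *ᵥ y) ((α : Matrix (Fin a) (Fin a) F) *ᵥ x) := by
      intro h hh
      obtain ⟨α, β, hαβ⟩ := hact h hh
      exact ⟨β, α, fun y x => by rw [TT_swap, TT_swap, hαβ]⟩
    have hab : (a = 2 ∧ b = 5) ∨ (a = 5 ∧ b = 2) := by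
      rw [hn] at hcard
      have had : a ∣ 10 := ⟨b, hcard⟩
      have h9 : a ≤ 10 := Nat.le_of_dvd (by norm_num) had
      interval_cases a <;> first
        | omega
        | exact absurd had (by decide)
    have hplusK : ∀ {b' : ℕ} (_ : b' = 5) (e' : ι ≃ Fin 2 × Fin b') {g₁ : (Fin 2 → F) → (Fin 2 → F) → F} {g₂ : (Fin b' → F) → (Fin b' → F) → F}
        {δ₁ δ₂ : F}, HF (RingEquiv.refl F) δ₁ g₁ → HF (RingEquiv.refl F) δ₂ g₂ → δ₁ * δ₂ = 1 →
        (∀ x x' y y', pol Q (TT e' P x y) (TT e' P x' y') = g₁ x x' * g₂ y y') →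
        (∀ h ∈ H, ∃ (α : GL (Fin 2) F) (β : GL (Fin b') F), ∀ x y, (h : Matrix ι ι F) *ᵥ TT e' P x y =
          TT e' P ((α : Matrix (Fin 2) (Fin 2) F) *ᵥ x) ((β : Matrix (Fin b') (Fin b') F) *ᵥ y)) → False := by
      intro b' hb' e' g₁ g₂ δ₁ δ₂ hg₁ hg₂ hδδ hlaw' hact'
      subst hb'
      rcases ten_two_odd hQ (by decide) hHI hirr (by norm_num) e' P hg₁ hg₂ hδδ hlaw' hact' with ⟨x₀, hx₀, hz⟩ | ⟨K, hK, hadj, hns', -, hle⟩
      · exact hminus (plus_of_pure_line hQ e' P (by omega) hx₀ hz)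
      · exact hK₂ K hK hadj hns' hle
    rcases hab with ⟨rfl, rfl⟩ | ⟨rfl, rfl⟩
    · exact hplusK rfl e hf₁ hf₂ hεε hlaw hact
    · exact hplusK rfl (e.trans (Equiv.prodComm _ _)) hf₂ hf₁ (by rw [mul_comm]; exact hεε) hlawS hactS
  · -- tensor powers
    intro a k e₂ P₂ A ε₁ c ha hk hA hc hlaw' _ hle
    have hcard : Fintype.card ι = a ^ k := by
      rw [Fintype.card_congr e₂]
      simp
    rw [hn] at hcard
    exfalso
    have ha3 : a ≤ 3 := by
      by_contra ha4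
      have h3 : 4 ^ 2 ≤ a ^ k := (Nat.pow_le_pow_left (by omega : 4 ≤ a) 2).trans (Nat.pow_le_pow_right (by omega) hk)
      omega
    have hk3 : k ≤ 3 := by
      by_contra hk4
      have h3 : 2 ^ 4 ≤ a ^ k := (Nat.pow_le_pow_right (by norm_num) (by omega : 4 ≤ k)).trans (Nat.pow_le_pow_left ha k)
      omega
    interval_cases a <;> interval_cases k <;> omega
  · -- subfields
    intro F₁ s P ζ hs hc hζ hrat hle
    by_cases hs2 : s = 2
    · subst hs2
      exact hminus (plus_of_subfield2 hQ F₁ hc (m := 5) (by omega) (by omega) P hζ hrat)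
    · exact c₁₃ ⟨F₁, s, P, ζ, hs, hs.odd_of_ne_two hs2, hc, hζ, hrat,
        eq_inf_of_le hH hle (omega_not_le_subfield' hQ hι (subfield_ne_top hs hc) P)⟩
  · -- symplectic type
    intro R h2 hRH _ hA hSC hx2
    exact false_of_odd_dvd (p := 5) (by norm_num) (by norm_num) (by rw [hn]; norm_num) hA hSC hx2

end Cfsg.Agent.Lib.CmaxE.Minus10
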