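import Mathlib
import Cfsg.Agent.Lib.CmaxE.Ten10

/-!
# Parity of maximal totally singular subspaces, and parts of decompositions in spaces of plus type
-/

set_option autoImplicit false

namespace Cfsg.Agent.Lib.CmaxE.Par

open Matrix Module Cfsg Cfsg.Geo
open Cfsg.Agent.Lib.Geo.Basic Cfsg.Agent.Lib.Geo.Polar Cfsg.Agent.Lib.Geo.QForm
open Cfsg.Agent.Lib.GeoOmega.Basic Cfsg.Agent.Lib.AschF.OmegaP Cfsg.Agent.Lib.QuadFn
open Cfsg.Agent.Lib.GeoOmega.Nondeg Cfsg.Agent.Lib.GeoOmega.NondegW Cfsg.Agent.Lib.GeoOmega.Singular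
open Cfsg.Agent.Lib.NotMax.Tensor (TT pureT TT_add_left TT_add_right TT_smul_left TT_smul_right TT_ne_zero span_TT)
open Cfsg.Agent.Lib.AschF.Adj (HF)
open Cfsg.Agent.Lib.AschF.OddA (polar_isom Q_isom card_eq_of_decomp hf_polar)
open Cfsg.Agent.Lib.AschF.OddC (symmetric_of_HF)
open Cfsg.Agent.Lib.CmaxE.Core Cfsg.Agent.Lib.CmaxE.Proper Cfsg.Agent.Lib.CmaxE.Plus Cfsg.Agent.Lib.CmaxE.Common
open Cfsg.Agent.Lib.CmaxE.Five

universe u

variable {ι : Type} [Fintype ι] [DecidableEq ι] {F : Type u} [Field F] [Fintype F] {Q : (ι → F) → F}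

variable (hQ : IsNondegenerateQuadraticForm Q)
include hQ

/-- Stabilisers in `Ω` of totally singular subspaces of codimension one in a maximal one fix a maximal one. -/
theorem ts_up (hplus : IsPlusTypeOn Q ⊤) {W : Submodule F (ι → F)} (hW : IsTotallySingularQuad Q W)
    (hdim : 2 * (finrank F W + 1) = Fintype.card ι) {H : Subgroup (GL ι F)} (hHO : H ≤ omegaGL Q) (hle : H ≤ subspaceStabilizer W) :
    ∃ W₁ : Submodule F (ι → F), W₁ ≠ ⊥ ∧ IsTotallySingularQuad Q W₁ ∧ finrank F W₁ = finrank F W + 1 ∧ H ≤ subspaceStabilizer W₁ := by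
  obtain ⟨M, -, hM, hMd⟩ := hplus
  have hS := qspace hQ
  set m := finrank F W + 1 with hm
  have hdimV : finrank F (ι → F) = 2 * m := by rw [finrank_total, hdim]
  have hMm : finrank F M = m := by
    have h1 : finrank F (⊤ : Submodule F (ι → F)) = 2 * m := by
      rw [finrank_top, hdimV]
    omega
  obtain ⟨W₁, W₂, hT1, hD1, hWW1, hT2, hD2, hWW2, hne, hall⟩ := hS.two_max hdimV hM hMm hW rfl
  refine ⟨W₁, ?_, hT1, hD1, ?_⟩
  · intro h0
    rw [h0, finrank_bot] at hD1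
    omega
  intro g hg
  have hgW := hle hg
  have hgO := hHO hg
  have hgI := omegaGL_le_isometryGroup Q hgO
  have hTg := ts_map g hgI hT1
  have hdg : finrank F (W₁.map (Matrix.toLin' (g : Matrix ι ι F))) = m := by
    rw [finrank_map_toLin', hD1]
  have hWg : W ≤ W₁.map (Matrix.toLin' (g : Matrix ι ι F)) := by
    have h1 := (mem_subspaceStabilizer_iff_map_eq W g).mp hgW
    rw [← h1]
    exact Submodule.map_mono hWW1
  rcases hall _ hTg hdg hWg with h | h
  · exact (mem_subspaceStabilizer_iff_map_eq W₁ g).mpr h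
  · exfalso
    have hev := even_of_mem_omegaGL hQ hT1 (by rw [hD1]; omega) hgO
    rw [h, hD1] at hev
    have h2 : finrank F W ≤ finrank F (W₁ ⊓ W₂ : Submodule F (ι → F)) :=
      Submodule.finrank_mono (le_inf hWW1 hWW2)
    have h3 : finrank F (W₁ ⊓ W₂ : Submodule F (ι → F)) ≠ m := by
      intro h4
      apply hne
      have h5 : W₁ ⊓ W₂ = W₁ := Submodule.eq_of_le_of_finrank_le inf_le_left (by omega)
      have h6 : W₁ ⊓ W₂ = W₂ := Submodule.eq_of_le_of_finrank_le inf_le_right (by omega)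
      rw [← h5, h6]
    have h4 : finrank F (W₁ ⊓ W₂ : Submodule F (ι → F)) ≤ m := by
      rw [← hD1]
      exact Submodule.finrank_mono inf_le_left
    have h5 : m - finrank F (W₁ ⊓ W₂ : Submodule F (ι → F)) = 1 := by omega
    rw [h5] at hev
    exact absurd hev (by decide)

/-- Pairs of complementary totally singular subspaces of odd dimension are not interchanged by `Ω`. -/
theorem pair_stab {k : ℕ} (hk : Odd k) {D : Fin 2 → Submodule F (ι → F)} (hD : IsMDecomposition k D)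
    (hts : ∀ i, IsTotallySingularQuad Q (D i)) {H : Subgroup (GL ι F)} (hHO : H ≤ omegaGL Q) (hle : H ≤ decompositionStabilizer D) :
    H ≤ subspaceStabilizer (D 0) := by
  have hc := card_eq_of_decomp hD
  intro g hg
  obtain ⟨π, hπ⟩ := hle hg
  have h0 := hπ 0
  by_cases hπ0 : π 0 = 0
  · rw [hπ0] at h0
    exact (mem_subspaceStabilizer_iff_map_eq _ g).mpr h0
  · exfalso
    have hπ1 : π 0 = 1 := by
      have : ∀ x : Fin 2, x ≠ 0 → x = 1 := by decide
      exact this _ hπ0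
    rw [hπ1] at h0
    have hev := even_of_mem_omegaGL hQ (hts 0) (by rw [hD.finrank_eq]; omega) (hHO hg)
    have hdis : D 0 ⊓ D 1 = ⊥ := (hD.indep.pairwiseDisjoint (by decide : (0 : Fin 2) ≠ 1)).eq_bot
    rw [h0, hdis, finrank_bot, hD.finrank_eq, Nat.sub_zero] at hev
    exact (Nat.not_even_iff_odd.2 hk) hev

/-- A non-degenerate summand. -/
theorem nd_of_sup {X Y : Submodule F (ι → F)} (hsup : X ⊔ Y = ⊤) (hor : ∀ a ∈ X, ∀ b ∈ Y, pol Q a b = 0) :
    IsNondegenerateOn (QuadraticMap.polar Q) X := by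
  intro v hv hv0
  obtain ⟨w, hw⟩ := (hQ.nondegenerate v hv0).2
  have hw' : w ∈ X ⊔ Y := by
    rw [hsup]
    trivial
  obtain ⟨w₁, hw₁, w₂, hw₂, rfl⟩ := Submodule.mem_sup.1 hw'
  have h3 : pol Q v w₁ ≠ 0 := by
    intro h0
    apply hw
    change pol Q v (w₁ + w₂) = 0
    rw [pol_add_right hQ, h0, hor v hv w₂ hw₂, add_zero]
  exact ⟨⟨w₁, hw₁, by rw [pol_symm hQ] at h3; exact h3⟩, ⟨w₁, hw₁, h3⟩⟩

/-- Parts of decompositions into an odd number of isometric parts of even dimension in a space of plus type. -/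
theorem parts_plus {t k s : ℕ} {D : Fin t → Submodule F (ι → F)} (hD : IsOrthogonalMDecomposition Q k D) (ht : t = 2 * s + 1)
    (hs : 1 ≤ s) (hk : Even k) (hplus : IsPlusTypeOn Q ⊤) : ∀ i, IsPlusTypeOn Q (D i) := by
  classical
  obtain ⟨g, hgI, hg⟩ := exists_perm_isometry hQ hD (Fin.revPerm (n := t))
  have hN := hD.decomp
  have hcard := card_eq_of_decomp hN.decomp
  let c : Fin t := ⟨s, by omega⟩
  let W : (Fin t → Prop) → Submodule F (ι → F) := fun P => ⨆ i : Fin t, ⨆ (_ : P i), D i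
  have hle : ∀ (P : Fin t → Prop) (i : Fin t), P i → D i ≤ W P := fun P i hi =>
    le_iSup₂_of_le (f := fun (i : Fin t) (_ : P i) => D i) i hi le_rfl
  have hWor : ∀ (P R : Fin t → Prop), (∀ i j, P i → R j → i ≠ j) → ∀ a ∈ W P, ∀ b ∈ W R, pol Q a b = 0 := by
    intro P R hPR
    have h1 : W P ≤ (polB hQ).orthogonal (W R) := by
      refine iSup₂_le fun i hi => ?_
      intro x hx
      rw [mem_orth_iff hQ]
      intro u hu
      have h2 : W R ≤ (polB hQ).orthogonal (D i) := by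
        refine iSup₂_le fun j hj => ?_
        intro y hy
        rw [mem_orth_iff hQ]
        intro u' hu'
        exact hN.orthogonal j i (fun h => hPR i j hi hj h.symm) y hy u' hu'
      rw [pol_symm hQ]
      exact (mem_orth_iff hQ).1 (h2 hu) x hx
    intro a ha b hb
    exact (mem_orth_iff hQ).1 (h1 ha) b hb
  have hWsup : ∀ (P R : Fin t → Prop), (∀ i, P i ∨ R i) → W P ⊔ W R = ⊤ := by
    intro P R hPR
    rw [eq_top_iff, ← hN.decomp.iSup_eq_top]
    refine iSup_le fun i => ?_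
    rcases hPR i with h | h
    · exact le_trans (hle P i h) le_sup_left
    · exact le_trans (hle R i h) le_sup_right
  let W₁ := W (fun i => i.val < s)
  let W₂ := W (fun i => s < i.val)
  have hor12 : ∀ a ∈ W₁, ∀ b ∈ W₂, pol Q a b = 0 := hWor _ _ (fun i j hi hj h => by rw [h] at hi; omega)
  have hnd₁ : IsNondegenerateOn (QuadraticMap.polar Q) W₁ :=
    nd_of_sup hQ (Y := W (fun i => s ≤ i.val)) (hWsup _ _ (fun i => by
      by_cases h : i.val < s
      · exact Or.inl h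
      · exact Or.inr (by omega))) (hWor _ _ (fun i j hi hj h => by rw [h] at hi; omega))
  have hA : W₁ ⊔ W₂ ⊔ D c = ⊤ := by
    rw [eq_top_iff, ← hN.decomp.iSup_eq_top]
    refine iSup_le fun i => ?_
    rcases Nat.lt_trichotomy i.val s with h | h | h
    · exact le_trans (hle _ i h) (le_trans le_sup_left le_sup_left)
    · have : i = c := Fin.ext h
      rw [this]
      exact le_sup_right
    · exact le_trans (hle _ i h) (le_trans le_sup_right le_sup_left)
  have horAc : ∀ a ∈ W₁ ⊔ W₂, ∀ b ∈ D c, pol Q a b = 0 := by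
    intro a ha b hb
    obtain ⟨a₁, ha₁, a₂, ha₂, rfl⟩ := Submodule.mem_sup.1 ha
    rw [pol_add_left hQ, hWor (fun i => i.val < s) (fun i => i = c) (fun i j hi hj h => by
        rw [h, hj] at hi
        simp [c] at hi) a₁ ha₁ b (hle (fun i => i = c) c rfl hb),
      hWor (fun i => s < i.val) (fun i => i = c) (fun i j hi hj h => by
        rw [h, hj] at hi
        simp [c] at hi) a₂ ha₂ b (hle (fun i => i = c) c rfl hb), add_zero]
  have hndA : IsNondegenerateOn (QuadraticMap.polar Q) (W₁ ⊔ W₂) := nd_of_sup hQ hA horAc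
  have hmap1 : W₁.map (Matrix.toLin' (g : Matrix ι ι F)) ≤ W₂ := by
    rw [Submodule.map_le_iff_le_comap]
    refine iSup₂_le fun i hi x hx => ?_
    rw [Submodule.mem_comap, Matrix.toLin'_apply]
    refine hle _ _ ?_ (hg i x hx)
    simp only [Fin.revPerm_apply, Fin.val_rev]
    omega
  have hmap2 : W₂.map (Matrix.toLin' (g : Matrix ι ι F)) ≤ W₁ := by
    rw [Submodule.map_le_iff_le_comap]
    refine iSup₂_le fun i hi x hx => ?_
    rw [Submodule.mem_comap, Matrix.toLin'_apply]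
    refine hle _ _ ?_ (hg i x hx)
    simp only [Fin.revPerm_apply, Fin.val_rev]
    omega
  have hinf : W₁ ⊓ W₂ = ⊥ := by
    rw [eq_bot_iff]
    rintro x ⟨hx, hx2⟩
    by_contra hx0
    obtain ⟨y, hy, hne⟩ := (hnd₁ x hx hx0).1
    exact hne (hor12 y hy x hx2)
  have hinfA : (W₁ ⊔ W₂) ⊓ D c = ⊥ := by
    rw [eq_bot_iff]
    rintro x ⟨hx, hx2⟩
    by_contra hx0
    obtain ⟨y, hy, hne⟩ := (hndA x hx hx0).1
    exact hne (horAc y hy x hx2)
  have hf1 := Submodule.finrank_mono hmap1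
  have hf2 := Submodule.finrank_mono hmap2
  rw [finrank_map_toLin'] at hf1 hf2
  have hf3 := Submodule.finrank_sup_add_finrank_inf_eq W₁ W₂
  rw [hinf, finrank_bot] at hf3
  have hf4 := Submodule.finrank_sup_add_finrank_inf_eq (W₁ ⊔ W₂) (D c)
  rw [hA, hinfA, finrank_bot, finrank_top, finrank_total, hN.decomp.finrank_eq c] at hf4
  have hd₁ : finrank F W₁ = s * k := by
    subst ht
    nlinarith
  have hev : Even (finrank F W₁) := by
    rw [hd₁]
    exact hk.mul_left s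
  obtain ⟨J, hJ⟩ := exists_anti hQ hnd₁ hev
  have hJmem : ∀ a : W₁, (g : Matrix ι ι F) *ᵥ (J a : ι → F) ∈ W₂ := fun a => hmap1 ⟨_, (J a).2, rfl⟩
  let L : W₁ →ₗ[F] (ι → F) :=
    { toFun := fun a => (a : ι → F) + (g : Matrix ι ι F) *ᵥ (J a : ι → F)
      map_add' := fun a b => by
        simp only [map_add, Submodule.coe_add, Matrix.mulVec_add]
        abel
      map_smul' := fun r a => by
        simp only [map_smul, Submodule.coe_smul, Matrix.mulVec_smul, RingHom.id_apply, smul_add] }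
  have hLa : ∀ a, L a = (a : ι → F) + (g : Matrix ι ι F) *ᵥ (J a : ι → F) := fun _ => rfl
  have hLinj : Function.Injective L := by
    rw [← LinearMap.ker_eq_bot, LinearMap.ker_eq_bot']
    intro a ha
    rw [hLa] at ha
    have h3 : (a : ι → F) ∈ W₁ ⊓ W₂ := by
      refine ⟨a.2, ?_⟩
      have h4 : (a : ι → F) = - ((g : Matrix ι ι F) *ᵥ (J a : ι → F)) := eq_neg_of_add_eq_zero_left ha
      rw [h4]
      exact W₂.neg_mem (hJmem a)
    rw [hinf] at h3
    exact Subtype.ext ((Submodule.mem_bot F).1 h3)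
  have hAp : IsPlusTypeOn Q (W₁ ⊔ W₂) := by
    refine ⟨LinearMap.range L, ?_, ?_, ?_⟩
    · rintro _ ⟨a, rfl⟩
      rw [hLa]
      exact Submodule.add_mem_sup a.2 (hJmem a)
    · rintro _ ⟨a, rfl⟩
      rw [hLa, Q_add hQ, Q_isom hgI, hJ, hor12 _ a.2 _ (hJmem a)]
      ring
    · rw [LinearMap.finrank_range_of_inj hLinj]
      omega
  have hcan := plus_cancel hQ hplus hndA hAp
  have hor_eq : (polB hQ).orthogonal (W₁ ⊔ W₂) = D c := by
    symm
    apply Submodule.eq_of_le_of_finrank_eq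
    · intro x hx
      rw [mem_orth_iff hQ]
      intro u hu
      rw [pol_symm hQ]
      exact horAc u hu x hx
    · have h5 := finrank_orth' hQ (W₁ ⊔ W₂)
      rw [hN.decomp.finrank_eq c]
      omega
  rw [hor_eq] at hcan
  intro i
  exact Cfsg.Agent.Lib.Geo.Om2.plus_iso (hD.isometric c i) hcan

/-- A binary isotropic factor gives two totally singular subspaces permuted by the group. -/
theorem pair_of_pure (h2 : (2 : F) ≠ 0) {b : ℕ} (hb : 1 ≤ b) {H : Subgroup (GL ι F)} (hHI : H ≤ isometryGroup F Q)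
    (e : ι ≃ Fin 2 × Fin b) (P : GL ι F) {f₁ : (Fin 2 → F) → (Fin 2 → F) → F} {f₂ : (Fin b → F) → (Fin b → F) → F} {ε₂ : F}
    (hf₁ : HF (RingEquiv.refl F) 1 f₁) (hf₂ : HF (RingEquiv.refl F) ε₂ f₂)
    (hlaw : ∀ x x' y y', pol Q (TT e P x y) (TT e P x' y') = f₁ x x' * f₂ y y')
    (hact : ∀ h ∈ H, ∃ (α : GL (Fin 2) F) (β : GL (Fin b) F), ∀ x y, (h : Matrix ι ι F) *ᵥ TT e P x y =
      TT e P ((α : Matrix (Fin 2) (Fin 2) F) *ᵥ x) ((β : Matrix (Fin b) (Fin b) F) *ᵥ y))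
    {x₀ : Fin 2 → F} (hx₀ : x₀ ≠ 0) (hz : f₁ x₀ x₀ = 0) :
    ∃ D : Fin 2 → Submodule F (ι → F), IsMDecomposition b D ∧ (∀ i, IsTotallySingularQuad Q (D i)) ∧ H ≤ decompositionStabilizer D := by
  classical
  have hs := hf₁.sesq
  have hsym := symmetric_of_HF hf₁
  obtain ⟨-, z, hzne⟩ := hf₁.nd x₀ hx₀
  set c := f₁ x₀ z with hc
  have hz₀ : f₁ z x₀ = c := hsym.symm z x₀
  -- the second isotropic vector
  obtain ⟨x₁, hx₁⟩ : ∃ x₁, x₁ = z + (-(f₁ z z / (2 * c))) • x₀ := ⟨_, rfl⟩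
  have h01 : f₁ x₀ x₁ = c := by
    rw [hx₁, hs.add_right, hs.smul_right, hz]
    simp only [RingEquiv.refl_apply, mul_zero, add_zero, hc]
  have h11 : f₁ x₁ x₁ = 0 := by
    rw [hx₁, hs.add_right, hs.smul_right, hs.add_left, hs.add_left, hs.smul_left, hs.smul_left, hz, hz₀]
    simp only [RingEquiv.refl_apply, ← hc]
    field_simp
    ring
  have h10 : f₁ x₁ x₀ = c := by
    rw [hsym.symm, h01]
  have hLI : LinearIndependent F ![x₀, x₁] := by
    rw [LinearIndependent.pair_iff]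
    intro s t hst
    have h3 := congrArg (f₁ x₀) hst
    rw [hs.add_right, hs.smul_right, hs.smul_right, hz, h01] at h3
    have h4 : f₁ x₀ 0 = 0 := by
      have := hs.smul_right 0 x₀ 0
      simpa using this
    rw [h4] at h3
    simp only [RingEquiv.refl_apply, mul_zero, zero_add] at h3
    have ht0 : t = 0 := (mul_eq_zero.1 h3).resolve_right hzne
    subst ht0
    rw [zero_smul, add_zero] at hst
    exact ⟨(smul_eq_zero.1 hst).resolve_right hx₀, rfl⟩
  have hspan : Submodule.span F (Set.range ![x₀, x₁]) = ⊤ := by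
    apply Submodule.eq_top_of_finrank_eq
    rw [finrank_span_eq_card hLI]
    simp
  have hel : ∀ w : Fin 2 → F, ∃ α β : F, w = α • x₀ + β • x₁ := by
    intro w
    have hw : w ∈ Submodule.span F (Set.range ![x₀, x₁]) := by
      rw [hspan]
      trivial
    have h1 : Set.range ![x₀, x₁] = {x₀, x₁} := by
      simp [Matrix.range_cons, Matrix.range_empty, Set.pair_comm]
    rw [h1] at hw
    obtain ⟨a, b, hab⟩ := Submodule.mem_span_pair.1 hw
    exact ⟨a, b, hab.symm⟩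
  have hx₁0 : x₁ ≠ 0 := by
    rintro rfl
    apply hzne
    rw [← h01]
    have := hs.smul_right 0 x₀ 0
    simpa using this
  have hcl : ∀ w : Fin 2 → F, f₁ w w = 0 → (∃ a : F, w = a • x₀) ∨ (∃ a : F, w = a • x₁) := by
    intro w hw
    obtain ⟨a, b, rfl⟩ := hel w
    rw [hs.add_right, hs.smul_right, hs.smul_right, hs.add_left, hs.add_left, hs.smul_left, hs.smul_left, hs.smul_left, hs.smul_left,
      hz, h01, h10, h11] at hw
    simp only [RingEquiv.refl_apply] at hw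
    have h3 : (a * b) * (2 * c) = 0 := by linear_combination hw
    rcases mul_eq_zero.1 ((mul_eq_zero.1 h3).resolve_right (mul_ne_zero h2 hzne)) with h4 | h4
    · subst h4
      exact Or.inr ⟨b, by simp⟩
    · subst h4
      exact Or.inl ⟨a, by simp⟩
  -- the two subspaces
  let L : (Fin 2 → F) → (Fin b → F) →ₗ[F] (ι → F) := fun x =>
    { toFun := fun y => TT e P x y
      map_add' := fun y y' => TT_add_right e P x y y'
      map_smul' := fun c y => TT_smul_right e P c x y }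
  have hLa : ∀ x y, L x y = TT e P x y := fun _ _ => rfl
  have hinj : ∀ x, x ≠ 0 → Function.Injective (L x) := by
    intro x hx
    rw [← LinearMap.ker_eq_bot, LinearMap.ker_eq_bot']
    intro y hy
    by_contra hy0
    exact TT_ne_zero e P hx hy0 hy
  have hfin : ∀ x, x ≠ 0 → finrank F (LinearMap.range (L x)) = b := by
    intro x hx
    rw [LinearMap.finrank_range_of_inj (hinj x hx)]
    simp
  have hcard : Fintype.card ι = 2 * b := by
    rw [Fintype.card_congr e]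
    simp
  have hts : ∀ x, f₁ x x = 0 → IsTotallySingularQuad Q (LinearMap.range (L x)) := by
    rintro x hx _ ⟨y, rfl⟩
    apply mul_left_cancel₀ h2
    rw [← pol_self hQ, hLa, hlaw, hx]
    ring
  have hinf : LinearMap.range (L x₀) ⊓ LinearMap.range (L x₁) = ⊥ := by
    rw [eq_bot_iff]
    rintro _ ⟨⟨y, rfl⟩, ⟨y', hy'⟩⟩
    rw [hLa] at hy'
    by_contra h0
    have hy0 : y ≠ 0 := by
      rintro rfl
      apply h0
      rw [map_zero]
      exact Submodule.zero_mem _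
    obtain ⟨-, y₁, hy₁⟩ := hf₂.nd y hy0
    have h3 := hlaw x₀ x₁ y y₁
    rw [← hLa x₀ y] at h3
    have h4 := hlaw x₁ x₁ y' y₁
    rw [h11, zero_mul, hy'] at h4
    rw [h4, h01] at h3
    exact mul_ne_zero hzne hy₁ h3.symm
  have hsup : LinearMap.range (L x₀) ⊔ LinearMap.range (L x₁) = ⊤ := by
    apply Submodule.eq_top_of_finrank_eq
    have h3 := Submodule.finrank_sup_add_finrank_inf_eq (LinearMap.range (L x₀)) (LinearMap.range (L x₁))
    rw [hinf, finrank_bot, hfin x₀ hx₀, hfin x₁ hx₁0] at h3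
    rw [finrank_total, hcard]
    omega
  have hm := Cfsg.Agent.Lib.CmaxE.BinK.mdec_pair (by omega : 0 < b) (hfin x₀ hx₀) (hfin x₁ hx₁0) hinf hsup
  refine ⟨_, hm, ?_, ?_⟩
  · intro i
    fin_cases i
    · exact hts x₀ hz
    · exact hts x₁ h11
  · intro h hh
    obtain ⟨α, β, hαβ⟩ := hact h hh
    -- `α` preserves isotropy
    obtain ⟨y₀, hy₀⟩ : ∃ y₀ : Fin b → F, y₀ ≠ 0 := by
      refine ⟨Pi.single ⟨0, hb⟩ 1, fun h0 => ?_⟩
      have := congrFun h0 ⟨0, hb⟩
      simp at this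
    have hβinv : ∀ y, (β : Matrix (Fin b) (Fin b) F) *ᵥ (((β⁻¹ : GL (Fin b) F) : Matrix (Fin b) (Fin b) F) *ᵥ y) = y := by
      intro y
      rw [Matrix.mulVec_mulVec, ← Matrix.GeneralLinearGroup.coe_mul, mul_inv_cancel, Matrix.GeneralLinearGroup.coe_one, Matrix.one_mulVec]
    have hαinv : ∀ y, ((α⁻¹ : GL (Fin 2) F) : Matrix (Fin 2) (Fin 2) F) *ᵥ ((α : Matrix (Fin 2) (Fin 2) F) *ᵥ y) = y := by
      intro y
      rw [Matrix.mulVec_mulVec, ← Matrix.GeneralLinearGroup.coe_mul, inv_mul_cancel, Matrix.GeneralLinearGroup.coe_one, Matrix.one_mulVec]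
    have hαne : ∀ x : Fin 2 → F, x ≠ 0 → (α : Matrix (Fin 2) (Fin 2) F) *ᵥ x ≠ 0 := by
      intro x hx h0
      apply hx
      rw [← hαinv x, h0, Matrix.mulVec_zero]
    have hβy₀ : (β : Matrix (Fin b) (Fin b) F) *ᵥ y₀ ≠ 0 := by
      intro h0
      apply hy₀
      have h3 : ((β⁻¹ : GL (Fin b) F) : Matrix (Fin b) (Fin b) F) *ᵥ ((β : Matrix (Fin b) (Fin b) F) *ᵥ y₀) = y₀ := by
        rw [Matrix.mulVec_mulVec, ← Matrix.GeneralLinearGroup.coe_mul, inv_mul_cancel, Matrix.GeneralLinearGroup.coe_one, Matrix.one_mulVec]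
      rw [← h3, h0, Matrix.mulVec_zero]
    obtain ⟨-, y'', hy''⟩ := hf₂.nd _ hβy₀
    have hiso : ∀ x, f₁ x x = 0 → f₁ ((α : Matrix (Fin 2) (Fin 2) F) *ᵥ x) ((α : Matrix (Fin 2) (Fin 2) F) *ᵥ x) = 0 := by
      intro x hx
      have h3 := polar_isom (hHI hh) (TT e P x y₀) (TT e P x (((β⁻¹ : GL (Fin b) F) : Matrix (Fin b) (Fin b) F) *ᵥ y''))
      rw [hαβ, hαβ, hβinv] at h3
      change pol Q _ _ = pol Q _ _ at h3
      rw [hlaw, hlaw, hx, zero_mul] at h3
      exact (mul_eq_zero.1 h3).resolve_right hy''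
    have hmemx : ∀ (x x' : Fin 2 → F) (a : F), (α : Matrix (Fin 2) (Fin 2) F) *ᵥ x = a • x' → ∀ v ∈ LinearMap.range (L x),
        (h : Matrix ι ι F) *ᵥ v ∈ LinearMap.range (L x') := by
      rintro x x' a ha _ ⟨y, rfl⟩
      rw [hLa, hαβ, ha, TT_smul_left]
      exact Submodule.smul_mem _ _ ⟨_, rfl⟩
    have hnosame : ∀ (a a' : F) (x : Fin 2 → F), (α : Matrix (Fin 2) (Fin 2) F) *ᵥ x₀ = a • x → (α : Matrix (Fin 2) (Fin 2) F) *ᵥ x₁ = a' • x → False := by
      intro a a' x h3 h4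
      have ha0 : a ≠ 0 := by
        rintro rfl
        rw [zero_smul] at h3
        exact hαne _ hx₀ h3
      have ha'0 : a' ≠ 0 := by
        rintro rfl
        rw [zero_smul] at h4
        exact hαne _ hx₁0 h4
      have h5 : (α : Matrix (Fin 2) (Fin 2) F) *ᵥ (a' • x₀ + (-a) • x₁) = 0 := by
        rw [Matrix.mulVec_add, Matrix.mulVec_smul, Matrix.mulVec_smul, h3, h4, smul_smul, smul_smul, mul_comm a', neg_mul, neg_smul, add_neg_cancel]
      have h6 : a' • x₀ + (-a) • x₁ = 0 := by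
        by_contra h7
        exact hαne _ h7 h5
      exact ha'0 (LinearIndependent.pair_iff.1 hLI _ _ h6).1
    rcases hcl _ (hiso x₀ hz) with ⟨a, ha⟩ | ⟨a, ha⟩ <;> rcases hcl _ (hiso x₁ h11) with ⟨a', ha'⟩ | ⟨a', ha'⟩
    · exact (hnosame a a' x₀ ha ha').elim
    · refine Cfsg.Agent.Lib.Geo.SpDecomp.mem_decompositionStabilizer_of_forall (k := b) hm.finrank_eq (Equiv.refl _) h ?_
      intro i v hv
      fin_cases i
      · exact hmemx _ _ a ha v hv
      · exact hmemx _ _ a' ha' v hv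
    · refine Cfsg.Agent.Lib.Geo.SpDecomp.mem_decompositionStabilizer_of_forall (k := b) hm.finrank_eq (Equiv.swap 0 1) h ?_
      intro i v hv
      fin_cases i
      · exact hmemx _ _ a ha v hv
      · exact hmemx _ _ a' ha' v hv
    · exact (hnosame a a' x₁ ha ha').elim

/-- Tensor products with a binary factor and an odd factor. -/
theorem ten_two_odd_pair {b : ℕ} (hb : Odd b) {H : Subgroup (GL ι F)} (hHI : H ≤ isometryGroup F Q)
    (hirr : ∀ W : Submodule F (ι → F), (∀ g ∈ H, ∀ v ∈ W, (g : Matrix ι ι F) *ᵥ v ∈ W) → W = ⊥ ∨ W = ⊤)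
    (hb2 : 2 ≤ b) (e : ι ≃ Fin 2 × Fin b) (P : GL ι F) {f₁ : (Fin 2 → F) → (Fin 2 → F) → F} {f₂ : (Fin b → F) → (Fin b → F) → F} {ε₁ ε₂ : F}
    (hf₁ : HF (RingEquiv.refl F) ε₁ f₁) (hf₂ : HF (RingEquiv.refl F) ε₂ f₂) (hεε : ε₁ * ε₂ = 1)
    (hlaw : ∀ x x' y y', pol Q (TT e P x y) (TT e P x' y') = f₁ x x' * f₂ y y')
    (hact : ∀ h ∈ H, ∃ (α : GL (Fin 2) F) (β : GL (Fin b) F), ∀ x y, (h : Matrix ι ι F) *ᵥ TT e P x y =
      TT e P ((α : Matrix (Fin 2) (Fin 2) F) *ᵥ x) ((β : Matrix (Fin b) (Fin b) F) *ᵥ y)) :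
    (∃ D : Fin 2 → Submodule F (ι → F), IsMDecomposition b D ∧ (∀ i, IsTotallySingularQuad Q (D i)) ∧ H ≤ decompositionStabilizer D) ∨
    ∃ K : Subalgebra F (Matrix ι ι F), IsFieldSubalgebra 2 K ∧ IsAdjointClosedFor (pol Q) K ∧
      ¬ IsSelfAdjointFor (pol Q) K ∧ (∀ k ∈ K, ∃ c : F, ∀ v, Q (k *ᵥ v) = c * Q v) ∧ H ≤ subalgebraNormalizer K := by
  classical
  have hε₂ := Cfsg.Agent.Lib.AschF.OddC.eps_eq_one_of_odd hf₂ hb
  subst hε₂
  rw [mul_one] at hεε
  subst hεε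
  have hsym₂ := symmetric_of_HF hf₂
  by_cases h2 : (2 : F) = 0
  · exfalso
    have hlawS : ∀ (y y' : Fin b → F) (x x' : Fin 2 → F), pol Q (TT (e.trans (Equiv.prodComm _ _)) P y x) (TT (e.trans (Equiv.prodComm _ _)) P y' x') = f₂ y y' * f₁ x x' := by
      intro y y' x x'
      rw [Cfsg.Agent.Lib.CmaxE.Ten.TT_swap, Cfsg.Agent.Lib.CmaxE.Ten.TT_swap, hlaw, mul_comm]
    have hactS : ∀ h ∈ H, ∃ (β : GL (Fin b) F) (α : GL (Fin 2) F), ∀ y x, (h : Matrix ι ι F) *ᵥ TT (e.trans (Equiv.prodComm _ _)) P y x =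
        TT (e.trans (Equiv.prodComm _ _)) P ((β : Matrix (Fin b) (Fin b) F) *ᵥ y) ((α : Matrix (Fin 2) (Fin 2) F) *ᵥ x) := by
      intro h hh
      obtain ⟨α, β, hαβ⟩ := hact h hh
      exact ⟨β, α, fun y x => by rw [Cfsg.Agent.Lib.CmaxE.Ten.TT_swap, Cfsg.Agent.Lib.CmaxE.Ten.TT_swap, hαβ]⟩
    have halt := Cfsg.Agent.Lib.CmaxE.Ten.alt_left hQ h2 hHI hirr hb2 (by norm_num) (e.trans (Equiv.prodComm _ _)) P hf₂ hf₁ hlawS hactS
    have hev := even_of_symplectic (f := f₂) ⟨hsym₂.bilinear, fun v w => ?_, halt, hsym₂.nondegenerate⟩ (W := ⊤) (by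
      intro v _ hv0
      obtain ⟨⟨x, hx⟩, ⟨y, hy⟩⟩ := hsym₂.nondegenerate v hv0
      exact ⟨⟨x, trivial, hx⟩, ⟨y, trivial, hy⟩⟩)
    · rw [finrank_top, finrank_fintype_fun_eq_card, Fintype.card_fin] at hev
      exact (Nat.not_even_iff_odd.2 hb) hev
    · rw [hsym₂.symm v w]
      linear_combination (f₂ w v) * h2
  · by_cases hiso : ∃ x₀ : Fin 2 → F, x₀ ≠ 0 ∧ f₁ x₀ x₀ = 0
    · obtain ⟨x₀, hx₀, hz⟩ := hiso
      exact Or.inl (pair_of_pure hQ h2 (by omega) hHI e P hf₁ hf₂ hlaw hact hx₀ hz)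
    · push Not at hiso
      exact Or.inr (Cfsg.Agent.Lib.CmaxE.QuadF.field_of_ten2 hQ h2 (by omega) e P hf₁ hf₂ hlaw hiso hHI hact)

end Cfsg.Agent.Lib.CmaxE.Par
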