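import Mathlib
import Cfsg.Agent.Lib.CmaxE.Par
import Cfsg.Agent.Lib.NotMax.OmegaFrame2

/-!
# Maximal subgroups of `Ω⁺` in dimension ten
-/

set_option autoImplicit false

namespace Cfsg.Agent.Lib.CmaxE.Plus10

open Matrix Module Cfsg Cfsg.Geo
open Cfsg.Agent.Lib.Geo.Basic Cfsg.Agent.Lib.Geo.Polar Cfsg.Agent.Lib.Geo.QForm
open Cfsg.Agent.Lib.GeoOmega.Basic Cfsg.Agent.Lib.AschF.OmegaP
open Cfsg.Agent.Lib.GeoOmega.Nondeg Cfsg.Agent.Lib.GeoOmega.NondegW Cfsg.Agent.Lib.GeoOmega.Singular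
open Cfsg.Agent.Lib.NotMax.Tensor (TT pureT)
open Cfsg.Agent.Lib.AschF.Adj (HF)
open Cfsg.Agent.Lib.AschF.OddA (polar_isom Q_isom card_eq_of_decomp hf_polar exists_max_of_not_prime)
open Cfsg.Agent.Lib.AschF.OddMax (perp_facts two_ne_zero_of_odd subfield_ne_top)
open Cfsg.Agent.Lib.Asch.MaxSL (eq_inf_of_le)
open Cfsg.Agent.Lib.Asch.MaxSN (field_dvd)
open Cfsg.Agent.Lib.Asch.Kr (kr)
open Cfsg.Agent.Lib.CmaxE.Core Cfsg.Agent.Lib.CmaxE.Proper Cfsg.Agent.Lib.CmaxE.Plus Cfsg.Agent.Lib.CmaxE.Ten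
open Cfsg.Agent.Lib.CmaxE.Common Cfsg.Agent.Lib.CmaxE.Sub2 Cfsg.Agent.Lib.CmaxE.Five Cfsg.Agent.Lib.CmaxE.Uni
open Cfsg.Agent.Lib.CmaxE.BinK Cfsg.Agent.Lib.CmaxE.Ten10 Cfsg.Agent.Lib.CmaxE.Par

universe u

variable {ι : Type} [Fintype ι] [DecidableEq ι] {F : Type u} [Field F] [Fintype F] {Q : (ι → F) → F}

variable (hQ : IsNondegenerateQuadraticForm Q)
include hQ

/-- No field of six elements. -/
theorem card_ne_six : Fintype.card F ≠ 6 := by
  intro h6
  obtain ⟨p, hp⟩ := CharP.exists F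
  haveI hpp : Fact p.Prime := ⟨CharP.char_is_prime F p⟩
  obtain ⟨n, -, hcard⟩ := FiniteField.card F p
  rw [h6] at hcard
  have h2 : 2 ∣ p ^ (n : ℕ) := by
    rw [← hcard]
    norm_num
  have h3 : 3 ∣ p ^ (n : ℕ) := by
    rw [← hcard]
    norm_num
  have h4 := (Nat.prime_dvd_prime_iff_eq Nat.prime_two hpp.out).1 (Nat.prime_two.dvd_of_dvd_pow h2)
  have h5 := (Nat.prime_dvd_prime_iff_eq Nat.prime_three hpp.out).1 (Nat.prime_three.dvd_of_dvd_pow h3)
  omega

/-- The structure theorem for the groups of plus type in dimension ten. -/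
theorem plus10_structure (hn : Fintype.card ι = 10) (hplus : IsPlusTypeOn Q ⊤) {H : Subgroup (GL ι F)}
    (hH : IsMaximalIn (omegaGL Q) H) :
    (∃ W : Submodule F (ι → F), W ≠ ⊥ ∧ IsTotallySingularQuad Q W ∧ finrank F W ≠ 4 ∧ H = subspaceStabilizer W ⊓ omegaGL Q) ∨
    (Odd (Fintype.card F) ∧ ∃ W : Submodule F (ι → F), W ≠ ⊥ ∧ W ≠ ⊤ ∧ Odd (finrank F W) ∧ 2 * finrank F W ≠ 10 ∧
      IsNondegenerateOn (QuadraticMap.polar Q) W ∧ H = subspaceStabilizer W ⊓ omegaGL Q) ∨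
    (∃ W : Submodule F (ι → F), finrank F W = 2 ∧ IsNondegenerateOn (QuadraticMap.polar Q) W ∧ ¬ IsPlusTypeOn Q W ∧
      H = subspaceStabilizer W ⊓ omegaGL Q) ∨
    (4 ≤ Fintype.card F ∧ ∃ W : Submodule F (ι → F), finrank F W = 2 ∧ IsNondegenerateOn (QuadraticMap.polar Q) W ∧ IsPlusTypeOn Q W ∧
      H = subspaceStabilizer W ⊓ omegaGL Q) ∨
    (∃ W : Submodule F (ι → F), finrank F W = 4 ∧ IsNondegenerateOn (QuadraticMap.polar Q) W ∧ H = subspaceStabilizer W ⊓ omegaGL Q) ∨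
    (¬ Odd (Fintype.card F) ∧ ∃ v : ι → F, Q v ≠ 0 ∧ H = subspaceStabilizer (Submodule.span F {v}) ⊓ omegaGL Q) ∨
    ((∃ p : ℕ, p.Prime ∧ Fintype.card F = p ∧ (p % 4 = 1)) ∧ ∃ D : Fin 10 → Submodule F (ι → F), IsOrthogonalMDecomposition Q 1 D ∧
      H = decompositionStabilizer D ⊓ omegaGL Q) ∨
    (7 ≤ Fintype.card F ∧ ∃ D : Fin 5 → Submodule F (ι → F), IsOrthogonalMDecomposition Q 2 D ∧ H = decompositionStabilizer D ⊓ omegaGL Q) ∨
    (Fintype.card F % 4 = 1 ∧ ∃ D : Fin 2 → Submodule F (ι → F), IsOrthogonalMDecomposition Q 5 D ∧ H = decompositionStabilizer D ⊓ omegaGL Q) ∨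
    (Fintype.card F % 4 = 3 ∧ ∃ D : Fin 2 → Submodule F (ι → F), IsNondegenerateMDecomposition (QuadraticMap.polar Q) 5 D ∧
      ¬ AreIsometricFor Q (D 0) (D 1) ∧ H = decompositionStabilizer D ⊓ omegaGL Q) ∨
    (Odd (Fintype.card F) ∧ ∃ K : Subalgebra F (Matrix ι ι F), IsFieldSubalgebra 2 K ∧ IsSelfAdjointFor (QuadraticMap.polar Q) K ∧
      H = subalgebraNormalizer K ⊓ omegaGL Q) ∨
    (∃ (F₀ : Subfield F) (r : ℕ) (P : GL ι F) (ζ : F), r.Prime ∧ Fintype.card F = Nat.card F₀ ^ r ∧ ζ ≠ 0 ∧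
      IsQuadFormRationalStructure (fun v : ι → F => ζ * Q v) F₀ P ∧ H = subfieldSubgroup F₀ P ⊓ omegaGL Q) ∨
    InOrthogonalResidualClass H := by
  classical
  have hHO : H ≤ omegaGL Q := hH.1.le
  have hHI : H ≤ isometryGroup F Q := hHO.trans (omegaGL_le_isometryGroup Q)
  have hι : 7 ≤ Fintype.card ι := by omega
  haveI : Nonempty ι := Fintype.card_pos_iff.1 (by omega)
  by_contra hcon
  simp only [not_or] at hcon
  obtain ⟨c₁, c₂, c₃, c₄, c₅, c₆, c₇, c₈, c₉, c₁₀, c₁₁, c₁₂, c₁₃⟩ := hcon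
  have hoddq : ¬ (2 : F) = 0 → Fintype.card F % 2 = 1 := by
    intro h2
    apply FiniteField.odd_card_of_char_ne_two
    intro h
    apply h2
    have := ringChar.Nat.cast_ringChar (R := F)
    rw [h] at this
    exact_mod_cast this
  -- half dimensional non-degenerate subspaces
  have hfive : ∀ W : Submodule F (ι → F), finrank F W = 5 → IsNondegenerateOn (QuadraticMap.polar Q) W →
      (2 : F) ≠ 0 ∧ (AreIsometricFor Q W ((polB hQ).orthogonal W) → Fintype.card F % 4 = 1) ∧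
      (¬ AreIsometricFor Q W ((polB hQ).orthogonal W) → Fintype.card F % 4 = 3) := by
    intro W h5 hW
    have h2 : (2 : F) ≠ 0 := by
      intro h2
      have := even_of_nd_two hQ h2 hW
      rw [h5] at this
      exact absurd this (by decide)
    have hq := hoddq h2
    have hiff := (plus_iff_five hQ h2 hn hW h5).1 hplus
    refine ⟨h2, fun hiso => hiff.1 hiso, fun hiso => ?_⟩
    by_contra h3
    exact hiso (hiff.2 (by omega))
  -- the fields, one at a time
  have hts5 : ∀ W : Submodule F (ι → F), W ≠ ⊥ → IsTotallySingularQuad Q W → finrank F W ≠ 4 → H ≤ subspaceStabilizer W → False := fun W h0 h1 h4 h3 =>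
    c₁ ⟨W, h0, h1, h4, eq_inf_of_le hH h3 (omega_not_le_stab hQ hι h0 (ne_top_of_ts hQ h1))⟩
  have hts : ∀ W : Submodule F (ι → F), W ≠ ⊥ → IsTotallySingularQuad Q W → H ≤ subspaceStabilizer W → False := by
    intro W h0 h1 h3
    by_cases h4 : finrank F W = 4
    · obtain ⟨W₁, h5, h6, h7, h8⟩ := ts_up hQ hplus h1 (by omega) hHO h3
      exact hts5 W₁ h5 h6 (by omega) h8
    · exact hts5 W h0 h1 h4 h3
  have hhalf : ∀ W₁ : Submodule F (ι → F), 2 * finrank F W₁ = Fintype.card ι →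
      Odd (finrank F W₁) → IsNondegenerateOn (QuadraticMap.polar Q) W₁ → H ≤ subspaceStabilizer W₁ → False := by
    intro W₁ hd _ hW₁ hle
    have h5 : finrank F W₁ = 5 := by omega
    obtain ⟨h2, h3, h4⟩ := hfive W₁ h5 hW₁
    obtain ⟨hW₁', hfr'⟩ := perp_facts hQ hW₁
    have hdecO := orthDec_of_nd hQ hW₁
    have hm := mdec_pair (k := 5) (by norm_num) h5 (by omega) hdecO.inf hdecO.sup
    let D : Fin 2 → Submodule F (ι → F) := ![W₁, (polB hQ).orthogonal W₁]
    have hN : IsNondegenerateMDecomposition (QuadraticMap.polar Q) 5 D := by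
      refine ⟨hm, ?_, ?_⟩
      · intro i
        fin_cases i
        · exact hW₁
        · exact hW₁'
      · intro i j hij x hx y hy
        fin_cases i <;> fin_cases j
        · exact absurd rfl hij
        · exact hdecO.orth x hx y hy
        · change pol Q x y = 0
          rw [pol_symm hQ]
          exact hdecO.orth y hy x hx
        · exact absurd rfl hij
    have hleD : H ≤ decompositionStabilizer D := by
      intro g hg
      refine Cfsg.Agent.Lib.Geo.SpDecomp.mem_decompositionStabilizer_of_forall (k := 5) hm.finrank_eq (Equiv.refl _) g ?_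
      intro i x hx
      fin_cases i
      · exact (mem_subspaceStabilizer_iff_forall_mem W₁ g).1 (hle hg) x hx
      · exact (mem_subspaceStabilizer_iff_forall_mem _ g).1 (stab_orth_of_stab hQ (hHI hg) (hle hg)) x hx
    have heq := eq_inf_of_le hH hleD (omega_not_le_dec' hQ hι hm)
    by_cases hiso : AreIsometricFor Q W₁ ((polB hQ).orthogonal W₁)
    · refine c₉ ⟨h3 hiso, D, ⟨hN, ?_⟩, heq⟩
      have hsymm : AreIsometricFor Q ((polB hQ).orthogonal W₁) W₁ := by
        obtain ⟨e, he⟩ := hiso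
        refine ⟨e.symm, fun x => ?_⟩
        have h7 := he (e.symm x)
        rw [LinearEquiv.apply_symm_apply] at h7
        exact h7.symm
      intro i j
      fin_cases i <;> fin_cases j
      · exact ⟨LinearEquiv.refl F _, fun _ => rfl⟩
      · exact hiso
      · exact hsymm
      · exact ⟨LinearEquiv.refl F _, fun _ => rfl⟩
    · exact c₁₀ ⟨h4 hiso, D, hN, hiso, heq⟩
  have hnd : ∀ W : Submodule F (ι → F), W ≠ ⊥ → W ≠ ⊤ → IsNondegenerateOn (pol Q) W → H ≤ subspaceStabilizer W → False := by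
    intro W h0 h1 h3 h4
    rcases nd_normal_half hQ hι hH hhalf h0 h1 h3 h4 with h | h | h | h | h
    · obtain ⟨hodd, W', h5, h6, h7, h8, h9, h10⟩ := h
      rw [hn] at h8
      exact c₂ ⟨hodd, W', h5, h6, h7, h8, h9, h10⟩
    · exact c₃ h
    · exact c₄ h
    · exact c₆ h
    · obtain ⟨W', h5, h6, h7, h8, h9⟩ := h
      obtain ⟨r, hr⟩ := h7
      exact c₅ ⟨W', by omega, h8, h9⟩
  have hns : ∀ v : ι → F, (2 : F) = 0 → Q v ≠ 0 → H ≤ subspaceStabilizer (Submodule.span F {v}) → False := by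
    intro v h2 hv hle
    refine c₆ ⟨?_, v, hv, stab_line_eq hQ hι hH hv hle⟩
    intro hodd
    exact two_ne_zero_of_odd hodd h2
  have hirr : ∀ W : Submodule F (ι → F), (∀ g ∈ H, ∀ v ∈ W, (g : Matrix ι ι F) *ᵥ v ∈ W) → W = ⊥ ∨ W = ⊤ := by
    intro W hinv
    by_contra hc
    push Not at hc
    rcases reducible_quad hQ hHI hinv with ⟨W', h0, h1, h3⟩ | h | ⟨h2, v, hv, hle⟩
    · exact hts W' h0 h1 h3
    · exact hnd W hc.1 hc.2 h (fun g hg => (mem_subspaceStabilizer_iff_forall_mem W g).2 (hinv g hg))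
    · exact hns v h2 hv hle
  have hdec : ∀ (t k : ℕ) (D : Fin t → Submodule F (ι → F)), IsOrthogonalMDecomposition Q k D → H ≤ decompositionStabilizer D → False := by
    intro t k D hD hle
    have hc := card_eq_of_decomp hD.decomp.decomp
    have ht2 := hD.decomp.decomp.two_le
    have heq := eq_inf_of_le hH hle (omega_not_le_dec' hQ hι hD.decomp.decomp)
    have hnotK : ∀ K : Subgroup (GL ι F), decompositionStabilizer D ⊓ omegaGL Q < K → K < omegaGL Q → False := by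
      intro K hK1 hK2
      rw [← heq] at hK1
      rcases hH.2 K hK1.le hK2.le with h | h
      · exact hK1.ne h.symm
      · exact hK2.ne h
    have htk : (t = 2 ∧ k = 5) ∨ (t = 5 ∧ k = 2) ∨ (t = 10 ∧ k = 1) := by
      rw [hn] at hc
      have htd : t ∣ 10 := ⟨k, hc⟩
      have h9 : t ≤ 10 := Nat.le_of_dvd (by norm_num) htd
      interval_cases t <;> first
        | omega
        | exact absurd htd (by decide)
    rcases htk with ⟨rfl, rfl⟩ | ⟨rfl, rfl⟩ | ⟨rfl, rfl⟩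
    · obtain ⟨h2, h3, -⟩ := hfive (D 0) (hD.decomp.decomp.finrank_eq 0) (hD.decomp.nondegenerate 0)
      rw [orth_eq_of_two hQ hD.decomp] at h3
      exact c₉ ⟨h3 (hD.isometric 0 1), D, hD, heq⟩
    · by_cases hq7 : 7 ≤ Fintype.card F
      · exact c₈ ⟨hq7, D, hD, heq⟩
      · have hparts := parts_plus hQ hD (s := 2) rfl (by norm_num) (by decide) hplus
        have hq6 := card_ne_six (ι := ι) hQ
        have hq2 : 2 ≤ Fintype.card F := Fintype.one_lt_card
        have hcases : Fintype.card F = 2 ∨ Fintype.card F = 3 ∨ Fintype.card F = 4 ∨ Fintype.card F = 5 := by omega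
        rcases hcases with hq | hq | hq | hq
        · obtain ⟨K, hK1, hK2⟩ := Cfsg.Agent.Lib.NotMax.OmegaFrame.q2_plane_not_maximal hq hQ hι hD.decomp hparts (by norm_num)
          exact hnotK K hK1 hK2
        · obtain ⟨K, hK1, hK2⟩ := Cfsg.Agent.Lib.NotMax.OmegaFrame.q3_not_maximal hq hQ hι (Or.inl rfl) hD (by norm_num)
          exact hnotK K hK1 hK2
        · obtain ⟨K, hK1, hK2⟩ := Cfsg.Agent.Lib.NotMax.OmegaFrame.q4_not_maximal hq hQ hι hD.decomp hparts (by norm_num)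
          exact hnotK K hK1 hK2
        · obtain ⟨K, hK1, hK2⟩ := Cfsg.Agent.Lib.NotMax.OmegaFrame.q5_not_maximal hq hQ hι hD.decomp hparts (by norm_num)
          exact hnotK K hK1 hK2
    · obtain ⟨W, hW, hd, hiso⟩ := iso_of_dec hQ hD (s := 5) rfl
      obtain ⟨h2, h3, -⟩ := hfive W (by omega) hW
      have hq1 := h3 hiso
      by_cases hp : (Fintype.card F).Prime
      · exact c₇ ⟨⟨_, hp, rfl, hq1⟩, D, hD, heq⟩
      · obtain ⟨F₁, s, hs, hcard⟩ := exists_max_of_not_prime hp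
        obtain ⟨E, ζ, hζ, hrat, hleE⟩ := frame_subfield hQ h2 hD hHI hle F₁
        exact c₁₂ ⟨F₁, s, E, ζ, hs, hcard, hζ, hrat,
          eq_inf_of_le hH hleE (omega_not_le_subfield' hQ hι (subfield_ne_top hs hcard) E)⟩
  have hpair : ∀ (k : ℕ) (D : Fin 2 → Submodule F (ι → F)), IsMDecomposition k D → (∀ i, IsTotallySingularQuad Q (D i)) →
      H ≤ decompositionStabilizer D → False := by
    intro k D hD hts' hle
    have hc := card_eq_of_decomp hD
    rw [hn] at hc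
    have hk5 : k = 5 := by omega
    subst hk5
    have hle0 := pair_stab hQ (by decide) hD hts' hHO hle
    refine hts (D 0) ?_ (hts' 0) hle0
    intro h0
    have := hD.finrank_eq 0
    rw [h0, finrank_bot] at this
    omega
  have hK₂ : ∀ K : Subalgebra F (Matrix ι ι F), IsFieldSubalgebra 2 K → IsAdjointClosedFor (pol Q) K →
      ¬ IsSelfAdjointFor (pol Q) K → H ≤ subalgebraNormalizer K → False := by
    intro K hK hadj hns' hle
    exact unitary_not_plus hQ (m := 5) (by omega) (by decide) hplus hK hadj (sim_of_unitary hQ hHI hirr (by omega) hK hadj hns' hle)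
  refine c₁₃ (main_of_noclassE hQ (by omega) hHI ⟨hts, hnd, hns, hdec, hpair, ?_, ?_, ?_, ?_, ?_⟩)
  · -- fields
    intro r K hr hK hadj hle
    have hd := field_dvd hK
    rw [hn] at hd
    have hr25 : r = 2 ∨ r = 5 := by
      have h3 : r ∣ 2 * 5 := hd
      rcases (Nat.Prime.dvd_mul hr).1 h3 with h4 | h4
      · exact Or.inl ((Nat.prime_dvd_prime_iff_eq hr Nat.prime_two).1 h4)
      · exact Or.inr ((Nat.prime_dvd_prime_iff_eq hr (by norm_num)).1 h4)
    rcases hr25 with rfl | rfl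
    · by_cases hsa : IsSelfAdjointFor (pol Q) K
      · by_cases h2 : (2 : F) = 0
        · exact no_selfadj_two hQ h2 hK hsa (m := 5) (by omega) (by decide)
        · exact c₁₁ ⟨Nat.odd_iff.2 (hoddq h2), K, hK, hsa, eq_inf_of_le hH hle (omega_not_le_field' hQ hι (by norm_num) hK)⟩
      · exact hK₂ K hK hadj hsa hle
    · rcases binary_of_K hQ (by norm_num) (by decide) hK hadj (by omega) hHI hle with ⟨D, hD, hts', hle'⟩ | ⟨K₂, hK₂', hadj₂, hns₂, hle₂⟩
      · exact hpair _ D hD hts' hle'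
      · exact hK₂ K₂ hK₂' hadj₂ hns₂ hle₂
  · -- tensor products
    intro a b e P f₁ f₂ ε₁ ε₂ ha hb hf₁ hf₂ hεε hlaw hmem
    have hcard : Fintype.card ι = a * b := by
      rw [Fintype.card_congr e]
      simp
    have hact : ∀ h ∈ H, ∃ (α : GL (Fin a) F) (β : GL (Fin b) F), ∀ x y, (h : Matrix ι ι F) *ᵥ TT e P x y =
        TT e P ((α : Matrix (Fin a) (Fin a) F) *ᵥ x) ((β : Matrix (Fin b) (Fin b) F) *ᵥ y) := by
      intro h hh
      obtain ⟨α, β, hαβ⟩ := hmem h hh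
      exact ⟨α, β, TT_of_kr e P h _ _ hαβ⟩
    have hlawS : ∀ (y y' : Fin b → F) (x x' : Fin a → F), pol Q (TT (e.trans (Equiv.prodComm _ _)) P y x) (TT (e.trans (Equiv.prodComm _ _)) P y' x') = f₂ y y' * f₁ x x' := by
      intro y y' x x'
      rw [TT_swap, TT_swap, hlaw, mul_comm]
    have hactS : ∀ h ∈ H, ∃ (β : GL (Fin b) F) (α : GL (Fin a) F), ∀ y x, (h : Matrix ι ι F) *ᵥ TT (e.trans (Equiv.prodComm _ _)) P y x =
        TT (e.trans (Equiv.prodComm _ _)) P ((β : Matrix (Fin b) (Fin b) F) *ᵥ y) ((α : Matrix (Fin a) (Fin a) F) *ᵥ x) := by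
      intro h hh
      obtain ⟨α, β, hαβ⟩ := hact h hh
      exact ⟨β, α, fun y x => by rw [TT_swap, TT_swap, hαβ]⟩
    have hab : (a = 2 ∧ b = 5) ∨ (a = 5 ∧ b = 2) := by
      rw [hn] at hcard
      have had : a ∣ 10 := ⟨b, hcard⟩
      have h9 : a ≤ 10 := Nat.le_of_dvd (by norm_num) had
      interval_cases a <;> first
        | omega
        | exact absurd had (by decide)
    have hplusK : ∀ {b' : ℕ} (_ : b' = 5) (e' : ι ≃ Fin 2 × Fin b') {g₁ : (Fin 2 → F) → (Fin 2 → F) → F} {g₂ : (Fin b' → F) → (Fin b' → F) → F}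
        {δ₁ δ₂ : F}, HF (RingEquiv.refl F) δ₁ g₁ → HF (RingEquiv.refl F) δ₂ g₂ → δ₁ * δ₂ = 1 →
        (∀ x x' y y', pol Q (TT e' P x y) (TT e' P x' y') = g₁ x x' * g₂ y y') →
        (∀ h ∈ H, ∃ (α : GL (Fin 2) F) (β : GL (Fin b') F), ∀ x y, (h : Matrix ι ι F) *ᵥ TT e' P x y =
          TT e' P ((α : Matrix (Fin 2) (Fin 2) F) *ᵥ x) ((β : Matrix (Fin b') (Fin b') F) *ᵥ y)) → False := by
      intro b' hb' e' g₁ g₂ δ₁ δ₂ hg₁ hg₂ hδδ hlaw' hact'
      subst hb'
      rcases ten_two_odd_pair hQ (by decide) hHI hirr (by norm_num) e' P hg₁ hg₂ hδδ hlaw' hact' with ⟨D, hD, hts', hle⟩ | ⟨K, hK, hadj, hns', -, hle⟩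
      · exact hpair _ D hD hts' hle
      · exact hK₂ K hK hadj hns' hle
    rcases hab with ⟨rfl, rfl⟩ | ⟨rfl, rfl⟩
    · exact hplusK rfl e hf₁ hf₂ hεε hlaw hact
    · exact hplusK rfl (e.trans (Equiv.prodComm _ _)) hf₂ hf₁ (by rw [mul_comm]; exact hεε) hlawS hactS
  · -- tensor powers
    intro a k e₂ P₂ A ε₁ c ha hk hA hc hlaw' _ hle
    have hcard : Fintype.card ι = a ^ k := by
      rw [Fintype.card_congr e₂]
      simp
    rw [hn] at hcard
    exfalso
    have ha3 : a ≤ 3 := by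
      by_contra ha4
      have h3 : 4 ^ 2 ≤ a ^ k := (Nat.pow_le_pow_left (by omega : 4 ≤ a) 2).trans (Nat.pow_le_pow_right (by omega) hk)
      omega
    have hk3 : k ≤ 3 := by
      by_contra hk4
      have h3 : 2 ^ 4 ≤ a ^ k := (Nat.pow_le_pow_right (by norm_num) (by omega : 4 ≤ k)).trans (Nat.pow_le_pow_left ha k)
      omega
    interval_cases a <;> interval_cases k <;> omega
  · -- subfields
    intro F₁ s P ζ hs hc hζ hrat hle
    exact c₁₂ ⟨F₁, s, P, ζ, hs, hc, hζ, hrat,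
      eq_inf_of_le hH hle (omega_not_le_subfield' hQ hι (subfield_ne_top hs hc) P)⟩
  · -- symplectic type
    intro R h2 hRH _ hA hSC hx2
    exact false_of_odd_dvd (p := 5) (by norm_num) (by norm_num) (by rw [hn]; norm_num) hA hSC hx2

end Cfsg.Agent.Lib.CmaxE.Plus10
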