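import Mathlib
import Cfsg.Agent.Lib.CmaxE.Par
import Cfsg.Agent.Lib.NotMax.OmegaFrame2

/-!
# Half dimensional non-degenerate subspaces in dimension twelve
-/

set_option autoImplicit false

namespace Cfsg.Agent.Lib.CmaxE.Six

open Matrix Module Cfsg Cfsg.Geo
open Cfsg.Agent.Lib.Geo.Basic Cfsg.Agent.Lib.Geo.Polar Cfsg.Agent.Lib.Geo.QForm
open Cfsg.Agent.Lib.GeoOmega.Basic Cfsg.Agent.Lib.AschF.OmegaP Cfsg.Agent.Lib.QuadFn
open Cfsg.Agent.Lib.GeoOmega.Nondeg Cfsg.Agent.Lib.GeoOmega.NondegW Cfsg.Agent.Lib.GeoOmega.Singular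
open Cfsg.Agent.Lib.AschF.OddA (polar_isom Q_isom card_eq_of_decomp hf_polar)
open Cfsg.Agent.Lib.AschF.OddMax (perp_facts)
open Cfsg.Agent.Lib.NotMax.OmegaFrame (ndOn_of_nondeg exists_hyp_of_plus)
open Cfsg.Agent.Lib.CmaxE.Core Cfsg.Agent.Lib.CmaxE.Proper Cfsg.Agent.Lib.CmaxE.Plus Cfsg.Agent.Lib.CmaxE.Common
open Cfsg.Agent.Lib.CmaxE.Five

universe u

variable {ι : Type} [Fintype ι] [DecidableEq ι] {F : Type u} [Field F] [Fintype F] {Q : (ι → F) → F}

variable (hQ : IsNondegenerateQuadraticForm Q)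
include hQ

/-- A hyperbolic pair through a singular vector. -/
theorem peel_of_singular {W : Submodule F (ι → F)} (hW : IsNondegenerateOn (QuadraticMap.polar Q) W)
    {e : ι → F} (he : e ∈ W) (he0 : e ≠ 0) (hQe : Q e = 0) : ∃ (W₁ : Submodule F (ι → F)) (f : ι → F), Peel Q W W₁ e f := by
  obtain ⟨f, hf, hQf, hef⟩ := exists_partner hQ (ndOn_of_nondeg hQ hW) he he0 hQe
  have hee : pol Q e e = 0 := by rw [pol_self hQ, hQe, mul_zero]
  have hff : pol Q f f = 0 := by rw [pol_self hQ, hQf, mul_zero]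
  have hfe : pol Q f e = 1 := by rw [pol_symm hQ, hef]
  let W₁ : Submodule F (ι → F) :=
    { carrier := {w | w ∈ W ∧ pol Q w e = 0 ∧ pol Q w f = 0}
      add_mem' := by
        rintro a b ⟨ha, ha1, ha2⟩ ⟨hb, hb1, hb2⟩
        exact ⟨W.add_mem ha hb, by rw [pol_add_left hQ, ha1, hb1, add_zero], by rw [pol_add_left hQ, ha2, hb2, add_zero]⟩
      zero_mem' := ⟨W.zero_mem, pol_zero_left hQ _, pol_zero_left hQ _⟩
      smul_mem' := by
        rintro c a ⟨ha, ha1, ha2⟩
        exact ⟨W.smul_mem c ha, by rw [pol_smul_left hQ, ha1, mul_zero], by rw [pol_smul_left hQ, ha2, mul_zero]⟩ }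
  refine ⟨W₁, f, he, hf, fun x hx => hx.1, hQe, hQf, hef, fun w hw => hw.2, fun w hw => ⟨?_, ?_, ?_⟩⟩
  · exact W.sub_mem (W.sub_mem hw (W.smul_mem _ he)) (W.smul_mem _ hf)
  · rw [sub_eq_add_neg, sub_eq_add_neg, ← neg_smul, ← neg_smul, pol_add_left hQ, pol_add_left hQ, pol_smul_left hQ,
      pol_smul_left hQ, hee, hfe]
    ring
  · rw [sub_eq_add_neg, sub_eq_add_neg, ← neg_smul, ← neg_smul, pol_add_left hQ, pol_add_left hQ, pol_smul_left hQ,
      pol_smul_left hQ, hef, hff]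
    ring

/-- Orthogonal sums of non-degenerate subspaces are non-degenerate. -/
theorem nd_sup {A A' : Submodule F (ι → F)} (hA : IsNondegenerateOn (QuadraticMap.polar Q) A)
    (hA' : IsNondegenerateOn (QuadraticMap.polar Q) A') (hor : ∀ a ∈ A, ∀ b ∈ A', pol Q a b = 0) :
    IsNondegenerateOn (QuadraticMap.polar Q) (A ⊔ A') := by
  intro v hv hv0
  have key : ∃ x ∈ A ⊔ A', pol Q v x ≠ 0 := by
    obtain ⟨a, ha, b, hb, rfl⟩ := Submodule.mem_sup.1 hv
    by_cases ha0 : a = 0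
    · subst ha0
      rw [zero_add] at hv0 ⊢
      obtain ⟨x, hx, hne⟩ := (hA' b hb hv0).2
      exact ⟨x, Submodule.mem_sup_right hx, hne⟩
    · obtain ⟨x, hx, hne⟩ := (hA a ha ha0).2
      refine ⟨x, Submodule.mem_sup_left hx, ?_⟩
      rw [pol_add_left hQ, pol_symm hQ b x, hor x hx b hb, add_zero]
      exact hne
  obtain ⟨x, hx, hne⟩ := key
  exact ⟨⟨x, hx, by rw [pol_symm hQ] at hne; exact hne⟩, ⟨x, hx, hne⟩⟩

/-- Planes one of which has a singular vector. -/
theorem iso_plane_of_singular {A A' : Submodule F (ι → F)} (hA : IsNondegenerateOn (QuadraticMap.polar Q) A)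
    (hA' : IsNondegenerateOn (QuadraticMap.polar Q) A') (dA : finrank F A = 2) (dA' : finrank F A' = 2)
    (hor : ∀ a ∈ A, ∀ b ∈ A', pol Q a b = 0) (hp : IsPlusTypeOn Q (A ⊔ A')) {e : ι → F} (he : e ∈ A) (he0 : e ≠ 0)
    (hQe : Q e = 0) : AreIsometricFor Q A A' := by
  obtain ⟨W₁, f, P⟩ := peel_of_singular hQ hA he he0 hQe
  have hfr := P.finrank_eq hQ
  have hW₁ : W₁ = ⊥ := Submodule.finrank_eq_zero.1 (by omega)
  subst hW₁
  have S := P.sup_right hQ hor
  have hnd := nd_sup hQ hA hA' hor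
  rw [S.plus_iff hQ hnd, bot_sup_eq] at hp
  obtain ⟨e', he', -, -, hQe', -, -, he'0⟩ := exists_hyp_of_plus hQ (ndOn_of_nondeg hQ hA') (by omega) hp
  obtain ⟨W₁', f', P'⟩ := peel_of_singular hQ hA' he' he'0 hQe'
  have hfr' := P'.finrank_eq hQ
  have hW₁' : W₁' = ⊥ := Submodule.finrank_eq_zero.1 (by omega)
  subst hW₁'
  exact P.iso hQ P' hA ⟨LinearEquiv.refl F _, fun _ => rfl⟩

/-- Orthogonal planes whose sum has plus type are isometric. -/
theorem iso_plane {A A' : Submodule F (ι → F)} (hA : IsNondegenerateOn (QuadraticMap.polar Q) A)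
    (hA' : IsNondegenerateOn (QuadraticMap.polar Q) A') (dA : finrank F A = 2) (dA' : finrank F A' = 2)
    (hor : ∀ a ∈ A, ∀ b ∈ A', pol Q a b = 0) (hp : IsPlusTypeOn Q (A ⊔ A')) : AreIsometricFor Q A A' := by
  classical
  by_cases h1 : ∃ e ∈ A, e ≠ 0 ∧ Q e = 0
  · obtain ⟨e, he, he0, hQe⟩ := h1
    exact iso_plane_of_singular hQ hA hA' dA dA' hor hp he he0 hQe
  by_cases h2 : ∃ e ∈ A', e ≠ 0 ∧ Q e = 0
  · obtain ⟨e, he, he0, hQe⟩ := h2
    obtain ⟨φ, hφ⟩ := iso_plane_of_singular hQ hA' hA dA' dA (fun a ha b hb => by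
      rw [pol_symm hQ]
      exact hor b hb a ha) (by rwa [sup_comm]) he he0 hQe
    refine ⟨φ.symm, fun x => ?_⟩
    have h3 := hφ (φ.symm x)
    rw [LinearEquiv.apply_symm_apply] at h3
    exact h3.symm
  push Not at h1 h2
  obtain ⟨T, hTle, hT, hTd⟩ := hp
  have hinf : A ⊓ A' = ⊥ := by
    rw [eq_bot_iff]
    rintro x ⟨hx, hx'⟩
    by_contra hx0
    obtain ⟨y, hy, hne⟩ := (hA x hx hx0).1
    exact hne (hor y hy x hx')
  have hfin := Submodule.finrank_sup_add_finrank_inf_eq A A'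
  rw [hinf, finrank_bot, dA, dA'] at hfin
  have hTfin : finrank F T = 2 := by omega
  have hdec := orthDec_of_nd hQ hA
  have hdec' := orthDec_of_nd hQ hA'
  have hc : IsCompl A ((polB hQ).orthogonal A) := ⟨disjoint_iff.2 hdec.inf, codisjoint_iff.2 hdec.sup⟩
  have hc' : IsCompl A' ((polB hQ).orthogonal A') := ⟨disjoint_iff.2 hdec'.inf, codisjoint_iff.2 hdec'.sup⟩
  let π : T →ₗ[F] A := (A.projectionOnto _ hc) ∘ₗ T.subtype
  let π' : T →ₗ[F] A' := (A'.projectionOnto _ hc') ∘ₗ T.subtype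
  have hsplit : ∀ t : T, (t : ι → F) = ((π t : A) : ι → F) + ((π' t : A') : ι → F) := by
    intro t
    obtain ⟨a, ha, b, hb, hab⟩ := Submodule.mem_sup.1 (hTle t.2)
    have hbo : b ∈ (polB hQ).orthogonal A := by
      rw [mem_orth_iff hQ]
      intro u hu
      rw [pol_symm hQ]
      exact hor u hu b hb
    have hao : a ∈ (polB hQ).orthogonal A' := by
      rw [mem_orth_iff hQ]
      intro u hu
      exact hor a ha u hu
    have h3 : π t = ⟨a, ha⟩ := by
      change A.projectionOnto _ hc (t : ι → F) = _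
      rw [← hab, map_add]
      have h4 := Submodule.projectionOnto_apply_left hc ⟨a, ha⟩
      have h5 := Submodule.projectionOnto_apply_right hc ⟨b, hbo⟩
      simp only at h4 h5
      rw [h4, h5, add_zero]
    have h4 : π' t = ⟨b, hb⟩ := by
      change A'.projectionOnto _ hc' (t : ι → F) = _
      rw [← hab, map_add]
      have h5 := Submodule.projectionOnto_apply_left hc' ⟨b, hb⟩
      have h6 := Submodule.projectionOnto_apply_right hc' ⟨a, hao⟩
      simp only at h5 h6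
      rw [h5, h6, zero_add]
    rw [h3, h4]
    exact hab.symm
  have hQt : ∀ t : T, Q ((π' t : A') : ι → F) = - Q ((π t : A) : ι → F) := by
    intro t
    have h3 := hT t t.2
    rw [hsplit t, Q_add hQ, hor _ (π t).2 _ (π' t).2] at h3
    linear_combination h3
  have hπinj : Function.Injective π := by
    rw [injective_iff_map_eq_zero]
    intro t ht
    have h3 := hsplit t
    rw [ht] at h3
    simp only [Submodule.coe_zero, zero_add] at h3
    have h4 := hT t t.2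
    rw [h3] at h4
    by_contra ht0
    refine h2 _ (π' t).2 ?_ h4
    rw [← h3]
    exact fun h => ht0 (Subtype.ext h)
  let E : T ≃ₗ[F] A := LinearMap.linearEquivOfInjective π hπinj (hTfin.trans dA.symm)
  have hE : ∀ x : A, π (E.symm x) = x := fun x => E.apply_symm_apply x
  obtain ⟨J, hJ⟩ := exists_anti hQ hA (by rw [dA]; decide)
  let L : A →ₗ[F] A' := π' ∘ₗ E.symm.toLinearMap ∘ₗ J
  have hLQ : ∀ x : A, Q ((L x : A') : ι → F) = Q (x : ι → F) := by
    intro x
    change Q ((π' (E.symm (J x)) : A') : ι → F) = _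
    rw [hQt, hE, hJ, neg_neg]
  have hLinj : Function.Injective L := by
    rw [injective_iff_map_eq_zero]
    intro x hx
    by_contra hx0
    have h3 := hLQ x
    rw [hx, Submodule.coe_zero, Q_zero hQ] at h3
    exact h1 x x.2 (fun h => hx0 (Subtype.ext h)) h3.symm
  exact ⟨LinearMap.linearEquivOfInjective L hLinj (dA.trans dA'.symm), fun x => hLQ x⟩

/-- In a space of plus type and dimension twelve, a non-degenerate subspace of dimension six is isometric to its perp. -/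
theorem iso_half_six (hc : Fintype.card ι = 12) (hplus : IsPlusTypeOn Q ⊤) {W : Submodule F (ι → F)}
    (hW : IsNondegenerateOn (QuadraticMap.polar Q) W) (h6 : finrank F W = 6) : AreIsometricFor Q W ((polB hQ).orthogonal W) := by
  have hdec := orthDec_of_nd hQ hW
  obtain ⟨hW', hfr'⟩ := perp_facts hQ hW
  have h6' : finrank F ((polB hQ).orthogonal W) = 6 := by omega
  obtain ⟨W₁, e₁, f₁, P₁⟩ := exists_peel hQ hW (by omega)
  have hW₁ := P₁.nondeg hQ hW
  have hfr₁ := P₁.finrank_eq hQ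
  obtain ⟨W₂, e₂, f₂, P₂⟩ := exists_peel hQ hW₁ (by omega)
  have hW₂ := P₂.nondeg hQ hW₁
  have hfr₂ := P₂.finrank_eq hQ
  obtain ⟨W₁', e₁', f₁', P₁'⟩ := exists_peel hQ hW' (by omega)
  have hW₁' := P₁'.nondeg hQ hW'
  have hfr₁' := P₁'.finrank_eq hQ
  obtain ⟨W₂', e₂', f₂', P₂'⟩ := exists_peel hQ hW₁' (by omega)
  have hW₂' := P₂'.nondeg hQ hW₁'
  have hfr₂' := P₂'.finrank_eq hQ
  have hp := (plus_chain hQ hdec.orth hdec.sup P₁ P₂ P₁' P₂').1 hplus
  exact P₁.iso hQ P₁' hW (P₂.iso hQ P₂' hW₁ (iso_plane hQ hW₂ hW₂' (by omega) (by omega)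
    (fun a ha b hb => hdec.orth a (P₁.le (P₂.le ha)) b (P₁'.le (P₂'.le hb))) hp))

end Cfsg.Agent.Lib.CmaxE.Six
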