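import Mathlib
import Cfsg.Agent.Lib.CmaxE.Par
import Cfsg.Agent.Lib.NotMax.OmegaFrame2

/-!
# Tensor decompositions with factors of dimensions two and six
-/

set_option autoImplicit false

namespace Cfsg.Agent.Lib.CmaxE.Ten26

open Matrix Module Cfsg Cfsg.Geo
open Cfsg.Agent.Lib.Geo.Basic Cfsg.Agent.Lib.Geo.Polar Cfsg.Agent.Lib.Geo.QForm
open Cfsg.Agent.Lib.GeoOmega.Basic Cfsg.Agent.Lib.AschF.OmegaP
open Cfsg.Agent.Lib.GeoOmega.Nondeg Cfsg.Agent.Lib.GeoOmega.NondegW Cfsg.Agent.Lib.GeoOmega.Singular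
open Cfsg.Agent.Lib.NotMax.Tensor (TT pureT TT_add_left TT_add_right TT_smul_left TT_smul_right TT_ne_zero span_TT)
open Cfsg.Agent.Lib.AschF.Adj (HF)
open Cfsg.Agent.Lib.AschF.OddA (polar_isom Q_isom card_eq_of_decomp hf_polar)
open Cfsg.Agent.Lib.Asch.Kr (kr kr_mul kr_one kr_mulVec mem_tensorProductSubgroup)
open Cfsg.Agent.Lib.CmaxE.Core Cfsg.Agent.Lib.CmaxE.Proper Cfsg.Agent.Lib.CmaxE.Plus Cfsg.Agent.Lib.CmaxE.Ten
open Cfsg.Agent.Lib.CmaxE.Common Cfsg.Agent.Lib.CmaxE.Par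

universe u

variable {ι : Type} [Fintype ι] [DecidableEq ι] {F : Type u} [Field F] [Fintype F] {Q : (ι → F) → F}

omit [Fintype F] in
/-- An alternating form with a sign is symplectic. -/
theorem symp_of_HF {κ : Type} [Fintype κ] [DecidableEq κ] {f : (κ → F) → (κ → F) → F} {ε : F} (hf : HF (RingEquiv.refl F) ε f)
    (halt : ∀ x, f x x = 0) : IsSymplecticForm f where
  bilinear := ⟨hf.sesq.add_left, hf.sesq.smul_left, hf.sesq.add_right, hf.sesq.smul_right⟩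
  skew := fun v w => by
    have h1 := halt (v + w)
    rw [hf.sesq.add_left, hf.sesq.add_right, hf.sesq.add_right, halt v, halt w] at h1
    linear_combination h1
  alternating := halt
  nondegenerate := hf.nd

omit [Fintype F] in
/-- The sign of a form squares to one. -/
theorem eps_sq {κ : Type} [Fintype κ] [DecidableEq κ] [Nonempty κ] {f : (κ → F) → (κ → F) → F} {ε : F} (hf : HF (RingEquiv.refl F) ε f) :
    ε ^ 2 = 1 := by
  classical
  obtain ⟨i⟩ := ‹Nonempty κ›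
  have hv : (Pi.single i 1 : κ → F) ≠ 0 := by
    intro h
    have := congrFun h i
    simp at this
  obtain ⟨u, hu⟩ := (hf.nd _ hv).1
  have h1 := hf.herm u (Pi.single i 1)
  have h3 := hf.herm (Pi.single i 1) u
  simp only [RingEquiv.refl_apply] at h1 h3
  have h4 : (ε ^ 2 - 1) * f u (Pi.single i 1) = 0 := by
    rw [h1] at h3
    linear_combination -h3
  exact sub_eq_zero.1 ((mul_eq_zero.1 h4).resolve_right hu)

/-- Over the field with two elements the group acting on a binary factor normalises a quadratic field. -/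
theorem field_of_q2 (hq : Fintype.card F = 2) {b : ℕ} (e : ι ≃ Fin 2 × Fin b) [Nonempty ι] (P : GL ι F) {H : Subgroup (GL ι F)}
    (hmem : ∀ h ∈ H, ∃ (α : GL (Fin 2) F) (β : GL (Fin b) F), (h : Matrix ι ι F) * (P : Matrix ι ι F) = (P : Matrix ι ι F) * kr e α β) :
    ∃ K : Subalgebra F (Matrix ι ι F), IsFieldSubalgebra 2 K ∧ H ≤ subalgebraNormalizer K := by
  classical
  have h2 : (2 : F) = 0 := Cfsg.Agent.Lib.NotMax.Sp2.two_eq_zero hq
  have h01 : ∀ x : F, x = 0 ∨ x = 1 := Cfsg.Agent.Lib.NotMax.Sp2.eq_zero_or_one hq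
  have hneg : ∀ x : F, - x = x := fun x => by linear_combination -x * h2
  let J₀ : Matrix (Fin 2) (Fin 2) F := !![0, 1; 1, 1]
  have hJ : J₀ * J₀ = J₀ + 1 := by
    ext i j
    fin_cases i <;> fin_cases j <;> simp [J₀, Matrix.mul_apply, Fin.sum_univ_two] <;> linear_combination h2
  have hkradd : ∀ (X : Matrix (Fin 2) (Fin 2) F) (Y : Matrix (Fin b) (Fin b) F), kr e (X + 1) Y = kr e X Y + kr e 1 Y := by
    intro X Y
    ext i j
    simp [kr, add_mul]
  let M : Matrix ι ι F := (P : Matrix ι ι F) * kr e J₀ 1 * ((P⁻¹ : GL ι F) : Matrix ι ι F)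
  have hPP : ((P⁻¹ : GL ι F) : Matrix ι ι F) * (P : Matrix ι ι F) = 1 := by
    rw [← Matrix.GeneralLinearGroup.coe_mul, inv_mul_cancel, Matrix.GeneralLinearGroup.coe_one]
  have hPP' : (P : Matrix ι ι F) * ((P⁻¹ : GL ι F) : Matrix ι ι F) = 1 := by
    rw [← Matrix.GeneralLinearGroup.coe_mul, mul_inv_cancel, Matrix.GeneralLinearGroup.coe_one]
  have hconjP : ∀ X : Matrix ι ι F, (P : Matrix ι ι F) * (X + 1) * ((P⁻¹ : GL ι F) : Matrix ι ι F) =
      (P : Matrix ι ι F) * X * ((P⁻¹ : GL ι F) : Matrix ι ι F) + 1 := by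
    intro X
    rw [mul_add, add_mul, mul_one, hPP']
  have hMM : M * M = (1 : F) • M - (1 : F) • 1 := by
    have h3 : M * M = (P : Matrix ι ι F) * (kr e J₀ 1 * kr e J₀ 1) * ((P⁻¹ : GL ι F) : Matrix ι ι F) := by
      simp only [M]
      calc _ = (P : Matrix ι ι F) * kr e J₀ 1 * (((P⁻¹ : GL ι F) : Matrix ι ι F) * (P : Matrix ι ι F)) * kr e J₀ 1 * ((P⁻¹ : GL ι F) : Matrix ι ι F) := by
            simp only [mul_assoc]
        _ = _ := by
            rw [hPP, mul_one]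
            simp only [mul_assoc]
    rw [h3, kr_mul, hJ, mul_one, hkradd, kr_one, hconjP, one_smul, one_smul]
    have h4 : (1 : Matrix ι ι F) = - 1 := by
      ext i j
      by_cases hij : i = j
      · subst hij
        simp [hneg]
      · simp [Matrix.one_apply_ne hij]
    rw [sub_eq_add_neg, ← h4]
  have hno : ∀ s : F, s ^ 2 - 1 * s + 1 ≠ 0 := by
    intro s
    rcases h01 s with rfl | rfl <;> simp
  obtain ⟨K, hKmem, hK⟩ := Cfsg.Agent.Lib.CmaxE.QuadF.exists_quad_field hMM hno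
  refine ⟨K, hK, ?_⟩
  apply Cfsg.Agent.Lib.CmaxE.QuadF.mem_normalizer_of_gen hKmem
  intro h hh
  obtain ⟨α, β, hαβ⟩ := hmem h hh
  have hMK : M ∈ K := (hKmem M).2 ⟨0, 1, by simp⟩
  -- the conjugate of `J₀`
  let X : Matrix (Fin 2) (Fin 2) F := (α : Matrix (Fin 2) (Fin 2) F) * J₀ * ((α⁻¹ : GL (Fin 2) F) : Matrix (Fin 2) (Fin 2) F)
  have hαα : ((α⁻¹ : GL (Fin 2) F) : Matrix (Fin 2) (Fin 2) F) * (α : Matrix (Fin 2) (Fin 2) F) = 1 := by
    rw [← Matrix.GeneralLinearGroup.coe_mul, inv_mul_cancel, Matrix.GeneralLinearGroup.coe_one]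
  have hαα' : (α : Matrix (Fin 2) (Fin 2) F) * ((α⁻¹ : GL (Fin 2) F) : Matrix (Fin 2) (Fin 2) F) = 1 := by
    rw [← Matrix.GeneralLinearGroup.coe_mul, mul_inv_cancel, Matrix.GeneralLinearGroup.coe_one]
  have hββ' : (β : Matrix (Fin b) (Fin b) F) * ((β⁻¹ : GL (Fin b) F) : Matrix (Fin b) (Fin b) F) = 1 := by
    rw [← Matrix.GeneralLinearGroup.coe_mul, mul_inv_cancel, Matrix.GeneralLinearGroup.coe_one]
  have hXX : X * X = X + 1 := by
    calc X * X = (α : Matrix (Fin 2) (Fin 2) F) * J₀ * (((α⁻¹ : GL (Fin 2) F) : Matrix (Fin 2) (Fin 2) F) * (α : Matrix (Fin 2) (Fin 2) F)) * J₀ * ((α⁻¹ : GL (Fin 2) F) : Matrix (Fin 2) (Fin 2) F) := by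
          simp only [X, mul_assoc]
      _ = (α : Matrix (Fin 2) (Fin 2) F) * (J₀ * J₀) * ((α⁻¹ : GL (Fin 2) F) : Matrix (Fin 2) (Fin 2) F) := by
          rw [hαα, mul_one]
          simp only [mul_assoc]
      _ = X + 1 := by
          rw [hJ, mul_add, add_mul, mul_one, hαα']
  -- classification in the ring of matrices over the field with two elements
  have hX : X = J₀ ∨ X = J₀ + 1 := by
    have e00 := congrFun (congrFun hXX 0) 0
    have e01 := congrFun (congrFun hXX 0) 1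
    have e11 := congrFun (congrFun hXX 1) 1
    simp only [Matrix.mul_apply, Fin.sum_univ_two, Matrix.add_apply, Matrix.one_apply_eq, Matrix.one_apply_ne (by decide : (0 : Fin 2) ≠ 1), add_zero] at e00 e01 e11
    have hsq : ∀ x : F, x * x = x := by
      intro x
      rcases h01 x with rfl | rfl <;> simp
    rw [hsq] at e00
    have hbc : X 0 1 * X 1 0 = 1 := by linear_combination e00
    have hb : X 0 1 = 1 := (h01 _).resolve_left (fun h => by rw [h, zero_mul] at hbc; exact zero_ne_one hbc)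
    have hc : X 1 0 = 1 := (h01 _).resolve_left (fun h => by rw [h, mul_zero] at hbc; exact zero_ne_one hbc)
    rw [hb] at e01
    have had : X 0 0 + X 1 1 = 1 := by linear_combination e01
    rcases h01 (X 0 0) with h0 | h0
    · left
      ext i j
      fin_cases i <;> fin_cases j
      · simpa [J₀] using h0
      · simpa [J₀] using hb
      · simpa [J₀] using hc
      · simp only [J₀]
        simp
        rw [h0, zero_add] at had
        exact had
    · right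
      ext i j
      fin_cases i <;> fin_cases j
      · simpa [J₀] using h0
      · simpa [J₀] using hb
      · simpa [J₀] using hc
      · simp [J₀]
        rw [h0] at had
        linear_combination had - h2
  -- conjugation
  have hconj : (h : Matrix ι ι F) * M * ((h⁻¹ : GL ι F) : Matrix ι ι F) =
      (P : Matrix ι ι F) * kr e X 1 * ((P⁻¹ : GL ι F) : Matrix ι ι F) := by
    have hinv : ((P⁻¹ : GL ι F) : Matrix ι ι F) * ((h⁻¹ : GL ι F) : Matrix ι ι F) =
        kr e ((α⁻¹ : GL (Fin 2) F) : Matrix (Fin 2) (Fin 2) F) ((β⁻¹ : GL (Fin b) F) : Matrix (Fin b) (Fin b) F) * ((P⁻¹ : GL ι F) : Matrix ι ι F) := by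
      have h3 : (kr e ((α⁻¹ : GL (Fin 2) F) : Matrix (Fin 2) (Fin 2) F) ((β⁻¹ : GL (Fin b) F) : Matrix (Fin b) (Fin b) F) * ((P⁻¹ : GL ι F) : Matrix ι ι F)) *
          ((h : Matrix ι ι F) * (P : Matrix ι ι F)) = 1 := by
        rw [hαβ, mul_assoc, ← mul_assoc _ (P : Matrix ι ι F), hPP, one_mul, kr_mul, hαα]
        have : ((β⁻¹ : GL (Fin b) F) : Matrix (Fin b) (Fin b) F) * (β : Matrix (Fin b) (Fin b) F) = 1 := by
          rw [← Matrix.GeneralLinearGroup.coe_mul, inv_mul_cancel, Matrix.GeneralLinearGroup.coe_one]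
        rw [this, kr_one]
      have h4 : (h : Matrix ι ι F) * (P : Matrix ι ι F) * (((P⁻¹ : GL ι F) : Matrix ι ι F) * ((h⁻¹ : GL ι F) : Matrix ι ι F)) = 1 := by
        rw [← Matrix.GeneralLinearGroup.coe_mul, ← Matrix.GeneralLinearGroup.coe_mul, ← Matrix.GeneralLinearGroup.coe_mul]
        simp
      calc _ = (kr e ((α⁻¹ : GL (Fin 2) F) : Matrix (Fin 2) (Fin 2) F) ((β⁻¹ : GL (Fin b) F) : Matrix (Fin b) (Fin b) F) * ((P⁻¹ : GL ι F) : Matrix ι ι F) *
            ((h : Matrix ι ι F) * (P : Matrix ι ι F))) * (((P⁻¹ : GL ι F) : Matrix ι ι F) * ((h⁻¹ : GL ι F) : Matrix ι ι F)) := by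
            rw [h3, one_mul]
        _ = _ := by
            rw [mul_assoc (kr e ((α⁻¹ : GL (Fin 2) F) : Matrix (Fin 2) (Fin 2) F) ((β⁻¹ : GL (Fin b) F) : Matrix (Fin b) (Fin b) F) * ((P⁻¹ : GL ι F) : Matrix ι ι F)), h4, mul_one]
    calc (h : Matrix ι ι F) * M * ((h⁻¹ : GL ι F) : Matrix ι ι F)
        = ((h : Matrix ι ι F) * (P : Matrix ι ι F)) * kr e J₀ 1 * (((P⁻¹ : GL ι F) : Matrix ι ι F) * ((h⁻¹ : GL ι F) : Matrix ι ι F)) := by
          simp only [M, mul_assoc]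
      _ = (P : Matrix ι ι F) * (kr e α β * kr e J₀ 1 * kr e ((α⁻¹ : GL (Fin 2) F) : Matrix (Fin 2) (Fin 2) F) ((β⁻¹ : GL (Fin b) F) : Matrix (Fin b) (Fin b) F)) * ((P⁻¹ : GL ι F) : Matrix ι ι F) := by
          rw [hαβ, hinv]
          simp only [mul_assoc]
      _ = _ := by
          rw [kr_mul, kr_mul, mul_one, hββ']
  rw [hconj]
  rcases hX with h5 | h5
  · rw [h5]
    exact hMK
  · rw [h5, hkradd, kr_one, hconjP]
    exact K.add_mem hMK K.one_mem

variable (hQ : IsNondegenerateQuadraticForm Q)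
include hQ

/-- The alternating case in characteristic two: the quadratic form vanishes on pure tensors. -/
theorem pure_zero_of_alt (h2 : (2 : F) = 0) {H : Subgroup (GL ι F)} (hH : H ≤ isometryGroup F Q)
    (hirr : ∀ W : Submodule F (ι → F), (∀ g ∈ H, ∀ v ∈ W, (g : Matrix ι ι F) *ᵥ v ∈ W) → W = ⊥ ∨ W = ⊤)
    {b : ℕ} (hb : 2 ≤ b) (e : ι ≃ Fin 2 × Fin b) (P : GL ι F)
    {f₁ : (Fin 2 → F) → (Fin 2 → F) → F} {f₂ : (Fin b → F) → (Fin b → F) → F} {ε₁ ε₂ : F}
    (hf₁ : HF (RingEquiv.refl F) ε₁ f₁) (hf₂ : HF (RingEquiv.refl F) ε₂ f₂)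
    (hlaw : ∀ x x' y y', pol Q (TT e P x y) (TT e P x' y') = f₁ x x' * f₂ y y')
    (hact : ∀ h ∈ H, ∃ (α : GL (Fin 2) F) (β : GL (Fin b) F), ∀ x y, (h : Matrix ι ι F) *ᵥ TT e P x y =
      TT e P ((α : Matrix (Fin 2) (Fin 2) F) *ᵥ x) ((β : Matrix (Fin b) (Fin b) F) *ᵥ y)) :
    (∀ x, f₁ x x = 0) ∧ (∀ y, f₂ y y = 0) ∧ ∀ x y, Q (TT e P x y) = 0 := by
  classical
  have halt₁ := alt_left hQ h2 hH hirr (le_refl 2) (by omega) e P hf₁ hf₂ hlaw hact
  have halt₂ := alt_left hQ h2 hH hirr hb (by omega) (e.trans (Equiv.prodComm _ _)) P hf₂ hf₁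
    (fun y y' x x' => by rw [TT_swap, TT_swap, hlaw, mul_comm]) (fun h hh => by
      obtain ⟨α, β, hαβ⟩ := hact h hh
      exact ⟨β, α, fun y x => by rw [TT_swap, TT_swap, hαβ]⟩)
  have hcard : Fintype.card ι = 2 * b := by
    rw [Fintype.card_congr e]
    simp
  obtain ⟨l, hl⟩ := exists_ell hQ h2 e P hlaw halt₁ halt₂
  have hl0 := ell_eq_zero hQ h2 hH hirr (by omega) l {v | ∃ x y, v = TT e P x y} (by
      rintro _ ⟨x, y, rfl⟩
      exact hl x y) (by
      refine span_TT e P _ (Submodule.zero_mem _) (fun u v hu hv => Submodule.add_mem _ hu hv) (fun x y => Submodule.subset_span ⟨x, y, rfl⟩)) (by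
      rintro h hh _ ⟨x, y, rfl⟩
      obtain ⟨α, β, hαβ⟩ := hact h hh
      exact ⟨_, _, hαβ x y⟩)
  refine ⟨halt₁, halt₂, fun x y => ?_⟩
  rw [hl, hl0]
  simp

/-- Tensor decompositions into factors of dimensions two and six. -/
theorem ten_two_six [Nonempty ι] {b : ℕ} (hb : 2 ≤ b) {H : Subgroup (GL ι F)} (hHI : H ≤ isometryGroup F Q)
    (hirr : ∀ W : Submodule F (ι → F), (∀ g ∈ H, ∀ v ∈ W, (g : Matrix ι ι F) *ᵥ v ∈ W) → W = ⊥ ∨ W = ⊤)
    (e : ι ≃ Fin 2 × Fin b) (P : GL ι F) {f₁ : (Fin 2 → F) → (Fin 2 → F) → F} {f₂ : (Fin b → F) → (Fin b → F) → F} {ε₁ ε₂ : F}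
    (hf₁ : HF (RingEquiv.refl F) ε₁ f₁) (hf₂ : HF (RingEquiv.refl F) ε₂ f₂) (hεε : ε₁ * ε₂ = 1)
    (hlaw : ∀ x x' y y', pol Q (TT e P x y) (TT e P x' y') = f₁ x x' * f₂ y y')
    (hmem : ∀ h ∈ H, ∃ (α : GL (Fin 2) F) (β : GL (Fin b) F), (h : Matrix ι ι F) * (P : Matrix ι ι F) = (P : Matrix ι ι F) * kr e α β) :
    (3 ≤ Fintype.card F ∧ IsSymplecticForm f₁ ∧ IsSymplecticForm f₂ ∧ IsTensorFormStructure id (QuadraticMap.polar Q) f₁ f₂ e P ∧
      (∀ (x₁ : Fin 2 → F) (x₂ : Fin b → F), Q ((P : Matrix ι ι F) *ᵥ ((fun a : Fin 2 × Fin b => x₁ a.1 * x₂ a.2) ∘ e)) = 0) ∧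
      H ≤ tensorProductSubgroup 2 b e P) ∨
    (∃ D : Fin 2 → Submodule F (ι → F), IsMDecomposition b D ∧ (∀ i, IsTotallySingularQuad Q (D i)) ∧ H ≤ decompositionStabilizer D) ∨
    (∃ K : Subalgebra F (Matrix ι ι F), IsFieldSubalgebra 2 K ∧ H ≤ subalgebraNormalizer K) := by
  classical
  haveI : Nonempty (Fin b) := ⟨⟨0, by omega⟩⟩
  have hact : ∀ h ∈ H, ∃ (α : GL (Fin 2) F) (β : GL (Fin b) F), ∀ x y, (h : Matrix ι ι F) *ᵥ TT e P x y =
      TT e P ((α : Matrix (Fin 2) (Fin 2) F) *ᵥ x) ((β : Matrix (Fin b) (Fin b) F) *ᵥ y) := by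
    intro h hh
    obtain ⟨α, β, hαβ⟩ := hmem h hh
    exact ⟨α, β, TT_of_kr e P h _ _ hαβ⟩
  have hle : H ≤ tensorProductSubgroup 2 b e P := by
    intro h hh
    obtain ⟨α, β, hαβ⟩ := hmem h hh
    exact mem_tensorProductSubgroup e P h α β hαβ
  have hst := Cfsg.Agent.Lib.AschF.Inv.tensor_structure (σf := id) (fun _ => rfl) (hf_polar hQ) e P hlaw
  by_cases h2 : (2 : F) = 0
  · by_cases hq : Fintype.card F = 2
    · exact Or.inr (Or.inr (field_of_q2 hq e P hmem))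
    · have hq3 : 3 ≤ Fintype.card F := by
        have : 2 ≤ Fintype.card F := Fintype.one_lt_card
        omega
      obtain ⟨halt₁, halt₂, hz⟩ := pure_zero_of_alt hQ h2 hHI hirr hb e P hf₁ hf₂ hlaw hact
      exact Or.inl ⟨hq3, symp_of_HF hf₁ halt₁, symp_of_HF hf₂ halt₂, hst, fun x₁ x₂ => hz x₁ x₂, hle⟩
  · have hε₁ := eps_sq hf₁
    have hcases : ε₁ = 1 ∨ ε₁ = -1 := by
      have h3 : (ε₁ - 1) * (ε₁ + 1) = 0 := by linear_combination hε₁
      rcases mul_eq_zero.1 h3 with h4 | h4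
      · exact Or.inl (sub_eq_zero.1 h4)
      · exact Or.inr (eq_neg_of_add_eq_zero_left h4)
    rcases hcases with rfl | rfl
    · by_cases hiso : ∃ x₀ : Fin 2 → F, x₀ ≠ 0 ∧ f₁ x₀ x₀ = 0
      · obtain ⟨x₀, hx₀, hz⟩ := hiso
        exact Or.inr (Or.inl (pair_of_pure hQ h2 (by omega) hHI e P hf₁ hf₂ hlaw hact hx₀ hz))
      · push Not at hiso
        obtain ⟨K, hK, -, -, -, hle'⟩ := Cfsg.Agent.Lib.CmaxE.QuadF.field_of_ten2 hQ h2 (by omega) e P hf₁ hf₂ hlaw hiso hHI hact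
        exact Or.inr (Or.inr ⟨K, hK, hle'⟩)
    · have hε₂ : ε₂ = -1 := by linear_combination -hεε
      subst hε₂
      have hq3 : 3 ≤ Fintype.card F := by
        have h4 : 2 ≤ Fintype.card F := Fintype.one_lt_card
        by_contra h5
        have h6 : Fintype.card F = 2 := by omega
        exact h2 (Cfsg.Agent.Lib.NotMax.Sp2.two_eq_zero h6)
      have halt : ∀ {κ : ℕ} {f : (Fin κ → F) → (Fin κ → F) → F}, HF (RingEquiv.refl F) (-1) f → ∀ x, f x x = 0 := by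
        intro κ f hf x
        have h3 := hf.herm x x
        simp only [RingEquiv.refl_apply] at h3
        have h4 : (2 : F) * f x x = 0 := by linear_combination h3
        exact (mul_eq_zero.1 h4).resolve_left h2
      refine Or.inl ⟨hq3, symp_of_HF hf₁ (halt hf₁), symp_of_HF hf₂ (halt hf₂), hst, fun x₁ x₂ => ?_, hle⟩
      change Q (TT e P x₁ x₂) = 0
      apply mul_left_cancel₀ h2
      rw [← pol_self hQ, hlaw, halt hf₁]
      ring

end Cfsg.Agent.Lib.CmaxE.Ten26
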