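import Mathlib
import Cfsg.Agent.Lib.CmaxE.Six
import Cfsg.Agent.Lib.CmaxE.Ten26

/-!
# Tensor decompositions with factors of dimensions three and four, part one

A symmetric form of plus type on a space of dimension four is a tensor product of two alternating forms.
-/

set_option autoImplicit false

namespace Cfsg.Agent.Lib.CmaxE.Ten34

open Matrix Module Cfsg Cfsg.Geo
open Cfsg.Agent.Lib.Geo.Basic Cfsg.Agent.Lib.Geo.Polar Cfsg.Agent.Lib.Geo.QForm
open Cfsg.Agent.Lib.GeoOmega.Basic Cfsg.Agent.Lib.AschF.OmegaP Cfsg.Agent.Lib.QuadFn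
open Cfsg.Agent.Lib.GeoOmega.Nondeg Cfsg.Agent.Lib.GeoOmega.NondegW Cfsg.Agent.Lib.GeoOmega.Singular
open Cfsg.Agent.Lib.NotMax.Tensor (TT pureT TT_add_left TT_add_right TT_smul_left TT_smul_right TT_ne_zero span_TT exists_coord)
open Cfsg.Agent.Lib.AschF.Adj (HF)
open Cfsg.Agent.Lib.AschF.OddA (polar_isom Q_isom card_eq_of_decomp hf_polar)
open Cfsg.Agent.Lib.AschF.OddMax (perp_facts)
open Cfsg.Agent.Lib.NotMax.OmegaFrame (ndOn_of_nondeg exists_hyp_of_plus)
open Cfsg.Agent.Lib.Asch.Kr (kr kr_mul kr_one kr_mulVec mem_tensorProductSubgroup)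
open Cfsg.Agent.Lib.CmaxE.Core Cfsg.Agent.Lib.CmaxE.Proper Cfsg.Agent.Lib.CmaxE.Plus Cfsg.Agent.Lib.CmaxE.Ten
open Cfsg.Agent.Lib.CmaxE.Common Cfsg.Agent.Lib.CmaxE.Five Cfsg.Agent.Lib.CmaxE.Six

universe u

section Om

variable {F : Type u} [Field F]

/-- The standard alternating form in dimension two. -/
def om (a a' : Fin 2 → F) : F := a 0 * a' 1 - a 1 * a' 0

theorem om_self (a : Fin 2 → F) : om a a = 0 := by
  simp only [om]
  ring

theorem om_swap (a a' : Fin 2 → F) : om a a' = - om a' a := by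
  simp only [om]
  ring

theorem om_add_left (a a' b : Fin 2 → F) : om (a + a') b = om a b + om a' b := by
  simp only [om, Pi.add_apply]
  ring

theorem om_add_right (b a a' : Fin 2 → F) : om b (a + a') = om b a + om b a' := by
  simp only [om, Pi.add_apply]
  ring

theorem om_smul_left (c : F) (a b : Fin 2 → F) : om (c • a) b = c * om a b := by
  simp only [om, Pi.smul_apply, smul_eq_mul]
  ring

theorem om_smul_right (c : F) (b a : Fin 2 → F) : om b (c • a) = c * om b a := by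
  simp only [om, Pi.smul_apply, smul_eq_mul]
  ring

/-- Vectors orthogonal for the alternating form are proportional. -/
theorem eq_smul_of_om {a a' : Fin 2 → F} (ha : a ≠ 0) (h : om a a' = 0) : ∃ c : F, a' = c • a := by
  have h1 : a 0 ≠ 0 ∨ a 1 ≠ 0 := by
    by_contra hcon
    push Not at hcon
    apply ha
    funext i
    fin_cases i
    · exact hcon.1
    · exact hcon.2
  simp only [om] at h
  rcases h1 with h1 | h1
  · refine ⟨a' 0 / a 0, ?_⟩
    funext i
    fin_cases i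
    · simp only [Pi.smul_apply, smul_eq_mul]
      simp
      field_simp
    · simp only [Pi.smul_apply, smul_eq_mul]
      simp
      field_simp
      linear_combination h
  · refine ⟨a' 1 / a 1, ?_⟩
    funext i
    fin_cases i
    · simp only [Pi.smul_apply, smul_eq_mul]
      simp
      field_simp
      linear_combination -h
    · simp only [Pi.smul_apply, smul_eq_mul]
      simp
      field_simp

/-- Non-zero vectors have a partner. -/
theorem exists_om_ne {a : Fin 2 → F} (ha : a ≠ 0) : ∃ u : Fin 2 → F, om a u ≠ 0 := by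
  by_contra hcon
  push Not at hcon
  apply ha
  have h0 := hcon ![1, 0]
  have h1 := hcon ![0, 1]
  simp [om] at h0 h1
  funext i
  fin_cases i
  · exact h1
  · exact h0

/-- The alternating form is symplectic. -/
theorem om_symp : IsSymplecticForm (om : (Fin 2 → F) → (Fin 2 → F) → F) where
  bilinear := ⟨om_add_left, om_smul_left, om_add_right, om_smul_right⟩
  skew := om_swap
  alternating := om_self
  nondegenerate := fun v hv => by
    obtain ⟨u, hu⟩ := exists_om_ne hv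
    exact ⟨⟨u, by rw [om_swap]; exact neg_ne_zero.2 hu⟩, ⟨u, hu⟩⟩

/-- A common orthogonal vector makes two vectors proportional. -/
theorem om_eq_zero_of_common {b q₁ q₂ : Fin 2 → F} (hb : b ≠ 0) (h₁ : om q₁ b = 0) (h₂ : om q₂ b = 0) : om q₁ q₂ = 0 := by
  have h1 : b 0 ≠ 0 ∨ b 1 ≠ 0 := by
    by_contra hcon
    push Not at hcon
    apply hb
    funext i
    fin_cases i
    · exact hcon.1
    · exact hcon.2
  simp only [om] at h₁ h₂ ⊢
  rcases h1 with h1 | h1
  · apply mul_left_cancel₀ h1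
    linear_combination (q₂ 0) * h₁ - (q₁ 0) * h₂
  · apply mul_left_cancel₀ h1
    linear_combination (q₂ 1) * h₁ - (q₁ 1) * h₂

end Om

section Half

variable {κ : Type} [Fintype κ] [DecidableEq κ] {F : Type u} [Field F]

/-- The quadratic form attached to a symmetric form. -/
def half (f : (κ → F) → (κ → F) → F) : (κ → F) → F := fun x => 2⁻¹ * f x x

theorem pol_half (h2 : (2 : F) ≠ 0) {f : (κ → F) → (κ → F) → F} (hf : HF (RingEquiv.refl F) 1 f) (u v : κ → F) :
    QuadraticMap.polar (half f) u v = f u v := by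
  have hsym := hf.herm v u
  simp only [RingEquiv.refl_apply, one_mul] at hsym
  simp only [QuadraticMap.polar, half]
  rw [hf.sesq.add_left, hf.sesq.add_right, hf.sesq.add_right, hsym]
  field_simp
  ring

theorem half_nd (h2 : (2 : F) ≠ 0) {f : (κ → F) → (κ → F) → F} (hf : HF (RingEquiv.refl F) 1 f) :
    IsNondegenerateQuadraticForm (half f) where
  smul := fun c v => by
    simp only [half]
    rw [hf.sesq.smul_left, hf.sesq.smul_right]
    simp only [RingEquiv.refl_apply]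
    ring
  polar_bilinear := by
    have : QuadraticMap.polar (half f) = f := by
      funext u v
      exact pol_half h2 hf u v
    rw [this]
    exact ⟨hf.sesq.add_left, hf.sesq.smul_left, hf.sesq.add_right, hf.sesq.smul_right⟩
  nondegenerate := by
    have : QuadraticMap.polar (half f) = f := by
      funext u v
      exact pol_half h2 hf u v
    rw [this]
    exact hf.nd

end Half

variable {ι : Type} [Fintype ι] [DecidableEq ι] {F : Type u} [Field F] [Fintype F] {Q : (ι → F) → F}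

/-- A factor of a space of plus type with a ternary factor is of plus type. -/
theorem factor_plus (hQ : IsNondegenerateQuadraticForm Q) (h2 : (2 : F) ≠ 0) (hplus : IsPlusTypeOn Q ⊤) {b : ℕ} (e : ι ≃ Fin 3 × Fin b) (P : GL ι F)
    {f₁ : (Fin 3 → F) → (Fin 3 → F) → F} {f₂ : (Fin b → F) → (Fin b → F) → F} {ε₂ : F}
    (hf₁ : HF (RingEquiv.refl F) 1 f₁) (hf₂ : HF (RingEquiv.refl F) ε₂ f₂)
    (hlaw : ∀ x x' y y', pol Q (TT e P x y) (TT e P x' y') = f₁ x x' * f₂ y y') :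
    ∃ U : Submodule F (Fin b → F), (∀ u ∈ U, ∀ u' ∈ U, f₂ u u' = 0) ∧ 2 * finrank F U = b := by
  classical
  have hq := half_nd h2 hf₁
  have hpq : ∀ u v, pol (half f₁) u v = f₁ u v := pol_half h2 hf₁
  have hcard : Fintype.card ι = 3 * b := by
    rw [Fintype.card_congr e]
    simp
  -- an isotropic vector and a non-isotropic vector orthogonal to it
  obtain ⟨x₀, -, hx₀, hqx₀⟩ := exists_singular hq (⊤ : Submodule F (Fin 3 → F)) (by simp)
  have hx₀0 : f₁ x₀ x₀ = 0 := by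
    simp only [half] at hqx₀
    exact (mul_eq_zero.1 hqx₀).resolve_left (inv_ne_zero h2)
  obtain ⟨w, hw, hww⟩ : ∃ w ∈ (polB hq).orthogonal (Submodule.span F {x₀}), half f₁ w ≠ 0 := by
    by_contra hcon
    push Not at hcon
    have h3 := two_finrank_le hq (U := (polB hq).orthogonal (Submodule.span F {x₀})) hcon
    have h4 := finrank_orth' hq (Submodule.span F {x₀})
    rw [finrank_span_singleton hx₀] at h4
    simp only [Fintype.card_fin] at h3 h4
    omega
  have hww' : f₁ w w ≠ 0 := by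
    intro h0
    apply hww
    simp only [half]
    rw [h0, mul_zero]
  have hw0 : w ≠ 0 := by
    rintro rfl
    exact hww (Q_zero hq)
  have hwx₀ : f₁ w x₀ = 0 := by
    rw [← hpq]
    exact (mem_orth_iff hq).1 hw x₀ (Submodule.mem_span_singleton_self x₀)
  have hx₀w : f₁ x₀ w = 0 := by
    rw [← hpq, pol_symm hq, hpq]
    exact hwx₀
  let L : (Fin 3 → F) → (Fin b → F) →ₗ[F] (ι → F) := fun x =>
    { toFun := fun y => TT e P x y
      map_add' := fun y y' => TT_add_right e P x y y'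
      map_smul' := fun c y => TT_smul_right e P c x y }
  have hLa : ∀ x y, L x y = TT e P x y := fun _ _ => rfl
  have hinj : ∀ x, x ≠ 0 → Function.Injective (L x) := by
    intro x hx
    rw [← LinearMap.ker_eq_bot, LinearMap.ker_eq_bot']
    intro y hy
    by_contra hy0
    exact TT_ne_zero e P hx hy0 hy
  have hfin : ∀ x, x ≠ 0 → finrank F (LinearMap.range (L x)) = b := by
    intro x hx
    rw [LinearMap.finrank_range_of_inj (hinj x hx)]
    simp
  set B := LinearMap.range (L w) with hBdef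
  have hB : IsNondegenerateOn (QuadraticMap.polar Q) B := by
    rintro _ ⟨y, rfl⟩ hy0
    have hy : y ≠ 0 := by
      rintro rfl
      exact hy0 (map_zero _)
    obtain ⟨⟨u, hu⟩, ⟨v, hv⟩⟩ := hf₂.nd y hy
    refine ⟨⟨L w u, ⟨u, rfl⟩, ?_⟩, ⟨L w v, ⟨v, rfl⟩, ?_⟩⟩
    · change pol Q _ _ ≠ 0
      rw [hLa, hLa, hlaw]
      exact mul_ne_zero hww' hu
    · change pol Q _ _ ≠ 0
      rw [hLa, hLa, hlaw]
      exact mul_ne_zero hww' hv
  obtain ⟨hA, hfA⟩ := perp_facts hQ hB
  rw [hfin w hw0, hcard] at hfA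
  have hAp : IsPlusTypeOn Q ((polB hQ).orthogonal B) := by
    refine ⟨LinearMap.range (L x₀), ?_, ?_, ?_⟩
    · rintro _ ⟨y, rfl⟩
      rw [mem_orth_iff hQ]
      rintro _ ⟨y', rfl⟩
      rw [hLa, hLa, hlaw, hx₀w, zero_mul]
    · rintro _ ⟨y, rfl⟩
      apply mul_left_cancel₀ h2
      rw [hLa, ← pol_self hQ, hlaw, hx₀0]
      ring
    · rw [hfin x₀ hx₀]
      omega
  have hcan := plus_cancel hQ hplus hA hAp
  rw [orth_orth hQ] at hcan
  obtain ⟨T, hTB, hT, hTd⟩ := hcan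
  refine ⟨T.comap (L w), ?_, ?_⟩
  · intro u hu u' hu'
    have h3 := (qspace hQ).ts_polar hT hu hu'
    change pol Q _ _ = 0 at h3
    rw [hLa, hLa, hlaw] at h3
    exact (mul_eq_zero.1 h3).resolve_left hww'
  · have h3 : (T.comap (L w)).map (L w) = T := Submodule.map_comap_eq_of_le hTB
    have h4 := LinearEquiv.finrank_eq (Submodule.equivMapOfInjective (L w) (hinj w hw0) (T.comap (L w)))
    rw [h3] at h4
    rw [h4, hTd, hfin w hw0]

section Frame

variable (e₄ : Fin 4 ≃ Fin 2 × Fin 2)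

/-- A symmetric form of plus type on a space of dimension four is the tensor product of two alternating forms. -/
theorem exists_frame4 (h2 : (2 : F) ≠ 0) {g : (Fin 4 → F) → (Fin 4 → F) → F} (hg : HF (RingEquiv.refl F) 1 g)
    (U : Submodule F (Fin 4 → F)) (hU : ∀ u ∈ U, ∀ u' ∈ U, g u u' = 0) (hd : 2 * finrank F U = 4) :
    ∃ N : GL (Fin 4) F, ∀ a a' b b', g (TT e₄ N a b) (TT e₄ N a' b') = om a a' * om b b' := by
  classical
  have hq := half_nd h2 hg
  have hpq : ∀ u v, pol (half g) u v = g u v := pol_half h2 hg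
  have hs := hg.sesq
  have hsym : ∀ u v, g u v = g v u := by
    intro u v
    have := hg.herm v u
    simpa using this
  have hqg : ∀ u, half g u = 0 ↔ g u u = 0 := by
    intro u
    simp only [half, mul_eq_zero, inv_eq_zero, h2, false_or]
  have hts : IsTotallySingularQuad (half g) U := fun u hu => (hqg u).2 (hU u hu u hu)
  have hplus : IsPlusTypeOn (half g) ⊤ := ⟨U, le_top, hts, by
    rw [finrank_top, hd]
    simp⟩
  have hnd : IsNondegenerateOn (QuadraticMap.polar (half g)) (⊤ : Submodule F (Fin 4 → F)) := by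
    intro v _ hv0
    obtain ⟨⟨x, hx⟩, ⟨y, hy⟩⟩ := hq.nondegenerate v hv0
    exact ⟨⟨x, trivial, hx⟩, ⟨y, trivial, hy⟩⟩
  have hU0 : U ≠ ⊥ := by
    intro h
    rw [h, finrank_bot] at hd
    omega
  obtain ⟨v₀₀, hv₀₀, hv₀₀0⟩ := Submodule.exists_mem_ne_zero_of_ne_bot hU0
  obtain ⟨W₁, v₁₁, P₁⟩ := peel_of_singular hq hnd (Submodule.mem_top : v₀₀ ∈ ⊤) hv₀₀0 (hts v₀₀ hv₀₀)
  have hW₁ := P₁.nondeg hq hnd
  have hfr := P₁.finrank_eq hq
  have hplus₁ := (P₁.plus_iff hq hnd).1 hplus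
  rw [finrank_top] at hfr
  simp only [finrank_fintype_fun_eq_card, Fintype.card_fin] at hfr
  obtain ⟨v₀₁, hv₀₁, v₁₀', hv₁₀', hq₀₁, hq₁₀', h₀₁, -⟩ := exists_hyp_of_plus hq (ndOn_of_nondeg hq hW₁) (by omega) hplus₁
  rw [hpq] at h₀₁
  -- the table
  have t₁ : g v₀₀ v₀₀ = 0 := hU _ hv₀₀ _ hv₀₀
  have t₂ : g v₁₁ v₁₁ = 0 := (hqg _).1 P₁.Qf
  have t₃ : g v₀₁ v₀₁ = 0 := (hqg _).1 hq₀₁
  have t₄ : g v₁₀' v₁₀' = 0 := (hqg _).1 hq₁₀'
  have t₅ : g v₀₀ v₁₁ = 1 := by rw [← hpq]; exact P₁.ef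
  have t₆ : g v₀₁ v₀₀ = 0 := by rw [← hpq]; exact (P₁.orth _ hv₀₁).1
  have t₇ : g v₀₁ v₁₁ = 0 := by rw [← hpq]; exact (P₁.orth _ hv₀₁).2
  have t₈ : g v₁₀' v₀₀ = 0 := by rw [← hpq]; exact (P₁.orth _ hv₁₀').1
  have t₉ : g v₁₀' v₁₁ = 0 := by rw [← hpq]; exact (P₁.orth _ hv₁₀').2
  -- the frame
  let Φ : (Fin 4 → F) →ₗ[F] (Fin 4 → F) :=
    { toFun := fun z => z (e₄.symm (0, 0)) • v₀₀ + z (e₄.symm (0, 1)) • v₀₁ + z (e₄.symm (1, 0)) • (- v₁₀') + z (e₄.symm (1, 1)) • v₁₁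
      map_add' := fun z z' => by
        simp only [Pi.add_apply, add_smul]
        abel
      map_smul' := fun c z => by
        simp only [Pi.smul_apply, smul_eq_mul, mul_smul, RingHom.id_apply, smul_add] }
  have hΦ : ∀ z, Φ z = z (e₄.symm (0, 0)) • v₀₀ + z (e₄.symm (0, 1)) • v₀₁ + z (e₄.symm (1, 0)) • (- v₁₀') + z (e₄.symm (1, 1)) • v₁₁ := fun _ => rfl
  have hneg : ∀ x, g x (- v₁₀') = - g x v₁₀' := by
    intro x
    have := hs.smul_right (-1) x v₁₀'
    simpa using this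
  have hneg' : ∀ x, g (- v₁₀') x = - g v₁₀' x := by
    intro x
    have := hs.smul_left (-1) v₁₀' x
    simpa using this
  have hval : ∀ c₀ c₁ c₂ c₃ d₀ d₁ d₂ d₃ : F, g (c₀ • v₀₀ + c₁ • v₀₁ + c₂ • (- v₁₀') + c₃ • v₁₁) (d₀ • v₀₀ + d₁ • v₀₁ + d₂ • (- v₁₀') + d₃ • v₁₁) =
      c₀ * d₃ + c₃ * d₀ - c₁ * d₂ - c₂ * d₁ := by
    intro c₀ c₁ c₂ c₃ d₀ d₁ d₂ d₃
    simp only [hs.add_left, hs.add_right, hs.smul_left, hs.smul_right, RingEquiv.refl_apply, hneg, hneg', t₁, t₂, t₃, t₄, t₅, t₆, t₇, t₈, t₉,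
      hsym v₀₀ v₀₁, hsym v₁₁ v₀₀, hsym v₀₀ v₁₀', hsym v₁₁ v₀₁, hsym v₁₁ v₁₀', hsym v₁₀' v₀₁, h₀₁]
    ring
  have hinj : Function.Injective Φ := by
    rw [← LinearMap.ker_eq_bot, LinearMap.ker_eq_bot']
    intro z hz
    have hz' := hz
    rw [hΦ] at hz'
    have key : ∀ d₀ d₁ d₂ d₃ : F, z (e₄.symm (0, 0)) * d₃ + z (e₄.symm (1, 1)) * d₀ - z (e₄.symm (0, 1)) * d₂ - z (e₄.symm (1, 0)) * d₁ = 0 := by
      intro d₀ d₁ d₂ d₃
      rw [← hval, hz']
      have := hs.smul_left 0 (0 : Fin 4 → F) (d₀ • v₀₀ + d₁ • v₀₁ + d₂ • (- v₁₀') + d₃ • v₁₁)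
      simpa using this
    have h₀ := key 0 0 0 1
    have h₁ := key 1 0 0 0
    have h₃ := key 0 0 1 0
    have h₄ := key 0 1 0 0
    simp at h₀ h₁ h₃ h₄
    funext i
    obtain ⟨⟨j, k⟩, rfl⟩ := e₄.symm.surjective i
    fin_cases j <;> fin_cases k
    · exact h₀
    · exact h₃
    · exact h₄
    · exact h₁
  obtain ⟨N, hN⟩ := exists_gl_of_injective Φ hinj
  refine ⟨N, fun a a' b b' => ?_⟩
  have hTT : ∀ a b, TT e₄ N a b = (a 0 * b 0) • v₀₀ + (a 0 * b 1) • v₀₁ + (a 1 * b 0) • (- v₁₀') + (a 1 * b 1) • v₁₁ := by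
    intro a b
    unfold TT
    rw [hN, hΦ]
    simp [pureT]
  rw [hTT, hTT, hval]
  simp only [om]
  ring

/-- Singular vectors are pure tensors. -/
theorem exists_pure (h2 : (2 : F) ≠ 0) {g : (Fin 4 → F) → (Fin 4 → F) → F} (hg : HF (RingEquiv.refl F) 1 g) (N : GL (Fin 4) F)
    (hlaw : ∀ a a' b b', g (TT e₄ N a b) (TT e₄ N a' b') = om a a' * om b b') {y : Fin 4 → F} (hy : g y y = 0) :
    ∃ p q, y = TT e₄ N p q := by
  classical
  have hs := hg.sesq
  obtain ⟨z, rfl⟩ := exists_coord e₄ N y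
  let δ : Fin 2 → (Fin 2 → F) := fun i => Pi.single i 1
  have hexp : (N : Matrix (Fin 4) (Fin 4) F) *ᵥ (z ∘ e₄) = z (0, 0) • TT e₄ N (δ 0) (δ 0) + z (0, 1) • TT e₄ N (δ 0) (δ 1) +
      z (1, 0) • TT e₄ N (δ 1) (δ 0) + z (1, 1) • TT e₄ N (δ 1) (δ 1) := by
    unfold TT
    simp only [← Matrix.mulVec_smul, ← Matrix.mulVec_add]
    congr 1
    funext i
    obtain ⟨⟨j, k⟩, hjk⟩ : ∃ c, e₄ i = c := ⟨_, rfl⟩
    fin_cases j <;> fin_cases k <;> simp [pureT, hjk, δ]
  have hω : ∀ i k : Fin 2, om (δ i) (δ k) = if i = 0 ∧ k = 1 then 1 else if i = 1 ∧ k = 0 then -1 else 0 := by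
    intro i k
    fin_cases i <;> fin_cases k <;> simp [om, δ]
  have hdet : z (0, 0) * z (1, 1) = z (0, 1) * z (1, 0) := by
    rw [hexp] at hy
    simp only [hs.add_left, hs.add_right, hs.smul_left, hs.smul_right, RingEquiv.refl_apply, hlaw, hω] at hy
    simp at hy
    have h3 : (2 : F) * (z (0, 0) * z (1, 1) - z (0, 1) * z (1, 0)) = 0 := by linear_combination hy
    exact sub_eq_zero.1 ((mul_eq_zero.1 h3).resolve_left h2)
  -- the explicit factorisation
  have hfac : ∃ p q : Fin 2 → F, ∀ c, z c = p c.1 * q c.2 := by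
    by_cases h0 : z (0, 0) = 0
    · rw [h0, zero_mul] at hdet
      rcases mul_eq_zero.1 hdet.symm with h1 | h1
      · refine ⟨![0, 1], ![z (1, 0), z (1, 1)], ?_⟩
        rintro ⟨j, k⟩
        fin_cases j <;> fin_cases k <;> simp [h0, h1]
      · refine ⟨![z (0, 1), z (1, 1)], ![0, 1], ?_⟩
        rintro ⟨j, k⟩
        fin_cases j <;> fin_cases k <;> simp [h0, h1]
    · refine ⟨![z (0, 0), z (1, 0)], ![1, z (0, 1) / z (0, 0)], ?_⟩
      rintro ⟨j, k⟩
      fin_cases j <;> fin_cases k <;> simp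
      · field_simp
      · field_simp
        linear_combination hdet
  obtain ⟨p, q, hpq⟩ := hfac
  refine ⟨p, q, ?_⟩
  unfold TT
  congr 1
  funext i
  simp only [Function.comp_apply, pureT]
  exact hpq (e₄ i)

end Frame

end Cfsg.Agent.Lib.CmaxE.Ten34
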