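import Mathlib
import Cfsg.Agent.Lib.CmaxE.Ten34

/-!
# Tensor decompositions with factors of dimensions three and four, part two

The parity of maximal totally singular subspaces forces the factor of dimension four to split.
-/

set_option autoImplicit false

namespace Cfsg.Agent.Lib.CmaxE.Ten34

open Matrix Module Cfsg Cfsg.Geo
open Cfsg.Agent.Lib.Geo.Basic Cfsg.Agent.Lib.Geo.Polar Cfsg.Agent.Lib.Geo.QForm
open Cfsg.Agent.Lib.GeoOmega.Basic Cfsg.Agent.Lib.AschF.OmegaP Cfsg.Agent.Lib.QuadFn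
open Cfsg.Agent.Lib.GeoOmega.Nondeg Cfsg.Agent.Lib.GeoOmega.NondegW Cfsg.Agent.Lib.GeoOmega.Singular
open Cfsg.Agent.Lib.NotMax.Tensor (TT pureT TT_add_left TT_add_right TT_smul_left TT_smul_right TT_ne_zero span_TT exists_coord ext_TT kronecker_mulVec_pure pureT_unique)
open Cfsg.Agent.Lib.AschF.Adj (HF)
open Cfsg.Agent.Lib.AschF.OddA (polar_isom Q_isom card_eq_of_decomp hf_polar)
open Cfsg.Agent.Lib.Asch.Kr (kr kr_mul kr_one kr_mulVec mem_tensorProductSubgroup exists_kr_of_normalises)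
open Cfsg.Agent.Lib.CmaxE.Core Cfsg.Agent.Lib.CmaxE.Proper Cfsg.Agent.Lib.CmaxE.Plus Cfsg.Agent.Lib.CmaxE.Ten
open Cfsg.Agent.Lib.CmaxE.Common Cfsg.Agent.Lib.CmaxE.Five Cfsg.Agent.Lib.CmaxE.Six

universe u

section Rul

variable {F : Type u} [Field F] [Fintype F] (e₄ : Fin 4 ≃ Fin 2 × Fin 2)

/-- Pure tensors determine the pure tensor in the coordinates. -/
theorem pure_comp_inj {a a' b b' : Fin 2 → F} (h : pureT a b ∘ e₄ = pureT a' b' ∘ e₄) : pureT a b = pureT a' b' := by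
  funext c
  have := congrFun h (e₄.symm c)
  simpa using this

/-- Cramer in dimension two. -/
theorem cramer {q₁ q₂ : Fin 2 → F} (hD : om q₁ q₂ ≠ 0) (q : Fin 2 → F) : ∃ s t : F, q = s • q₁ + t • q₂ := by
  refine ⟨om q q₂ / om q₁ q₂, om q₁ q / om q₁ q₂, ?_⟩
  have key : ∀ x y : F, x / om q₁ q₂ * y = x * y / om q₁ q₂ := fun x y => div_mul_eq_mul_div x _ y
  funext i
  simp only [Pi.add_apply, Pi.smul_apply, smul_eq_mul]
  rw [key, key, ← add_div, eq_div_iff hD]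
  simp only [om]
  fin_cases i <;> simp <;> ring

/-- A linear map in the first variable. -/
def LT (N : GL (Fin 4) F) (b : Fin 2 → F) : (Fin 2 → F) →ₗ[F] (Fin 4 → F) where
  toFun a := TT e₄ N a b
  map_add' a a' := TT_add_left e₄ N a a' b
  map_smul' c a := TT_smul_left e₄ N c a b

theorem LT_apply (N : GL (Fin 4) F) (b a : Fin 2 → F) : LT e₄ N b a = TT e₄ N a b := rfl

/-- Elements of the split orthogonal group of dimension four which fix the parity preserve the lines of one ruling. -/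
theorem rul_of_parity (h2 : (2 : F) ≠ 0) {g : (Fin 4 → F) → (Fin 4 → F) → F} (hg : HF (RingEquiv.refl F) 1 g) (N : GL (Fin 4) F)
    (hlaw : ∀ a a' b b', g (TT e₄ N a b) (TT e₄ N a' b') = om a a' * om b b') (β : GL (Fin 4) F)
    (hsim : ∀ y y', g y y' = 0 → g ((β : Matrix (Fin 4) (Fin 4) F) *ᵥ y) ((β : Matrix (Fin 4) (Fin 4) F) *ᵥ y') = 0)
    (hpar : ∀ Y : Submodule F (Fin 4 → F), (∀ u ∈ Y, ∀ u' ∈ Y, g u u' = 0) → finrank F Y = 2 →
      Even (finrank F (Y ⊓ Y.map (Matrix.toLin' (β : Matrix (Fin 4) (Fin 4) F)) : Submodule F (Fin 4 → F)))) :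
    ∀ b : Fin 2 → F, b ≠ 0 → ∃ b' : Fin 2 → F, ∀ a : Fin 2 → F, ∃ a' : Fin 2 → F, (β : Matrix (Fin 4) (Fin 4) F) *ᵥ TT e₄ N a b = TT e₄ N a' b' := by
  classical
  intro b hb
  let δ : Fin 2 → (Fin 2 → F) := fun i => Pi.single i 1
  have hδ0 : ∀ i, δ i ≠ 0 := by
    intro i h
    have := congrFun h i
    simp [δ] at this
  have hsum : ∀ a : Fin 2 → F, a = a 0 • δ 0 + a 1 • δ 1 := by
    intro a
    funext i
    fin_cases i <;> simp [δ]
  have hβne : ∀ {y : Fin 4 → F}, y ≠ 0 → (β : Matrix (Fin 4) (Fin 4) F) *ᵥ y ≠ 0 := by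
    intro y hy h0
    apply hy
    rw [← inv_mulVec_mulVec β y, h0, Matrix.mulVec_zero]
  have hT0 : ∀ {p q : Fin 2 → F}, TT e₄ N p q ≠ 0 → p ≠ 0 ∧ q ≠ 0 := by
    intro p q h
    constructor
    · rintro rfl
      apply h
      have := TT_smul_left e₄ N 0 (0 : Fin 2 → F) q
      simpa using this
    · rintro rfl
      apply h
      have := TT_smul_right e₄ N 0 p (0 : Fin 2 → F)
      simpa using this
  have hinj : Function.Injective (LT e₄ N b) := by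
    rw [← LinearMap.ker_eq_bot, LinearMap.ker_eq_bot']
    intro a ha
    by_contra ha0
    exact TT_ne_zero e₄ N ha0 hb ha
  set Y := LinearMap.range (LT e₄ N b) with hY
  have hYd : finrank F Y = 2 := by
    rw [hY, LinearMap.finrank_range_of_inj hinj]
    simp
  have hYts : ∀ u ∈ Y, ∀ u' ∈ Y, g u u' = 0 := by
    rintro _ ⟨a, rfl⟩ _ ⟨a', rfl⟩
    rw [LT_apply, LT_apply, hlaw, om_self, mul_zero]
  have hpt := hpar Y hYts hYd
  have hy₀ : g ((β : Matrix (Fin 4) (Fin 4) F) *ᵥ TT e₄ N (δ 0) b) ((β : Matrix (Fin 4) (Fin 4) F) *ᵥ TT e₄ N (δ 0) b) = 0 :=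
    hsim _ _ (by rw [hlaw, om_self (δ 0), zero_mul])
  have hy₁ : g ((β : Matrix (Fin 4) (Fin 4) F) *ᵥ TT e₄ N (δ 1) b) ((β : Matrix (Fin 4) (Fin 4) F) *ᵥ TT e₄ N (δ 1) b) = 0 :=
    hsim _ _ (by rw [hlaw, om_self (δ 1), zero_mul])
  obtain ⟨p₁, q₁, hpq₁⟩ := exists_pure e₄ h2 hg N hlaw hy₀
  obtain ⟨p₂, q₂, hpq₂⟩ := exists_pure e₄ h2 hg N hlaw hy₁
  have hne₁ : TT e₄ N p₁ q₁ ≠ 0 := by
    rw [← hpq₁]
    exact hβne (TT_ne_zero e₄ N (hδ0 0) hb)
  have hne₂ : TT e₄ N p₂ q₂ ≠ 0 := by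
    rw [← hpq₂]
    exact hβne (TT_ne_zero e₄ N (hδ0 1) hb)
  obtain ⟨hp₁, hq₁⟩ := hT0 hne₁
  obtain ⟨hp₂, hq₂⟩ := hT0 hne₂
  have hcross : om p₁ p₂ * om q₁ q₂ = 0 := by
    have h3 := hsim (TT e₄ N (δ 0) b) (TT e₄ N (δ 1) b) (by rw [hlaw, om_self, mul_zero])
    rw [hpq₁, hpq₂, hlaw] at h3
    exact h3
  have hact : ∀ a : Fin 2 → F, (β : Matrix (Fin 4) (Fin 4) F) *ᵥ TT e₄ N a b = a 0 • TT e₄ N p₁ q₁ + a 1 • TT e₄ N p₂ q₂ := by
    intro a
    conv_lhs => rw [hsum a]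
    rw [TT_add_left, TT_smul_left, TT_smul_left, Matrix.mulVec_add, Matrix.mulVec_smul, Matrix.mulVec_smul, hpq₁, hpq₂]
  by_cases hq : om q₁ q₂ = 0
  · obtain ⟨c, rfl⟩ := eq_smul_of_om hq₁ hq
    refine ⟨q₁, fun a => ⟨a 0 • p₁ + (a 1 * c) • p₂, ?_⟩⟩
    rw [hact, TT_smul_right, TT_add_left, TT_smul_left, TT_smul_left, smul_smul]
  · exfalso
    have hp : om p₁ p₂ = 0 := (mul_eq_zero.1 hcross).resolve_right hq
    obtain ⟨c, rfl⟩ := eq_smul_of_om hp₁ hp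
    have hc : c ≠ 0 := by
      rintro rfl
      exact hp₂ (zero_smul _ _)
    set Y' := Y.map (Matrix.toLin' (β : Matrix (Fin 4) (Fin 4) F)) with hY'
    have hy₁Y' : TT e₄ N p₁ q₁ ∈ Y' := by
      rw [← hpq₁]
      exact ⟨_, ⟨δ 0, rfl⟩, rfl⟩
    have hy₂Y' : TT e₄ N (c • p₁) q₂ ∈ Y' := by
      rw [← hpq₂]
      exact ⟨_, ⟨δ 1, rfl⟩, rfl⟩
    have hfY' : finrank F Y' = 2 := by
      rw [hY', finrank_map_toLin', hYd]
    -- the intersection contains a non-zero vector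
    have hmem : TT e₄ N p₁ b ∈ Y ⊓ Y' := by
      refine ⟨⟨p₁, rfl⟩, ?_⟩
      obtain ⟨s, t, hst⟩ := cramer hq b
      have h3 : TT e₄ N p₁ b = s • TT e₄ N p₁ q₁ + (t * c⁻¹) • TT e₄ N (c • p₁) q₂ := by
        rw [hst, TT_add_right, TT_smul_right, TT_smul_right, TT_smul_left, smul_smul]
        congr 2
        field_simp
      rw [h3]
      exact Y'.add_mem (Y'.smul_mem _ hy₁Y') (Y'.smul_mem _ hy₂Y')
    have h0 : finrank F (Y ⊓ Y' : Submodule F (Fin 4 → F)) ≠ 0 := by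
      intro h
      rw [Submodule.finrank_eq_zero] at h
      rw [h] at hmem
      exact TT_ne_zero e₄ N hp₁ hb ((Submodule.mem_bot F).1 hmem)
    have hle2 : finrank F (Y ⊓ Y' : Submodule F (Fin 4 → F)) ≤ 2 := by
      rw [← hYd]
      exact Submodule.finrank_mono inf_le_left
    have hd2 : finrank F (Y ⊓ Y' : Submodule F (Fin 4 → F)) = 2 := by
      obtain ⟨r, hr⟩ := hpt
      omega
    have heq : Y ⊓ Y' = Y' := Submodule.eq_of_le_of_finrank_eq inf_le_right (by rw [hd2, hfY'])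
    have hz₁ : TT e₄ N p₁ q₁ ∈ Y := by
      have : TT e₄ N p₁ q₁ ∈ Y ⊓ Y' := by
        rw [heq]
        exact hy₁Y'
      exact this.1
    have hz₂ : TT e₄ N (c • p₁) q₂ ∈ Y := by
      have : TT e₄ N (c • p₁) q₂ ∈ Y ⊓ Y' := by
        rw [heq]
        exact hy₂Y'
      exact this.1
    obtain ⟨u, hu⟩ := exists_om_ne hp₁
    have h₁ : om q₁ b = 0 := by
      have h3 := hYts _ hz₁ _ (⟨u, rfl⟩ : TT e₄ N u b ∈ Y)
      rw [hlaw] at h3
      exact (mul_eq_zero.1 h3).resolve_left hu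
    have h₂ : om q₂ b = 0 := by
      have h3 := hYts _ hz₂ _ (⟨u, rfl⟩ : TT e₄ N u b ∈ Y)
      rw [hlaw, om_smul_left] at h3
      exact (mul_eq_zero.1 h3).resolve_left (mul_ne_zero hc hu)
    exact hq (om_eq_zero_of_common hb h₁ h₂)

/-- A matrix fixing all the subspaces `F² ⊗ b` is a Kronecker product with the identity. -/
theorem kr_of_fix (Y : Matrix (Fin 4) (Fin 4) F)
    (hY : ∀ b : Fin 2 → F, b ≠ 0 → ∀ a : Fin 2 → F, ∃ a' : Fin 2 → F, Y *ᵥ (pureT a b ∘ e₄) = pureT a' b ∘ e₄) :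
    ∃ r' : Matrix (Fin 2) (Fin 2) F, Y = kr e₄ r' 1 := by
  classical
  let δ : Fin 2 → (Fin 2 → F) := fun i => Pi.single i 1
  have hδ0 : ∀ i, δ i ≠ 0 := by
    intro i h
    have := congrFun h i
    simp [δ] at this
  have hpadd : ∀ (a a' b : Fin 2 → F), pureT (a + a') b ∘ e₄ = pureT a b ∘ e₄ + pureT a' b ∘ e₄ := by
    intro a a' b
    funext i
    simp [pureT, add_mul]
  have hpsmul : ∀ (c : F) (a b : Fin 2 → F), pureT (c • a) b ∘ e₄ = c • (pureT a b ∘ e₄) := by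
    intro c a b
    funext i
    simp [pureT, mul_assoc]
  have hpadd' : ∀ (a b b' : Fin 2 → F), pureT a (b + b') ∘ e₄ = pureT a b ∘ e₄ + pureT a b' ∘ e₄ := by
    intro a b b'
    funext i
    simp [pureT, mul_add]
  have hpsmul' : ∀ (c : F) (a b : Fin 2 → F), pureT a (c • b) ∘ e₄ = c • (pureT a b ∘ e₄) := by
    intro c a b
    funext i
    simp only [pureT, Function.comp_apply, Pi.smul_apply, smul_eq_mul]
    ring
  let ψ : (Fin 2 → F) →ₗ[F] (Fin 2 → F) :=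
    { toFun := fun a i => (Y *ᵥ (pureT a (δ 0) ∘ e₄)) (e₄.symm (i, 0))
      map_add' := fun a a' => by
        funext i
        rw [hpadd, Matrix.mulVec_add]
        rfl
      map_smul' := fun c a => by
        funext i
        rw [hpsmul, Matrix.mulVec_smul]
        rfl }
  let r' := LinearMap.toMatrix' ψ
  have hr' : ∀ a i, (r' *ᵥ a) i = (Y *ᵥ (pureT a (δ 0) ∘ e₄)) (e₄.symm (i, 0)) := by
    intro a i
    simp only [r']
    rw [LinearMap.toMatrix'_mulVec]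
    rfl
  have h₀ : ∀ a, Y *ᵥ (pureT a (δ 0) ∘ e₄) = pureT (r' *ᵥ a) (δ 0) ∘ e₄ := by
    intro a
    obtain ⟨a', ha'⟩ := hY _ (hδ0 0) a
    have h3 : r' *ᵥ a = a' := by
      funext i
      rw [hr', ha']
      simp [pureT, δ]
    rw [h3, ha']
  have h₁ : ∀ a, Y *ᵥ (pureT a (δ 1) ∘ e₄) = pureT (r' *ᵥ a) (δ 1) ∘ e₄ := by
    intro a
    obtain ⟨a₁, ha₁⟩ := hY _ (hδ0 1) a
    have hne : δ 0 + δ 1 ≠ 0 := by
      intro h
      have := congrFun h 0
      simp [δ] at this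
    obtain ⟨a₂, ha₂⟩ := hY _ hne a
    rw [hpadd', Matrix.mulVec_add, h₀, ha₁] at ha₂
    have h3 : r' *ᵥ a = a₂ := by
      funext i
      have := congrFun ha₂ (e₄.symm (i, 0))
      simpa [pureT, δ] using this
    have h4 : a₁ = a₂ := by
      funext i
      have := congrFun ha₂ (e₄.symm (i, 1))
      simpa [pureT, δ] using this
    rw [ha₁, h3, h4]
  refine ⟨r', ?_⟩
  apply ext_TT e₄ (1 : GL (Fin 4) F)
  intro a b
  have hb : b = b 0 • δ 0 + b 1 • δ 1 := by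
    funext i
    fin_cases i <;> simp [δ]
  have hTT : ∀ a b : Fin 2 → F, TT e₄ (1 : GL (Fin 4) F) a b = pureT a b ∘ e₄ := by
    intro a b
    simp [TT]
  rw [hTT, kr_mulVec, kronecker_mulVec_pure, Matrix.one_mulVec]
  conv_lhs => rw [hb, hpadd', hpsmul', hpsmul', Matrix.mulVec_add, Matrix.mulVec_smul, Matrix.mulVec_smul, h₀, h₁]
  conv_rhs => rw [hb, hpadd', hpsmul', hpsmul']

/-- The full matrix algebra acts absolutely irreducibly. -/
theorem absIrr_univ : ActsAbsolutelyIrreducibly (Set.univ : Set (Matrix (Fin 2) (Fin 2) F)) := by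
  classical
  constructor
  · rw [Cfsg.Agent.Lib.Asch.Basic.irr_iff]
    intro W hW
    by_cases h0 : W = ⊥
    · exact Or.inl h0
    · right
      obtain ⟨v, hv, hv0⟩ := Submodule.exists_mem_ne_zero_of_ne_bot h0
      obtain ⟨i, hi⟩ := Function.ne_iff.mp hv0
      rw [eq_top_iff]
      intro u _
      let s : Matrix (Fin 2) (Fin 2) F := Matrix.of fun k l => if l = i then u k / v i else 0
      have h3 : s *ᵥ v = u := by
        funext k
        simp only [Matrix.mulVec, dotProduct, s, Matrix.of_apply]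
        rw [Finset.sum_eq_single i]
        · simp only [if_true]
          have hi' : v i ≠ 0 := hi
          field_simp
        · intro l _ hl
          simp [hl]
        · simp
      rw [← h3]
      exact hW s trivial v hv
  · intro M hM
    have h3 : M ∈ Set.range (Matrix.scalar (Fin 2) : F →+* Matrix (Fin 2) (Fin 2) F) := by
      rw [Matrix.mem_range_scalar_iff_commute_single']
      intro i j
      exact (hM _ trivial).symm
    obtain ⟨c, hc⟩ := h3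
    refine ⟨c, ?_⟩
    rw [← hc]
    ext i j
    simp [Matrix.scalar_apply, Matrix.smul_apply, Matrix.one_apply, Matrix.diagonal_apply]

/-- Invertible matrices permuting the subspaces `F² ⊗ b` are Kronecker products. -/
theorem kr_of_rul (T : GL (Fin 4) F)
    (hT : ∀ b : Fin 2 → F, b ≠ 0 → ∃ b' : Fin 2 → F, ∀ a : Fin 2 → F, ∃ a' : Fin 2 → F, (T : Matrix (Fin 4) (Fin 4) F) *ᵥ (pureT a b ∘ e₄) = pureT a' b' ∘ e₄)
    (hT' : ∀ b : Fin 2 → F, b ≠ 0 → ∃ b' : Fin 2 → F, ∀ a : Fin 2 → F, ∃ a' : Fin 2 → F, ((T⁻¹ : GL (Fin 4) F) : Matrix (Fin 4) (Fin 4) F) *ᵥ (pureT a b ∘ e₄) = pureT a' b' ∘ e₄) :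
    ∃ (γ δ : GL (Fin 2) F), (T : Matrix (Fin 4) (Fin 4) F) = kr e₄ γ δ := by
  classical
  have hdet : IsUnit (T : Matrix (Fin 4) (Fin 4) F).det := (Matrix.isUnit_iff_isUnit_det _).1 T.isUnit
  refine exists_kr_of_normalises e₄ (T : Matrix (Fin 4) (Fin 4) F) hdet Set.univ absIrr_univ fun r _ => ?_
  let ε : Fin 2 → F := Pi.single 0 1
  have hε : ε ≠ 0 := by
    intro h
    have := congrFun h 0
    simp [ε] at this
  have hpure_ne : ∀ {a b : Fin 2 → F}, a ≠ 0 → b ≠ 0 → pureT a b ∘ e₄ ≠ 0 := by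
    intro a b ha hb h0
    obtain ⟨i, hi⟩ := Function.ne_iff.mp ha
    obtain ⟨j, hj⟩ := Function.ne_iff.mp hb
    have := congrFun h0 (e₄.symm (i, j))
    simp only [Function.comp_apply, Equiv.apply_symm_apply, pureT, Pi.zero_apply] at this
    exact mul_ne_zero hi hj this
  have hTne : ∀ (S : GL (Fin 4) F) {v : Fin 4 → F}, v ≠ 0 → (S : Matrix (Fin 4) (Fin 4) F) *ᵥ v ≠ 0 := by
    intro S v hv h0
    apply hv
    rw [← inv_mulVec_mulVec S v, h0, Matrix.mulVec_zero]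
  obtain ⟨r', hr'⟩ := kr_of_fix e₄ ((T : Matrix (Fin 4) (Fin 4) F) * kr e₄ r 1 * ((T⁻¹ : GL (Fin 4) F) : Matrix (Fin 4) (Fin 4) F)) (by
    intro b hb a
    obtain ⟨b₁, hb₁⟩ := hT' b hb
    have hb₁0 : b₁ ≠ 0 := by
      rintro rfl
      obtain ⟨a', ha'⟩ := hb₁ ε
      apply hTne T⁻¹ (hpure_ne hε hb)
      rw [ha']
      funext i
      simp [pureT]
    obtain ⟨b₂, hb₂⟩ := hT b₁ hb₁0
    -- `b₂` is proportional to `b`
    obtain ⟨a₀, ha₀⟩ := hb₁ ε
    obtain ⟨a₀', ha₀'⟩ := hb₂ a₀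
    have h3 : pureT ε b ∘ e₄ = pureT a₀' b₂ ∘ e₄ := by
      rw [← ha₀', ← ha₀, mulVec_inv_mulVec]
    obtain ⟨s, hs, -, hbs⟩ := pureT_unique hε hb (pure_comp_inj e₄ h3)
    obtain ⟨a₁, ha₁⟩ := hb₁ a
    obtain ⟨a₂, ha₂⟩ := hb₂ (r *ᵥ a₁)
    refine ⟨s⁻¹ • a₂, ?_⟩
    rw [← Matrix.mulVec_mulVec, ← Matrix.mulVec_mulVec, ha₁, kr_mulVec, kronecker_mulVec_pure, Matrix.one_mulVec, ha₂, hbs]
    funext i
    simp only [Function.comp_apply, pureT, Pi.smul_apply, smul_eq_mul]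
    field_simp)
  refine ⟨r', ?_⟩
  rw [← hr', mul_assoc, mul_assoc, ← Matrix.GeneralLinearGroup.coe_mul, inv_mul_cancel, Matrix.GeneralLinearGroup.coe_one, mul_one]

end Rul

end Cfsg.Agent.Lib.CmaxE.Ten34
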