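import Mathlib
import Cfsg.Agent.Lib.CmaxE.Ten34b

/-!
# Tensor decompositions with factors of dimensions three and four, part three

The group lies in the stabiliser of a tensor decomposition into symplectic factors of dimensions two and six.
-/

set_option autoImplicit false

namespace Cfsg.Agent.Lib.CmaxE.Ten34

open Matrix Module Cfsg Cfsg.Geo
open Cfsg.Agent.Lib.Geo.Basic Cfsg.Agent.Lib.Geo.Polar Cfsg.Agent.Lib.Geo.QForm
open Cfsg.Agent.Lib.GeoOmega.Basic Cfsg.Agent.Lib.AschF.OmegaP Cfsg.Agent.Lib.QuadFn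
open Cfsg.Agent.Lib.GeoOmega.Nondeg Cfsg.Agent.Lib.GeoOmega.NondegW Cfsg.Agent.Lib.GeoOmega.Singular
open Cfsg.Agent.Lib.NotMax.Tensor (TT pureT TT_add_left TT_add_right TT_smul_left TT_smul_right TT_ne_zero span_TT exists_coord ext_TT kronecker_mulVec_pure pureT_unique)
open Cfsg.Agent.Lib.AschF.Adj (HF)
open Cfsg.Agent.Lib.AschF.OddA (polar_isom Q_isom card_eq_of_decomp hf_polar)
open Cfsg.Agent.Lib.Asch.Kr (kr kr_mul kr_one kr_mulVec mem_tensorProductSubgroup exists_kr_of_normalises)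
open Cfsg.Agent.Lib.CmaxE.Core Cfsg.Agent.Lib.CmaxE.Proper Cfsg.Agent.Lib.CmaxE.Plus Cfsg.Agent.Lib.CmaxE.Ten
open Cfsg.Agent.Lib.CmaxE.Common Cfsg.Agent.Lib.CmaxE.Five Cfsg.Agent.Lib.CmaxE.Six

universe u

variable {ι : Type} [Fintype ι] [DecidableEq ι] {F : Type u} [Field F] [Fintype F] {Q : (ι → F) → F}

section Ind

variable (e : ι ≃ Fin 3 × Fin 4) (P : GL ι F)

/-- The slices of a vector along the first factor. -/
def sl (v : ι → F) (i : Fin 3) : Fin 4 → F := fun j => (((P⁻¹ : GL ι F) : Matrix ι ι F) *ᵥ v) (e.symm (i, j))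

theorem sl_add (u v : ι → F) (i : Fin 3) : sl e P (u + v) i = sl e P u i + sl e P v i := by
  funext j
  simp [sl, Matrix.mulVec_add]

theorem sl_smul (c : F) (v : ι → F) (i : Fin 3) : sl e P (c • v) i = c • sl e P v i := by
  funext j
  simp [sl, Matrix.mulVec_smul]

theorem sl_zero (i : Fin 3) : sl e P 0 i = 0 := by
  funext j
  simp [sl]

theorem sl_TT (x : Fin 3 → F) (y : Fin 4 → F) (i : Fin 3) : sl e P (TT e P x y) i = x i • y := by
  funext j
  simp [sl, TT, inv_mulVec_mulVec, pureT]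

theorem eq_sum_sl (v : ι → F) : v = ∑ i, TT e P (Pi.single i 1) (sl e P v i) := by
  unfold TT
  rw [← Matrix.mulVec_sum]
  have h1 : ∑ i, (pureT (Pi.single i 1) (sl e P v i) ∘ e) = ((P⁻¹ : GL ι F) : Matrix ι ι F) *ᵥ v := by
    funext k
    simp only [Finset.sum_apply, Function.comp_apply, pureT]
    rw [Finset.sum_eq_single (e k).1]
    · simp [sl]
    · intro i _ hi
      simp [Pi.single_apply, Ne.symm hi]
    · simp
  rw [h1, mulVec_inv_mulVec]

/-- Tensors with a fixed subspace of the second factor. -/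
def Ind (Y : Submodule F (Fin 4 → F)) : Submodule F (ι → F) where
  carrier := {v | ∀ i, sl e P v i ∈ Y}
  add_mem' := by
    intro u v hu hv i
    rw [sl_add]
    exact Y.add_mem (hu i) (hv i)
  zero_mem' := by
    intro i
    rw [sl_zero]
    exact Y.zero_mem
  smul_mem' := by
    intro c v hv i
    rw [sl_smul]
    exact Y.smul_mem c (hv i)

theorem mem_Ind {Y : Submodule F (Fin 4 → F)} {v : ι → F} : v ∈ Ind e P Y ↔ ∀ i, sl e P v i ∈ Y := Iff.rfl

theorem TT_mem_Ind {Y : Submodule F (Fin 4 → F)} (x : Fin 3 → F) {y : Fin 4 → F} (hy : y ∈ Y) : TT e P x y ∈ Ind e P Y := by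
  intro i
  rw [sl_TT]
  exact Y.smul_mem _ hy

theorem Ind_inf (Y₁ Y₂ : Submodule F (Fin 4 → F)) : Ind e P Y₁ ⊓ Ind e P Y₂ = Ind e P (Y₁ ⊓ Y₂) := by
  ext v
  simp only [Submodule.mem_inf, mem_Ind]
  exact forall_and.symm

theorem finrank_Ind (Y : Submodule F (Fin 4 → F)) : finrank F (Ind e P Y) = 3 * finrank F Y := by
  classical
  let L : (Fin 3 → Y) →ₗ[F] (ι → F) :=
    { toFun := fun w => ∑ i, TT e P (Pi.single i 1) (w i : Fin 4 → F)
      map_add' := fun w w' => by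
        simp only [Pi.add_apply, Submodule.coe_add, TT_add_right, Finset.sum_add_distrib]
      map_smul' := fun c w => by
        simp only [Pi.smul_apply, Submodule.coe_smul, TT_smul_right, RingHom.id_apply, Finset.smul_sum] }
  have hLa : ∀ w, L w = ∑ i, TT e P (Pi.single i 1) (w i : Fin 4 → F) := fun _ => rfl
  have hsl : ∀ w k, sl e P (L w) k = (w k : Fin 4 → F) := by
    intro w k
    rw [hLa]
    have hsum : ∀ s : Finset (Fin 3), sl e P (∑ i ∈ s, TT e P (Pi.single i 1) (w i : Fin 4 → F)) k =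
        ∑ i ∈ s, sl e P (TT e P (Pi.single i 1) (w i : Fin 4 → F)) k := by
      intro s
      induction s using Finset.induction_on with
      | empty => simp [sl_zero]
      | insert a s ha ih => rw [Finset.sum_insert ha, Finset.sum_insert ha, sl_add, ih]
    rw [hsum, Finset.sum_eq_single k]
    · rw [sl_TT]
      simp
    · intro i _ hi
      rw [sl_TT]
      simp [Pi.single_apply, Ne.symm hi]
    · simp
  have hinj : Function.Injective L := by
    intro w w' h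
    funext k
    apply Subtype.ext
    rw [← hsl w k, ← hsl w' k, h]
  have hrange : LinearMap.range L = Ind e P Y := by
    apply le_antisymm
    · rintro _ ⟨w, rfl⟩
      intro k
      rw [hsl]
      exact (w k).2
    · intro v hv
      refine ⟨fun i => ⟨sl e P v i, hv i⟩, ?_⟩
      rw [hLa]
      exact (eq_sum_sl e P v).symm
  rw [← hrange, LinearMap.finrank_range_of_inj hinj, Module.finrank_pi_fintype]
  simp

end Ind

variable (hQ : IsNondegenerateQuadraticForm Q)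
include hQ

/-- The parity of maximal totally singular subspaces passes to the factor of dimension four. -/
theorem parity_factor (h2 : (2 : F) ≠ 0) (e : ι ≃ Fin 3 × Fin 4) (P : GL ι F)
    {f₁ : (Fin 3 → F) → (Fin 3 → F) → F} {f₂ : (Fin 4 → F) → (Fin 4 → F) → F}
    (hlaw : ∀ x x' y y', pol Q (TT e P x y) (TT e P x' y') = f₁ x x' * f₂ y y') {h : GL ι F} (hO : h ∈ omegaGL Q)
    {α : GL (Fin 3) F} {β : GL (Fin 4) F} (hαβ : (h : Matrix ι ι F) * (P : Matrix ι ι F) = (P : Matrix ι ι F) * kr e α β)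
    (Y : Submodule F (Fin 4 → F)) (hY : ∀ u ∈ Y, ∀ u' ∈ Y, f₂ u u' = 0) (hd : finrank F Y = 2) :
    Even (finrank F (Y ⊓ Y.map (Matrix.toLin' (β : Matrix (Fin 4) (Fin 4) F)) : Submodule F (Fin 4 → F))) := by
  classical
  have hcard : Fintype.card ι = 12 := by
    rw [Fintype.card_congr e]
    simp
  -- totally singular
  let S : Set (ι → F) := {v | ∃ x, ∃ y ∈ Y, v = TT e P x y}
  have hS1 : ∀ s ∈ S, Q s = 0 := by
    rintro _ ⟨x, y, hy, rfl⟩
    have h1 := hlaw x x y y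
    rw [pol_self hQ, hY y hy y hy, mul_zero] at h1
    exact (mul_eq_zero.1 h1).resolve_left h2
  have hS2 : ∀ s ∈ S, ∀ s' ∈ S, pol Q s s' = 0 := by
    rintro _ ⟨x, y, hy, rfl⟩ _ ⟨x', y', hy', rfl⟩
    rw [hlaw, hY y hy y' hy', mul_zero]
  have hts := ts_span hQ S hS1 hS2
  have hTS : MaxSingular.TS Q (Ind e P Y) := by
    intro v hv
    apply hts
    rw [eq_sum_sl e P v]
    exact Submodule.sum_mem _ fun i _ => Submodule.subset_span ⟨_, _, hv i, rfl⟩
  have hfU : finrank F (Ind e P Y) = 6 := by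
    rw [finrank_Ind, hd]
  have hact := fun x y => TT_of_kr e P h _ _ hαβ x y
  have hmap : (Ind e P Y).map (Matrix.toLin' (h : Matrix ι ι F)) = Ind e P (Y.map (Matrix.toLin' (β : Matrix (Fin 4) (Fin 4) F))) := by
    apply Submodule.eq_of_le_of_finrank_eq
    · rintro _ ⟨v, hv, rfl⟩
      rw [Matrix.toLin'_apply, eq_sum_sl e P v, Matrix.mulVec_sum]
      refine Submodule.sum_mem _ fun i _ => ?_
      rw [hact]
      exact TT_mem_Ind e P _ ⟨_, hv i, rfl⟩
    · rw [finrank_map_toLin', hfU, finrank_Ind, finrank_map_toLin', hd]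
  have hev := even_of_mem_omegaGL hQ hTS (by rw [hfU, hcard]) hO
  rw [hmap, Ind_inf, hfU, finrank_Ind] at hev
  have hle : finrank F (Y ⊓ Y.map (Matrix.toLin' (β : Matrix (Fin 4) (Fin 4) F)) : Submodule F (Fin 4 → F)) ≤ 2 := by
    rw [← hd]
    exact Submodule.finrank_mono inf_le_left
  obtain ⟨r, hr⟩ := hev
  rw [Nat.even_iff]
  omega

omit hQ in
/-- Kronecker products of invertible matrices. -/
theorem exists_krGL {κ : Type} [Fintype κ] [DecidableEq κ] {a b : ℕ} (e : κ ≃ Fin a × Fin b) (α : GL (Fin a) F) (β : GL (Fin b) F) :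
    ∃ K : GL κ F, (K : Matrix κ κ F) = kr e α β :=
  ⟨⟨kr e α β, kr e ((α⁻¹ : GL (Fin a) F) : Matrix (Fin a) (Fin a) F) ((β⁻¹ : GL (Fin b) F) : Matrix (Fin b) (Fin b) F),
    by rw [kr_mul, ← Units.val_mul, ← Units.val_mul, mul_inv_cancel, mul_inv_cancel, Units.val_one, Units.val_one, kr_one],
    by rw [kr_mul, ← Units.val_mul, ← Units.val_mul, inv_mul_cancel, inv_mul_cancel, Units.val_one, Units.val_one, kr_one]⟩, rfl⟩

/-- The reindexing from a product of three factors. -/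
def eTwoSix (e : ι ≃ Fin 3 × Fin 4) (e₄ : Fin 4 ≃ Fin 2 × Fin 2) (e₆ : Fin 6 ≃ Fin 3 × Fin 2) : ι ≃ Fin 2 × Fin 6 where
  toFun i := ((e₄ (e i).2).1, e₆.symm ((e i).1, (e₄ (e i).2).2))
  invFun c := e.symm ((e₆ c.2).1, e₄.symm (c.1, (e₆ c.2).2))
  left_inv i := by simp
  right_inv c := by simp

/-- Tensor decompositions of plus type with factors of dimensions three and four lie in tensor decompositions with symplectic
factors of dimensions two and six. -/
theorem ten34 (h2 : (2 : F) ≠ 0) (hplus : IsPlusTypeOn Q ⊤) {H : Subgroup (GL ι F)} (hHO : H ≤ omegaGL Q)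
    (e : ι ≃ Fin 3 × Fin 4) (P : GL ι F) {f₁ : (Fin 3 → F) → (Fin 3 → F) → F} {f₂ : (Fin 4 → F) → (Fin 4 → F) → F}
    (hf₁ : HF (RingEquiv.refl F) 1 f₁) (hf₂ : HF (RingEquiv.refl F) 1 f₂)
    (hlaw : ∀ x x' y y', pol Q (TT e P x y) (TT e P x' y') = f₁ x x' * f₂ y y')
    (hmem : ∀ h ∈ H, ∃ (α : GL (Fin 3) F) (β : GL (Fin 4) F), (h : Matrix ι ι F) * (P : Matrix ι ι F) = (P : Matrix ι ι F) * kr e α β) :
    ∃ (e' : ι ≃ Fin 2 × Fin 6) (P' : GL ι F) (f₁' : (Fin 2 → F) → (Fin 2 → F) → F) (f₂' : (Fin 6 → F) → (Fin 6 → F) → F),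
      IsSymplecticForm f₁' ∧ IsSymplecticForm f₂' ∧ IsTensorFormStructure id (QuadraticMap.polar Q) f₁' f₂' e' P' ∧
      (∀ (x₁ : Fin 2 → F) (x₂ : Fin 6 → F), Q ((P' : Matrix ι ι F) *ᵥ ((fun a : Fin 2 × Fin 6 => x₁ a.1 * x₂ a.2) ∘ e')) = 0) ∧
      H ≤ tensorProductSubgroup 2 6 e' P' := by
  classical
  obtain ⟨U, hU, hd⟩ := factor_plus hQ h2 hplus e P hf₁ hf₂ hlaw
  obtain ⟨e₄⟩ : Nonempty (Fin 4 ≃ Fin 2 × Fin 2) := ⟨Fintype.equivOfCardEq (by simp)⟩
  obtain ⟨e₆⟩ : Nonempty (Fin 6 ≃ Fin 3 × Fin 2) := ⟨Fintype.equivOfCardEq (by simp)⟩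
  obtain ⟨N, hN⟩ := exists_frame4 e₄ h2 hf₂ U hU hd
  obtain ⟨K, hK⟩ := exists_krGL e (1 : GL (Fin 3) F) N
  have hK1 : (K : Matrix ι ι F) = kr e 1 (N : Matrix (Fin 4) (Fin 4) F) := by
    rw [hK, Matrix.GeneralLinearGroup.coe_one]
  set e' := eTwoSix e e₄ e₆ with he'
  set P' : GL ι F := P * K with hP'
  have hP'v : (P' : Matrix ι ι F) = (P : Matrix ι ι F) * kr e 1 (N : Matrix (Fin 4) (Fin 4) F) := by
    rw [hP', Matrix.GeneralLinearGroup.coe_mul, hK1]
  -- pure tensors in the two decompositions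
  have hTT : ∀ (a b : Fin 2 → F) (x : Fin 3 → F), TT e' P' a (pureT x b ∘ e₆) = TT e P x (TT e₄ N a b) := by
    intro a b x
    have h3 : pureT a (pureT x b ∘ e₆) ∘ e' = pureT x (pureT a b ∘ e₄) ∘ e := by
      funext i
      simp only [he', eTwoSix, Function.comp_apply, pureT, Equiv.coe_fn_mk, Equiv.apply_symm_apply]
      ring
    unfold TT
    rw [h3, hP'v, ← Matrix.mulVec_mulVec, kr_mulVec, kronecker_mulVec_pure, Matrix.one_mulVec]
  have hTT6 : ∀ (x : Fin 3 → F) (b : Fin 2 → F), TT e₆ (1 : GL (Fin 6) F) x b = pureT x b ∘ e₆ := by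
    intro x b
    simp [TT]
  let a₀ : Fin 2 → F := ![1, 0]
  let a₁ : Fin 2 → F := ![0, 1]
  have ha₀ : a₀ ≠ 0 := by
    intro h
    have := congrFun h 0
    simp [a₀] at this
  have hom : om a₀ a₁ = 1 := by
    simp [om, a₀, a₁]
  let f₂' : (Fin 6 → F) → (Fin 6 → F) → F := fun y y' => pol Q (TT e' P' a₀ y) (TT e' P' a₁ y')
  have hf₂'a : ∀ y y', f₂' y y' = pol Q (TT e' P' a₀ y) (TT e' P' a₁ y') := fun _ _ => rfl
  have hpure : ∀ (a a' b b' : Fin 2 → F) (x x' : Fin 3 → F), pol Q (TT e' P' a (pureT x b ∘ e₆)) (TT e' P' a' (pureT x' b' ∘ e₆)) =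
      f₁ x x' * (om a a' * om b b') := by
    intro a a' b b' x x'
    rw [hTT, hTT, hlaw, hN]
  have hlaw' : ∀ a a' y y', pol Q (TT e' P' a y) (TT e' P' a' y') = om a a' * f₂' y y' := by
    intro a a' y
    refine span_TT e₆ (1 : GL (Fin 6) F) (fun y => ∀ y', pol Q (TT e' P' a y) (TT e' P' a' y') = om a a' * f₂' y y') ?_ ?_ ?_ y
    · intro y'
      rw [hf₂'a]
      have h3 : ∀ c, TT e' P' c (0 : Fin 6 → F) = 0 := by
        intro c
        have := TT_smul_right e' P' 0 c (0 : Fin 6 → F)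
        simpa using this
      rw [h3, h3, pol_zero_left hQ, pol_zero_left hQ, mul_zero]
    · intro u v hu hv y'
      simp only [hf₂'a] at hu hv ⊢
      rw [TT_add_right, TT_add_right, pol_add_left hQ, pol_add_left hQ, hu, hv]
      ring
    · intro x b y'
      rw [hTT6]
      refine span_TT e₆ (1 : GL (Fin 6) F) (fun y' => pol Q (TT e' P' a (pureT x b ∘ e₆)) (TT e' P' a' y') = om a a' * f₂' (pureT x b ∘ e₆) y') ?_ ?_ ?_ y'
      · rw [hf₂'a]
        have h3 : ∀ c, TT e' P' c (0 : Fin 6 → F) = 0 := by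
          intro c
          have := TT_smul_right e' P' 0 c (0 : Fin 6 → F)
          simpa using this
        rw [h3, h3, pol_zero_right hQ, pol_zero_right hQ, mul_zero]
      · intro u v hu hv
        simp only [hf₂'a] at hu hv ⊢
        rw [TT_add_right, TT_add_right, pol_add_right hQ, pol_add_right hQ, hu, hv]
        ring
      · intro x' b'
        rw [hTT6, hf₂'a, hpure, hpure, hom]
        ring
  have hskew : ∀ y y', f₂' y y' = - f₂' y' y := by
    intro y y'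
    have h3 := hlaw' a₁ a₀ y y'
    rw [pol_symm hQ, ← hf₂'a, om_swap, hom] at h3
    rw [h3]
    ring
  have hsymp : IsSymplecticForm f₂' := by
    refine ⟨⟨?_, ?_, ?_, ?_⟩, hskew, ?_, ?_⟩
    · intro x y v
      simp only [hf₂'a]
      rw [TT_add_right, pol_add_left hQ]
    · intro c x v
      simp only [hf₂'a]
      rw [TT_smul_right, pol_smul_left hQ]
    · intro v x y
      simp only [hf₂'a]
      rw [TT_add_right, pol_add_right hQ]
    · intro c v x
      simp only [hf₂'a]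
      rw [TT_smul_right, pol_smul_right hQ]
    · intro v
      have h3 := hskew v v
      have h4 : (2 : F) * f₂' v v = 0 := by linear_combination h3
      exact (mul_eq_zero.1 h4).resolve_left h2
    · intro v hv
      have hne : TT e' P' a₀ v ≠ 0 := TT_ne_zero e' P' ha₀ hv
      have hex : ∃ x, f₂' v x ≠ 0 := by
        by_contra hcon
        push Not at hcon
        obtain ⟨w, hw⟩ := (hQ.nondegenerate _ hne).2
        apply hw
        change pol Q _ w = 0
        refine span_TT e' P' (fun w => pol Q (TT e' P' a₀ v) w = 0) (pol_zero_right hQ _) ?_ ?_ w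
        · intro u u' hu hu'
          rw [pol_add_right hQ, hu, hu', add_zero]
        · intro a' y'
          rw [hlaw', hcon, mul_zero]
      obtain ⟨x, hx⟩ := hex
      refine ⟨⟨x, ?_⟩, ⟨x, hx⟩⟩
      rw [hskew]
      exact neg_ne_zero.2 hx
  refine ⟨e', P', om, f₂', om_symp, hsymp, Cfsg.Agent.Lib.AschF.Inv.tensor_structure (σf := id) (fun _ => rfl) (hf_polar hQ) e' P' hlaw', ?_, ?_⟩
  · intro x₁ x₂
    change Q (TT e' P' x₁ x₂) = 0
    apply mul_left_cancel₀ h2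
    rw [← pol_self hQ, hlaw', om_self]
    ring
  · -- the group
    have hHI : H ≤ isometryGroup F Q := hHO.trans (omegaGL_le_isometryGroup Q)
    -- all pairs
    have hRul : ∀ h ∈ H, ∀ (α : GL (Fin 3) F) (β : GL (Fin 4) F), (h : Matrix ι ι F) * (P : Matrix ι ι F) = (P : Matrix ι ι F) * kr e α β →
        ∀ b : Fin 2 → F, b ≠ 0 → ∃ b' : Fin 2 → F, ∀ a : Fin 2 → F, ∃ a' : Fin 2 → F,
          ((N⁻¹ * β * N : GL (Fin 4) F) : Matrix (Fin 4) (Fin 4) F) *ᵥ (pureT a b ∘ e₄) = pureT a' b' ∘ e₄ := by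
      intro h hh α β hαβ b hb
      have hact := fun x y => TT_of_kr e P h _ _ hαβ x y
      have hsim : ∀ y y', f₂ y y' = 0 → f₂ ((β : Matrix (Fin 4) (Fin 4) F) *ᵥ y) ((β : Matrix (Fin 4) (Fin 4) F) *ᵥ y') = 0 := by
        intro y y' hy
        have hv : (Pi.single 0 1 : Fin 3 → F) ≠ 0 := by
          intro h0
          have := congrFun h0 0
          simp at this
        obtain ⟨-, u', hu'⟩ := hf₁.nd _ hv
        have h3 := polar_isom (hHI hh) (TT e P (((α⁻¹ : GL (Fin 3) F) : Matrix (Fin 3) (Fin 3) F) *ᵥ (Pi.single 0 1)) y)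
          (TT e P (((α⁻¹ : GL (Fin 3) F) : Matrix (Fin 3) (Fin 3) F) *ᵥ u') y')
        rw [hact, hact, mulVec_inv_mulVec, mulVec_inv_mulVec] at h3
        change pol Q _ _ = pol Q _ _ at h3
        rw [hlaw, hlaw, hy, mul_zero] at h3
        exact (mul_eq_zero.1 h3).resolve_left hu'
      obtain ⟨b', hb'⟩ := rul_of_parity e₄ h2 hf₂ N hN β hsim (fun Y hY hdY => parity_factor hQ h2 e P hlaw (hHO hh) hαβ Y hY hdY) b hb
      refine ⟨b', fun a => ?_⟩
      obtain ⟨a', ha'⟩ := hb' a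
      refine ⟨a', ?_⟩
      unfold TT at ha'
      rw [Matrix.GeneralLinearGroup.coe_mul, Matrix.GeneralLinearGroup.coe_mul, ← Matrix.mulVec_mulVec, ← Matrix.mulVec_mulVec, ha',
        inv_mulVec_mulVec]
    intro h hh
    obtain ⟨α, β, hαβ⟩ := hmem h hh
    have hαα : ((α⁻¹ : GL (Fin 3) F) : Matrix (Fin 3) (Fin 3) F) * (α : Matrix (Fin 3) (Fin 3) F) = 1 := by
      rw [← Matrix.GeneralLinearGroup.coe_mul, inv_mul_cancel, Matrix.GeneralLinearGroup.coe_one]
    have hαα' : (α : Matrix (Fin 3) (Fin 3) F) * ((α⁻¹ : GL (Fin 3) F) : Matrix (Fin 3) (Fin 3) F) = 1 := by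
      rw [← Matrix.GeneralLinearGroup.coe_mul, mul_inv_cancel, Matrix.GeneralLinearGroup.coe_one]
    have hββ' : (β : Matrix (Fin 4) (Fin 4) F) * ((β⁻¹ : GL (Fin 4) F) : Matrix (Fin 4) (Fin 4) F) = 1 := by
      rw [← Matrix.GeneralLinearGroup.coe_mul, mul_inv_cancel, Matrix.GeneralLinearGroup.coe_one]
    have hinv : ((h⁻¹ : GL ι F) : Matrix ι ι F) * (P : Matrix ι ι F) = (P : Matrix ι ι F) * kr e ((α⁻¹ : GL (Fin 3) F) : Matrix (Fin 3) (Fin 3) F) ((β⁻¹ : GL (Fin 4) F) : Matrix (Fin 4) (Fin 4) F) := by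
      have hhh : ((h⁻¹ : GL ι F) : Matrix ι ι F) * (h : Matrix ι ι F) = 1 := by
        rw [← Matrix.GeneralLinearGroup.coe_mul, inv_mul_cancel, Matrix.GeneralLinearGroup.coe_one]
      calc ((h⁻¹ : GL ι F) : Matrix ι ι F) * (P : Matrix ι ι F)
          = ((h⁻¹ : GL ι F) : Matrix ι ι F) * ((P : Matrix ι ι F) * (kr e α β * kr e ((α⁻¹ : GL (Fin 3) F) : Matrix (Fin 3) (Fin 3) F) ((β⁻¹ : GL (Fin 4) F) : Matrix (Fin 4) (Fin 4) F))) := by
            rw [kr_mul, hαα', hββ', kr_one, mul_one]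
        _ = ((h⁻¹ : GL ι F) : Matrix ι ι F) * ((h : Matrix ι ι F) * (P : Matrix ι ι F)) * kr e ((α⁻¹ : GL (Fin 3) F) : Matrix (Fin 3) (Fin 3) F) ((β⁻¹ : GL (Fin 4) F) : Matrix (Fin 4) (Fin 4) F) := by
            rw [hαβ]
            simp only [mul_assoc]
        _ = _ := by
            rw [← mul_assoc, hhh, one_mul]
    have hgroup : (N⁻¹ * β * N : GL (Fin 4) F)⁻¹ = N⁻¹ * β⁻¹ * N := by
      group
    obtain ⟨γ, δ₂, hT⟩ := kr_of_rul e₄ (N⁻¹ * β * N) (hRul h hh α β hαβ) (by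
      rw [hgroup]
      exact hRul h⁻¹ (H.inv_mem hh) α⁻¹ β⁻¹ hinv)
    have hβN : (β : Matrix (Fin 4) (Fin 4) F) * (N : Matrix (Fin 4) (Fin 4) F) = (N : Matrix (Fin 4) (Fin 4) F) * kr e₄ γ δ₂ := by
      have hNN : (N : Matrix (Fin 4) (Fin 4) F) * ((N⁻¹ : GL (Fin 4) F) : Matrix (Fin 4) (Fin 4) F) = 1 := by
        rw [← Matrix.GeneralLinearGroup.coe_mul, mul_inv_cancel, Matrix.GeneralLinearGroup.coe_one]
      rw [← hT, Matrix.GeneralLinearGroup.coe_mul, Matrix.GeneralLinearGroup.coe_mul, ← mul_assoc, ← mul_assoc, hNN, one_mul]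
    obtain ⟨δ, hδ⟩ := exists_krGL e₆ α δ₂
    refine mem_tensorProductSubgroup e' P' h γ δ ?_
    have hkr : kr e (α : Matrix (Fin 3) (Fin 3) F) (kr e₄ γ δ₂) = kr e' γ (δ : Matrix (Fin 6) (Fin 6) F) := by
      rw [hδ]
      ext i j
      simp only [kr, he', eTwoSix, Equiv.coe_fn_mk, Equiv.apply_symm_apply]
      ring
    rw [hP'v, ← hkr, ← mul_assoc, hαβ, mul_assoc, mul_assoc, kr_mul, kr_mul, mul_one, one_mul, hβN]

end Cfsg.Agent.Lib.CmaxE.Ten34
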