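import Mathlib
import Cfsg.Agent.Lib.CmaxE.Plus10
import Cfsg.Agent.Lib.CmaxE.Six
import Cfsg.Agent.Lib.CmaxE.Ten26
import Cfsg.Agent.Lib.CmaxE.Ten34c

/-!
# Maximal subgroups of `Ω⁺` in dimension twelve
-/

set_option autoImplicit false

namespace Cfsg.Agent.Lib.CmaxE.Plus12

open Matrix Module Cfsg Cfsg.Geo
open Cfsg.Agent.Lib.Geo.Basic Cfsg.Agent.Lib.Geo.Polar Cfsg.Agent.Lib.Geo.QForm
open Cfsg.Agent.Lib.GeoOmega.Basic Cfsg.Agent.Lib.AschF.OmegaP
open Cfsg.Agent.Lib.GeoOmega.Nondeg Cfsg.Agent.Lib.GeoOmega.NondegW Cfsg.Agent.Lib.GeoOmega.Singular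
open Cfsg.Agent.Lib.NotMax.Tensor (TT pureT)
open Cfsg.Agent.Lib.AschF.Adj (HF)
open Cfsg.Agent.Lib.AschF.OddA (polar_isom Q_isom card_eq_of_decomp hf_polar exists_max_of_not_prime)
open Cfsg.Agent.Lib.AschF.OddC (eps_eq_one_of_odd symmetric_of_HF)
open Cfsg.Agent.Lib.AschF.OddMax (perp_facts two_ne_zero_of_odd subfield_ne_top)
open Cfsg.Agent.Lib.Asch.MaxSL (eq_inf_of_le)
open Cfsg.Agent.Lib.Asch.MaxSN (field_dvd)
open Cfsg.Agent.Lib.Asch.Kr (kr)
open Cfsg.Agent.Lib.CmaxE.Core Cfsg.Agent.Lib.CmaxE.Proper Cfsg.Agent.Lib.CmaxE.Plus Cfsg.Agent.Lib.CmaxE.Ten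
open Cfsg.Agent.Lib.CmaxE.Common Cfsg.Agent.Lib.CmaxE.Sub2 Cfsg.Agent.Lib.CmaxE.Five
open Cfsg.Agent.Lib.CmaxE.BinK Cfsg.Agent.Lib.CmaxE.Ten10 Cfsg.Agent.Lib.CmaxE.Par
open Cfsg.Agent.Lib.CmaxE.Six Cfsg.Agent.Lib.CmaxE.Ten26 Cfsg.Agent.Lib.CmaxE.Ten34
open Cfsg.Agent.Lib.CmaxE.Plus10 (card_ne_six)

universe u

variable {ι : Type} [Fintype ι] [DecidableEq ι] {F : Type u} [Field F] [Fintype F] {Q : (ι → F) → F}

variable (hQ : IsNondegenerateQuadraticForm Q)
include hQ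

/-- The structure theorem for the groups of plus type in dimension twelve. -/
theorem plus12_structure (hn : Fintype.card ι = 12) (hplus : IsPlusTypeOn Q ⊤) {H : Subgroup (GL ι F)}
    (hH : IsMaximalIn (omegaGL Q) H) :
    (∃ W : Submodule F (ι → F), W ≠ ⊥ ∧ IsTotallySingularQuad Q W ∧ finrank F W ≠ 5 ∧ H = subspaceStabilizer W ⊓ omegaGL Q) ∨
    (Odd (Fintype.card F) ∧ ∃ W : Submodule F (ι → F), W ≠ ⊥ ∧ W ≠ ⊤ ∧ Odd (finrank F W) ∧ 2 * finrank F W ≠ 12 ∧
      IsNondegenerateOn (QuadraticMap.polar Q) W ∧ H = subspaceStabilizer W ⊓ omegaGL Q) ∨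
    (∃ W : Submodule F (ι → F), finrank F W = 2 ∧ IsNondegenerateOn (QuadraticMap.polar Q) W ∧ ¬ IsPlusTypeOn Q W ∧
      H = subspaceStabilizer W ⊓ omegaGL Q) ∨
    (4 ≤ Fintype.card F ∧ ∃ W : Submodule F (ι → F), finrank F W = 2 ∧ IsNondegenerateOn (QuadraticMap.polar Q) W ∧ IsPlusTypeOn Q W ∧
      H = subspaceStabilizer W ⊓ omegaGL Q) ∨
    (∃ W : Submodule F (ι → F), finrank F W = 4 ∧ IsNondegenerateOn (QuadraticMap.polar Q) W ∧ H = subspaceStabilizer W ⊓ omegaGL Q) ∨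
    (¬ Odd (Fintype.card F) ∧ ∃ v : ι → F, Q v ≠ 0 ∧ H = subspaceStabilizer (Submodule.span F {v}) ⊓ omegaGL Q) ∨
    ((∃ p : ℕ, p.Prime ∧ Odd p ∧ Fintype.card F = p) ∧ ∃ D : Fin 12 → Submodule F (ι → F), IsOrthogonalMDecomposition Q 1 D ∧
      H = decompositionStabilizer D ⊓ omegaGL Q) ∨
    (7 ≤ Fintype.card F ∧ ∃ D : Fin 6 → Submodule F (ι → F), IsOrthogonalMDecomposition Q 2 D ∧ (∀ i, IsPlusTypeOn Q (D i)) ∧
      H = decompositionStabilizer D ⊓ omegaGL Q) ∨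
    (Fintype.card F ≠ 3 ∧ ∃ D : Fin 6 → Submodule F (ι → F), IsOrthogonalMDecomposition Q 2 D ∧ (∀ i, ¬ IsPlusTypeOn Q (D i)) ∧
      H = decompositionStabilizer D ⊓ omegaGL Q) ∨
    (Odd (Fintype.card F) ∧ 5 ≤ Fintype.card F ∧ ∃ D : Fin 4 → Submodule F (ι → F), IsOrthogonalMDecomposition Q 3 D ∧
      H = decompositionStabilizer D ⊓ omegaGL Q) ∨
    (3 ≤ Fintype.card F ∧ ∃ D : Fin 3 → Submodule F (ι → F), IsOrthogonalMDecomposition Q 4 D ∧ H = decompositionStabilizer D ⊓ omegaGL Q) ∨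
    (∃ D : Fin 2 → Submodule F (ι → F), IsOrthogonalMDecomposition Q 6 D ∧ H = decompositionStabilizer D ⊓ omegaGL Q) ∨
    (∃ D : Fin 2 → Submodule F (ι → F), IsMDecomposition 6 D ∧ (∀ i, IsTotallySingularQuad Q (D i)) ∧ H = decompositionStabilizer D ⊓ omegaGL Q) ∨
    (∃ K : Subalgebra F (Matrix ι ι F), IsFieldSubalgebra 2 K ∧ H = subalgebraNormalizer K ⊓ omegaGL Q) ∨
    (∃ K : Subalgebra F (Matrix ι ι F), IsFieldSubalgebra 3 K ∧ H = subalgebraNormalizer K ⊓ omegaGL Q) ∨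
    (3 ≤ Fintype.card F ∧ ∃ (e : ι ≃ Fin 2 × Fin 6) (P : GL ι F) (f₁ : (Fin 2 → F) → (Fin 2 → F) → F) (f₂ : (Fin 6 → F) → (Fin 6 → F) → F),
      IsSymplecticForm f₁ ∧ IsSymplecticForm f₂ ∧ IsTensorFormStructure id (QuadraticMap.polar Q) f₁ f₂ e P ∧
      (∀ (x₁ : Fin 2 → F) (x₂ : Fin 6 → F), Q ((P : Matrix ι ι F) *ᵥ ((fun a : Fin 2 × Fin 6 => x₁ a.1 * x₂ a.2) ∘ e)) = 0) ∧
      H = tensorProductSubgroup 2 6 e P ⊓ omegaGL Q) ∨
    (∃ (F₀ : Subfield F) (r : ℕ) (P : GL ι F) (ζ : F), r.Prime ∧ Fintype.card F = Nat.card F₀ ^ r ∧ ζ ≠ 0 ∧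
      IsQuadFormRationalStructure (fun v : ι → F => ζ * Q v) F₀ P ∧ H = subfieldSubgroup F₀ P ⊓ omegaGL Q) ∨
    InOrthogonalResidualClass H := by
  classical
  have hHO : H ≤ omegaGL Q := hH.1.le
  have hHI : H ≤ isometryGroup F Q := hHO.trans (omegaGL_le_isometryGroup Q)
  have hι : 7 ≤ Fintype.card ι := by omega
  have hn4 : 4 ∣ Fintype.card ι := by rw [hn]; norm_num
  haveI : Nonempty ι := Fintype.card_pos_iff.1 (by omega)
  by_contra hcon
  simp only [not_or] at hcon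
  obtain ⟨c₁, c₂, c₃, c₄, c₅, c₆, c₇, c₈, c₉, c₁₀, c₁₁, c₁₂, c₁₃, c₁₄, c₁₅, c₁₆, c₁₇, c₁₈⟩ := hcon
  have hoddq : ¬ (2 : F) = 0 → Fintype.card F % 2 = 1 := by
    intro h2
    apply FiniteField.odd_card_of_char_ne_two
    intro h
    apply h2
    have := ringChar.Nat.cast_ringChar (R := F)
    rw [h] at this
    exact_mod_cast this
  -- the fields, one at a time
  have hts5 : ∀ W : Submodule F (ι → F), W ≠ ⊥ → IsTotallySingularQuad Q W → finrank F W ≠ 5 → H ≤ subspaceStabilizer W → False := fun W h0 h1 h4 h3 =>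
    c₁ ⟨W, h0, h1, h4, eq_inf_of_le hH h3 (omega_not_le_stab hQ hι h0 (ne_top_of_ts hQ h1))⟩
  have hts : ∀ W : Submodule F (ι → F), W ≠ ⊥ → IsTotallySingularQuad Q W → H ≤ subspaceStabilizer W → False := by
    intro W h0 h1 h3
    by_cases h4 : finrank F W = 5
    · obtain ⟨W₁, h5, h6, h7, h8⟩ := ts_up hQ hplus h1 (by omega) hHO h3
      exact hts5 W₁ h5 h6 (by omega) h8
    · exact hts5 W h0 h1 h4 h3
  have hhalf : ∀ W₁ : Submodule F (ι → F), finrank F W₁ = 6 → IsNondegenerateOn (QuadraticMap.polar Q) W₁ → H ≤ subspaceStabilizer W₁ → False := by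
    intro W₁ h5 hW₁ hle
    obtain ⟨hW₁', hfr'⟩ := perp_facts hQ hW₁
    have hdecO := orthDec_of_nd hQ hW₁
    have hm := mdec_pair (k := 6) (by norm_num) h5 (by omega) hdecO.inf hdecO.sup
    let D : Fin 2 → Submodule F (ι → F) := ![W₁, (polB hQ).orthogonal W₁]
    have hN : IsNondegenerateMDecomposition (QuadraticMap.polar Q) 6 D := by
      refine ⟨hm, ?_, ?_⟩
      · intro i
        fin_cases i
        · exact hW₁
        · exact hW₁'
      · intro i j hij x hx y hy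
        fin_cases i <;> fin_cases j
        · exact absurd rfl hij
        · exact hdecO.orth x hx y hy
        · change pol Q x y = 0
          rw [pol_symm hQ]
          exact hdecO.orth y hy x hx
        · exact absurd rfl hij
    have hleD : H ≤ decompositionStabilizer D := by
      intro g hg
      refine Cfsg.Agent.Lib.Geo.SpDecomp.mem_decompositionStabilizer_of_forall (k := 6) hm.finrank_eq (Equiv.refl _) g ?_
      intro i x hx
      fin_cases i
      · exact (mem_subspaceStabilizer_iff_forall_mem W₁ g).1 (hle hg) x hx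
      · exact (mem_subspaceStabilizer_iff_forall_mem _ g).1 (stab_orth_of_stab hQ (hHI hg) (hle hg)) x hx
    have heq := eq_inf_of_le hH hleD (omega_not_le_dec' hQ hι hm)
    have hiso := iso_half_six hQ hn hplus hW₁ h5
    refine c₁₂ ⟨D, ⟨hN, ?_⟩, heq⟩
    have hsymm : AreIsometricFor Q ((polB hQ).orthogonal W₁) W₁ := by
      obtain ⟨e, he⟩ := hiso
      refine ⟨e.symm, fun x => ?_⟩
      have h7 := he (e.symm x)
      rw [LinearEquiv.apply_symm_apply] at h7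
      exact h7.symm
    intro i j
    fin_cases i <;> fin_cases j
    · exact ⟨LinearEquiv.refl F _, fun _ => rfl⟩
    · exact hiso
    · exact hsymm
    · exact ⟨LinearEquiv.refl F _, fun _ => rfl⟩
  have hnd : ∀ W : Submodule F (ι → F), W ≠ ⊥ → W ≠ ⊤ → IsNondegenerateOn (pol Q) W → H ≤ subspaceStabilizer W → False := by
    intro W h0 h1 h3 h4
    rcases nd_normal_even hQ hι hn4 hH h0 h1 h3 h4 with h | h | h | h | h
    · obtain ⟨hodd, W', h5, h6, h7, h8, h9, h10⟩ := h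
      rw [hn] at h8
      exact c₂ ⟨hodd, W', h5, h6, h7, h8, h9, h10⟩
    · exact c₃ h
    · exact c₄ h
    · exact c₆ h
    · obtain ⟨W', h5, h6, h7, h8, h9⟩ := h
      obtain ⟨r, hr⟩ := h7
      rw [hn] at h6
      have h10 : finrank F W' = 4 ∨ finrank F W' = 6 := by omega
      rcases h10 with h10 | h10
      · exact c₅ ⟨W', h10, h8, h9⟩
      · refine hhalf W' h10 h8 ?_
        rw [h9]
        exact inf_le_left
  have hns : ∀ v : ι → F, (2 : F) = 0 → Q v ≠ 0 → H ≤ subspaceStabilizer (Submodule.span F {v}) → False := by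
    intro v h2 hv hle
    refine c₆ ⟨?_, v, hv, stab_line_eq hQ hι hH hv hle⟩
    intro hodd
    exact two_ne_zero_of_odd hodd h2
  have hirr : ∀ W : Submodule F (ι → F), (∀ g ∈ H, ∀ v ∈ W, (g : Matrix ι ι F) *ᵥ v ∈ W) → W = ⊥ ∨ W = ⊤ := by
    intro W hinv
    by_contra hc
    push Not at hc
    rcases reducible_quad hQ hHI hinv with ⟨W', h0, h1, h3⟩ | h | ⟨h2, v, hv, hle⟩
    · exact hts W' h0 h1 h3
    · exact hnd W hc.1 hc.2 h (fun g hg => (mem_subspaceStabilizer_iff_forall_mem W g).2 (hinv g hg))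
    · exact hns v h2 hv hle
  have hdec : ∀ (t k : ℕ) (D : Fin t → Submodule F (ι → F)), IsOrthogonalMDecomposition Q k D → H ≤ decompositionStabilizer D → False := by
    intro t k D hD hle
    have hc := card_eq_of_decomp hD.decomp.decomp
    have ht2 := hD.decomp.decomp.two_le
    have heq := eq_inf_of_le hH hle (omega_not_le_dec' hQ hι hD.decomp.decomp)
    have hnotK : ∀ K : Subgroup (GL ι F), decompositionStabilizer D ⊓ omegaGL Q < K → K < omegaGL Q → False := by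
      intro K hK1 hK2
      rw [← heq] at hK1
      rcases hH.2 K hK1.le hK2.le with h | h
      · exact hK1.ne h.symm
      · exact hK2.ne h
    have htk : (t = 2 ∧ k = 6) ∨ (t = 3 ∧ k = 4) ∨ (t = 4 ∧ k = 3) ∨ (t = 6 ∧ k = 2) ∨ (t = 12 ∧ k = 1) := by
      rw [hn] at hc
      have htd : t ∣ 12 := ⟨k, hc⟩
      have h9 : t ≤ 12 := Nat.le_of_dvd (by norm_num) htd
      interval_cases t <;> first
        | omega
        | exact absurd htd (by decide)
    have hq2 : 2 ≤ Fintype.card F := Fintype.one_lt_card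
    rcases htk with ⟨rfl, rfl⟩ | ⟨rfl, rfl⟩ | ⟨rfl, rfl⟩ | ⟨rfl, rfl⟩ | ⟨rfl, rfl⟩
    · exact c₁₂ ⟨D, hD, heq⟩
    · by_cases hq3 : 3 ≤ Fintype.card F
      · exact c₁₁ ⟨hq3, D, hD, heq⟩
      · have hq : Fintype.card F = 2 := by omega
        obtain ⟨K, hK1, hK2⟩ := Cfsg.Agent.Lib.NotMax.OmegaFrame.q2_four_not_maximal hq hQ hι hD.decomp
          (parts_plus hQ hD (s := 1) rfl (by norm_num) (by decide) hplus) (by norm_num)
        exact hnotK K hK1 hK2
    · have h2 : (2 : F) ≠ 0 := by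
        intro h2
        have h3 := even_of_nd_two hQ h2 (hD.decomp.nondegenerate 0)
        rw [hD.decomp.decomp.finrank_eq 0] at h3
        exact absurd h3 (by decide)
      have hq1 := hoddq h2
      by_cases hq3 : Fintype.card F = 3
      · obtain ⟨K, hK1, hK2⟩ := Cfsg.Agent.Lib.NotMax.OmegaFrame.q3_not_maximal hq3 hQ hι (Or.inr rfl) hD (by norm_num)
        exact hnotK K hK1 hK2
      · exact c₁₀ ⟨Nat.odd_iff.2 hq1, by omega, D, hD, heq⟩
    · by_cases hp : ∃ i, IsPlusTypeOn Q (D i)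
      · obtain ⟨i, hi⟩ := hp
        have hparts : ∀ j, IsPlusTypeOn Q (D j) := fun j => Cfsg.Agent.Lib.Geo.Om2.plus_iso (hD.isometric i j) hi
        by_cases hq7 : 7 ≤ Fintype.card F
        · exact c₈ ⟨hq7, D, hD, hparts, heq⟩
        · have hq6 := card_ne_six (ι := ι) hQ
          have hcases : Fintype.card F = 2 ∨ Fintype.card F = 3 ∨ Fintype.card F = 4 ∨ Fintype.card F = 5 := by omega
          rcases hcases with hq | hq | hq | hq
          · obtain ⟨K, hK1, hK2⟩ := Cfsg.Agent.Lib.NotMax.OmegaFrame.q2_plane_not_maximal hq hQ hι hD.decomp hparts (by norm_num)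
            exact hnotK K hK1 hK2
          · obtain ⟨K, hK1, hK2⟩ := Cfsg.Agent.Lib.NotMax.OmegaFrame.q3_not_maximal hq hQ hι (Or.inl rfl) hD (by norm_num)
            exact hnotK K hK1 hK2
          · obtain ⟨K, hK1, hK2⟩ := Cfsg.Agent.Lib.NotMax.OmegaFrame.q4_not_maximal hq hQ hι hD.decomp hparts (by norm_num)
            exact hnotK K hK1 hK2
          · obtain ⟨K, hK1, hK2⟩ := Cfsg.Agent.Lib.NotMax.OmegaFrame.q5_not_maximal hq hQ hι hD.decomp hparts (by norm_num)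
            exact hnotK K hK1 hK2
      · push Not at hp
        by_cases hq3 : Fintype.card F = 3
        · obtain ⟨K, hK1, hK2⟩ := Cfsg.Agent.Lib.NotMax.OmegaFrame.q3_not_maximal hq3 hQ hι (Or.inl rfl) hD (by norm_num)
          exact hnotK K hK1 hK2
        · exact c₉ ⟨hq3, D, hD, hp, heq⟩
    · have h2 : (2 : F) ≠ 0 := by
        intro h2
        have h3 := even_of_nd_two hQ h2 (hD.decomp.nondegenerate 0)
        rw [hD.decomp.decomp.finrank_eq 0] at h3
        exact absurd h3 (by decide)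
      have hq1 := hoddq h2
      by_cases hp : (Fintype.card F).Prime
      · exact c₇ ⟨⟨_, hp, Nat.odd_iff.2 hq1, rfl⟩, D, hD, heq⟩
      · obtain ⟨F₁, s, hs, hcard⟩ := exists_max_of_not_prime hp
        obtain ⟨E, ζ, hζ, hrat, hleE⟩ := frame_subfield hQ h2 hD hHI hle F₁
        exact c₁₇ ⟨F₁, s, E, ζ, hs, hcard, hζ, hrat,
          eq_inf_of_le hH hleE (omega_not_le_subfield' hQ hι (subfield_ne_top hs hcard) E)⟩
  have hpair : ∀ (k : ℕ) (D : Fin 2 → Submodule F (ι → F)), IsMDecomposition k D → (∀ i, IsTotallySingularQuad Q (D i)) →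
      H ≤ decompositionStabilizer D → False := by
    intro k D hD hts' hle
    have hc := card_eq_of_decomp hD
    rw [hn] at hc
    have hk6 : k = 6 := by omega
    subst hk6
    exact c₁₃ ⟨D, hD, hts', eq_inf_of_le hH hle (omega_not_le_dec' hQ hι hD)⟩
  have hF2 : ∀ K : Subalgebra F (Matrix ι ι F), IsFieldSubalgebra 2 K → H ≤ subalgebraNormalizer K → False := fun K hK hle =>
    c₁₄ ⟨K, hK, eq_inf_of_le hH hle (omega_not_le_field' hQ hι (by norm_num) hK)⟩
  refine c₁₈ (main_of_noclassE hQ (by omega) hHI ⟨hts, hnd, hns, hdec, hpair, ?_, ?_, ?_, ?_, ?_⟩)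
  · -- fields
    intro r K hr hK _ hle
    have hd := field_dvd hK
    rw [hn] at hd
    have hr23 : r = 2 ∨ r = 3 := by
      have h3 : r ∣ 2 ^ 2 * 3 := hd
      rcases (Nat.Prime.dvd_mul hr).1 h3 with h4 | h4
      · exact Or.inl ((Nat.prime_dvd_prime_iff_eq hr Nat.prime_two).1 (hr.dvd_of_dvd_pow h4))
      · exact Or.inr ((Nat.prime_dvd_prime_iff_eq hr Nat.prime_three).1 h4)
    rcases hr23 with rfl | rfl
    · exact hF2 K hK hle
    · exact c₁₅ ⟨K, hK, eq_inf_of_le hH hle (omega_not_le_field' hQ hι (by norm_num) hK)⟩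
  · -- tensor products
    intro a b e P f₁ f₂ ε₁ ε₂ ha hb hf₁ hf₂ hεε hlaw hmem
    have hcard : Fintype.card ι = a * b := by
      rw [Fintype.card_congr e]
      simp
    have hkrswap : ∀ (X : Matrix (Fin a) (Fin a) F) (Y : Matrix (Fin b) (Fin b) F), kr (e.trans (Equiv.prodComm _ _)) Y X = kr e X Y := by
      intro X Y
      ext i j
      simp [kr, mul_comm]
    have hlawS : ∀ (y y' : Fin b → F) (x x' : Fin a → F), pol Q (TT (e.trans (Equiv.prodComm _ _)) P y x) (TT (e.trans (Equiv.prodComm _ _)) P y' x') = f₂ y y' * f₁ x x' := by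
      intro y y' x x'
      rw [TT_swap, TT_swap, hlaw, mul_comm]
    have hmemS : ∀ h ∈ H, ∃ (β : GL (Fin b) F) (α : GL (Fin a) F), (h : Matrix ι ι F) * (P : Matrix ι ι F) =
        (P : Matrix ι ι F) * kr (e.trans (Equiv.prodComm _ _)) β α := by
      intro h hh
      obtain ⟨α, β, hαβ⟩ := hmem h hh
      exact ⟨β, α, by rw [hkrswap, hαβ]⟩
    have hab : (a = 2 ∧ b = 6) ∨ (a = 6 ∧ b = 2) ∨ (a = 3 ∧ b = 4) ∨ (a = 4 ∧ b = 3) := by
      rw [hn] at hcard
      have had : a ∣ 12 := ⟨b, hcard⟩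
      have h9 : a ≤ 12 := Nat.le_of_dvd (by norm_num) had
      interval_cases a <;> first
        | omega
        | exact absurd had (by decide)
    -- a binary factor
    have htwo : ∀ (e' : ι ≃ Fin 2 × Fin 6) {g₁ : (Fin 2 → F) → (Fin 2 → F) → F} {g₂ : (Fin 6 → F) → (Fin 6 → F) → F}
        {δ₁ δ₂ : F}, HF (RingEquiv.refl F) δ₁ g₁ → HF (RingEquiv.refl F) δ₂ g₂ → δ₁ * δ₂ = 1 →
        (∀ x x' y y', pol Q (TT e' P x y) (TT e' P x' y') = g₁ x x' * g₂ y y') →
        (∀ h ∈ H, ∃ (α : GL (Fin 2) F) (β : GL (Fin 6) F), (h : Matrix ι ι F) * (P : Matrix ι ι F) =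
          (P : Matrix ι ι F) * kr e' α β) → False := by
      intro e' g₁ g₂ δ₁ δ₂ hg₁ hg₂ hδδ hlaw' hmem'
      rcases ten_two_six hQ (by norm_num) hHI hirr e' P hg₁ hg₂ hδδ hlaw' hmem' with ⟨hq3, h1, h3, h4, h5, hle⟩ | ⟨D, hD, hts', hle⟩ | ⟨K, hK, hle⟩
      · exact c₁₆ ⟨hq3, e', P, g₁, g₂, h1, h3, h4, h5, eq_inf_of_le hH hle (omega_not_le_tensor hQ hι (by norm_num) (by norm_num) e' P)⟩
      · exact hpair _ D hD hts' hle
      · exact hF2 K hK hle
    -- a ternary factor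
    have hthree : ∀ (e' : ι ≃ Fin 3 × Fin 4) {g₁ : (Fin 3 → F) → (Fin 3 → F) → F} {g₂ : (Fin 4 → F) → (Fin 4 → F) → F}
        {δ₁ δ₂ : F}, HF (RingEquiv.refl F) δ₁ g₁ → HF (RingEquiv.refl F) δ₂ g₂ → δ₁ * δ₂ = 1 →
        (∀ x x' y y', pol Q (TT e' P x y) (TT e' P x' y') = g₁ x x' * g₂ y y') →
        (∀ h ∈ H, ∃ (α : GL (Fin 3) F) (β : GL (Fin 4) F), (h : Matrix ι ι F) * (P : Matrix ι ι F) =
          (P : Matrix ι ι F) * kr e' α β) → False := by
      intro e' g₁ g₂ δ₁ δ₂ hg₁ hg₂ hδδ hlaw' hmem'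
      have hact' : ∀ h ∈ H, ∃ (α : GL (Fin 3) F) (β : GL (Fin 4) F), ∀ x y, (h : Matrix ι ι F) *ᵥ TT e' P x y =
          TT e' P ((α : Matrix (Fin 3) (Fin 3) F) *ᵥ x) ((β : Matrix (Fin 4) (Fin 4) F) *ᵥ y) := by
        intro h hh
        obtain ⟨α, β, hαβ⟩ := hmem' h hh
        exact ⟨α, β, TT_of_kr e' P h _ _ hαβ⟩
      have hδ₁ := eps_eq_one_of_odd hg₁ (by decide)
      subst hδ₁
      rw [one_mul] at hδδ
      subst hδδ
      by_cases h2 : (2 : F) = 0
      · -- characteristic two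
        have halt := alt_left hQ h2 hHI hirr (by norm_num) (by norm_num) e' P hg₁ hg₂ hlaw' hact'
        have hsym := symmetric_of_HF hg₁
        have hev := even_of_symplectic (f := g₁) ⟨hsym.bilinear, fun v w => ?_, halt, hsym.nondegenerate⟩ (W := ⊤) (by
          intro v _ hv0
          obtain ⟨⟨x, hx⟩, ⟨y, hy⟩⟩ := hsym.nondegenerate v hv0
          exact ⟨⟨x, trivial, hx⟩, ⟨y, trivial, hy⟩⟩)
        · rw [finrank_top, finrank_fintype_fun_eq_card, Fintype.card_fin] at hev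
          exact absurd hev (by decide)
        · rw [hsym.symm v w]
          linear_combination (g₁ w v) * h2
      -- odd characteristic
      have hq3 : 3 ≤ Fintype.card F := by
        have h5 := hoddq h2
        have h6 : 2 ≤ Fintype.card F := Fintype.one_lt_card
        omega
      obtain ⟨e'', P'', g₁', g₂', h3, h4, h5, h6, hle⟩ := ten34 hQ h2 hplus hHO e' P hg₁ hg₂ hlaw' hmem'
      exact c₁₆ ⟨hq3, e'', P'', g₁', g₂', h3, h4, h5, h6, eq_inf_of_le hH hle (omega_not_le_tensor hQ hι (by norm_num) (by norm_num) e'' P'')⟩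
    rcases hab with ⟨rfl, rfl⟩ | ⟨rfl, rfl⟩ | ⟨rfl, rfl⟩ | ⟨rfl, rfl⟩
    · exact htwo e hf₁ hf₂ hεε hlaw hmem
    · exact htwo (e.trans (Equiv.prodComm _ _)) hf₂ hf₁ (by rw [mul_comm]; exact hεε) hlawS hmemS
    · exact hthree e hf₁ hf₂ hεε hlaw hmem
    · exact hthree (e.trans (Equiv.prodComm _ _)) hf₂ hf₁ (by rw [mul_comm]; exact hεε) hlawS hmemS
  · -- tensor powers
    intro a k e₂ P₂ A ε₁ c ha hk hA hc hlaw' _ hle
    have hcard : Fintype.card ι = a ^ k := by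
      rw [Fintype.card_congr e₂]
      simp
    rw [hn] at hcard
    exfalso
    have ha3 : a ≤ 3 := by
      by_contra ha4
      have h3 : 4 ^ 2 ≤ a ^ k := (Nat.pow_le_pow_left (by omega : 4 ≤ a) 2).trans (Nat.pow_le_pow_right (by omega) hk)
      omega
    have hk3 : k ≤ 3 := by
      by_contra hk4
      have h3 : 2 ^ 4 ≤ a ^ k := (Nat.pow_le_pow_right (by norm_num) (by omega : 4 ≤ k)).trans (Nat.pow_le_pow_left ha k)
      omega
    interval_cases a <;> interval_cases k <;> omega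
  · -- subfields
    intro F₁ s P ζ hs hc hζ hrat hle
    exact c₁₇ ⟨F₁, s, P, ζ, hs, hc, hζ, hrat,
      eq_inf_of_le hH hle (omega_not_le_subfield' hQ hι (subfield_ne_top hs hc) P)⟩
  · -- symplectic type
    intro R h2 hRH _ hA hSC hx2
    exact false_of_odd_dvd (p := 3) (by norm_num) (by norm_num) (by rw [hn]; norm_num) hA hSC hx2

end Cfsg.Agent.Lib.CmaxE.Plus12
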